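import Mathlib

/-!
Commutators modulo a subgroup normalized by the generators, and nilpotency from a chain.
-/

set_option autoImplicit false

namespace Cfsg.Agent.Lib.RootSubgroups

variable {G : Type*} [Group G]

/-- The elements normalizing `K` whose commutators with `V` lie in `K`. -/
def commSub (K : Subgroup G) (V : Set G) : Subgroup G where
  carrier := {x | x ∈ (Subgroup.normalizer (K : Set G)) ∧ ∀ y ∈ V, x * y * x⁻¹ * y⁻¹ ∈ K}
  one_mem' := ⟨Subgroup.one_mem _, by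
    intro y _
    simp [K.one_mem]⟩
  mul_mem' := by
    rintro x₁ x₂ ⟨h₁, h₁'⟩ ⟨h₂, h₂'⟩
    refine ⟨Subgroup.mul_mem _ h₁ h₂, ?_⟩
    intro y hy
    have e : x₁ * x₂ * y * (x₁ * x₂)⁻¹ * y⁻¹ =
        (x₁ * (x₂ * y * x₂⁻¹ * y⁻¹) * x₁⁻¹) * (x₁ * y * x₁⁻¹ * y⁻¹) := by group
    rw [e]
    exact K.mul_mem ((Subgroup.mem_normalizer_iff.1 h₁ _).1 (h₂' y hy)) (h₁' y hy)
  inv_mem' := by
    rintro x ⟨h, h'⟩
    refine ⟨Subgroup.inv_mem _ h, ?_⟩
    intro y hy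
    have e : x⁻¹ * y * x⁻¹⁻¹ * y⁻¹ = x⁻¹ * (x * y * x⁻¹ * y⁻¹)⁻¹ * x⁻¹⁻¹ := by group
    rw [e]
    exact (Subgroup.mem_normalizer_iff.1 (Subgroup.inv_mem _ h) _).1 (K.inv_mem (h' y hy))

theorem mem_commSub {K : Subgroup G} {V : Set G} {x : G} :
    x ∈ commSub K V ↔ x ∈ (Subgroup.normalizer (K : Set G)) ∧ ∀ y ∈ V, x * y * x⁻¹ * y⁻¹ ∈ K := Iff.rfl

/-- Commutators of the generated subgroups from those of the generators. -/
theorem comm_mem_closure {K : Subgroup G} {U V : Set G} (hU : U ⊆ (Subgroup.normalizer (K : Set G))) (hV : V ⊆ (Subgroup.normalizer (K : Set G)))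
    (h : ∀ u ∈ U, ∀ v ∈ V, u * v * u⁻¹ * v⁻¹ ∈ K) :
    ∀ x ∈ Subgroup.closure U, ∀ y ∈ Subgroup.closure V, x * y * x⁻¹ * y⁻¹ ∈ K := by
  have h1 : Subgroup.closure U ≤ commSub K V := by
    rw [Subgroup.closure_le]
    intro u hu
    exact ⟨hU hu, h u hu⟩
  intro x hx y hy
  have h2 : Subgroup.closure V ≤ commSub K {x} := by
    rw [Subgroup.closure_le]
    intro v hv
    refine ⟨hV hv, ?_⟩
    intro z hz
    rw [Set.mem_singleton_iff.1 hz]
    have := K.inv_mem ((h1 hx).2 v hv)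
    have e : v * x * v⁻¹ * x⁻¹ = (x * v * x⁻¹ * v⁻¹)⁻¹ := by group
    rw [e]
    exact this
  have := K.inv_mem ((h2 hy).2 x rfl)
  have e : x * y * x⁻¹ * y⁻¹ = (y * x * y⁻¹ * x⁻¹)⁻¹ := by group
  rw [e]
  exact this

/-- Subgroups are normalized by those commuting into them. -/
theorem le_normalizer_of_comm {K R : Subgroup G} (h : ∀ x ∈ K, ∀ g ∈ R, x * g * x⁻¹ * g⁻¹ ∈ K) : R ≤ (Subgroup.normalizer (K : Set G)) := by
  intro g hg
  rw [Subgroup.mem_normalizer_iff]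
  have key : ∀ g ∈ R, ∀ x ∈ K, g * x * g⁻¹ ∈ K := by
    intro g hg x hx
    have h1 := K.inv_mem (h x hx g hg)
    have e : g * x * g⁻¹ = (x * g * x⁻¹ * g⁻¹)⁻¹ * x := by group
    rw [e]
    exact K.mul_mem h1 hx
  intro x
  constructor
  · exact key g hg x
  · intro hx
    have := key g⁻¹ (R.inv_mem hg) _ hx
    simpa [mul_assoc] using this

/-- Nilpotency from a finite chain of subgroups of the ambient group. -/
theorem isNilpotent_of_chain (R : Subgroup G) (n : ℕ) (Z : ℕ → Subgroup G) (h0 : R ≤ Z 0) (hn : Z n = ⊥)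
    (hstep : ∀ i, ∀ x ∈ Z i, ∀ g ∈ R, x * g * x⁻¹ * g⁻¹ ∈ Z (i + 1)) : Group.IsNilpotent R := by
  rw [nilpotent_iff_finite_descending_central_series]
  refine ⟨n, fun i => (Z i).subgroupOf R, ⟨?_, ?_⟩, ?_⟩
  · show (Z 0).subgroupOf R = ⊤
    rw [Subgroup.subgroupOf_eq_top]
    exact h0
  · intro x i hx g
    rw [Subgroup.mem_subgroupOf] at hx ⊢
    have := hstep i x hx g g.2
    simpa [commutatorElement_def] using this
  · show (Z n).subgroupOf R = ⊥
    rw [hn]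
    simp

end Cfsg.Agent.Lib.RootSubgroups
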