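import Cfsg.Agent.Lib.RootSubgroups.Commutator

/-!
The configuration `⁅A, B⁆ = C`, `⁅C, D⁆ = A`: then `(B, D)` is a rank one pair, acting on the line `AC`.
-/

set_option autoImplicit false

namespace Cfsg.Agent.Lib.RootSubgroups

open Cfsg

variable {G : Type*} [Group G]

/-- The configuration of subgroups `⁅A, B⁆ = C` and `⁅C, D⁆ = A`. -/
structure LineConfig (S : Set (Subgroup G)) (A B C D : Subgroup G) : Prop where
  hA : A ∈ S
  hB : B ∈ S
  hC : C ∈ S
  hD : D ∈ S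
  eC : ⁅A, B⁆ = C
  eA : ⁅C, D⁆ = A

namespace LineConfig

variable {S : Set (Subgroup G)} {A B C D : Subgroup G}

theorem symm (K : LineConfig S A B C D) : LineConfig S C D A B :=
  ⟨K.hC, K.hD, K.hA, K.hB, K.eA, K.eC⟩

variable (hS : IsRootSubgroupSet S) (K : LineConfig S A B C D)
include hS K

theorem cAB : RootCommutatorCase S A B := commutator_case_of_mem hS K.hA K.hB (by rw [K.eC]; exact K.hC)

theorem comm_cb {c b : G} (hc : c ∈ C) (hb : b ∈ B) : c * b = b * c :=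
  (K.cAB hS).2.1 c (by rw [K.eC]; exact hc) b (Subgroup.mem_sup_right hb)

theorem comm_ca {c a : G} (hc : c ∈ C) (ha : a ∈ A) : c * a = a * c :=
  (K.cAB hS).2.1 c (by rw [K.eC]; exact hc) a (Subgroup.mem_sup_left ha)

theorem comm_ad {a d : G} (ha : a ∈ A) (hd : d ∈ D) : a * d = d * a := K.symm.comm_cb hS ha hd

theorem inf_eq_bot : A ⊓ C = ⊥ := by
  rw [eq_bot_iff]
  intro x hx
  by_contra hx1
  have hx1' : x ≠ 1 := hx1
  obtain ⟨hxA, hxC⟩ := hx
  have h1 := (K.cAB hS).2.2.1 x hxA hx1'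
  rw [K.eC] at h1
  apply hS.ne_bot C K.hC
  rw [← h1, eq_bot_iff, Subgroup.closure_le]
  rintro _ ⟨b, hb, rfl⟩
  have : x * b = b * x := K.comm_cb hS hxC hb
  simp [this]

theorem exists_conj {a c : G} (ha : a ∈ A) (ha1 : a ≠ 1) (hc : c ∈ C) : ∃ b ∈ B, b⁻¹ * a * b = a * c :=
  exists_conj_eq_mul (K.cAB hS) (hS.commutative B K.hB) ha ha1 (by rw [K.eC]; exact hc)

/-- `(B, D)` do not commute. -/
theorem not_commute_BD : ⁅B, D⁆ ≠ ⊥ := by
  intro h1
  apply hS.ne_bot A K.hA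
  rw [← K.eA, eq_bot_iff, Subgroup.commutator_le]
  intro c hc d hd
  have hle : C ≤ Subgroup.centralizer ({d} : Set G) := by
    rw [← K.eC, Subgroup.commutator_le]
    intro a ha b hb
    have h2 : a ∈ Subgroup.centralizer ({d} : Set G) := by
      rw [Subgroup.mem_centralizer_iff]
      intro w hw
      rw [Set.mem_singleton_iff.1 hw]
      exact (K.comm_ad hS ha hd).symm
    have h3 : b ∈ Subgroup.centralizer ({d} : Set G) := by
      rw [Subgroup.mem_centralizer_iff]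
      intro w hw
      rw [Set.mem_singleton_iff.1 hw]
      exact (commute_of_commutator_eq_bot h1 hb hd).symm
    exact Subgroup.mul_mem _ (Subgroup.mul_mem _ (Subgroup.mul_mem _ h2 h3) (Subgroup.inv_mem _ h2))
      (Subgroup.inv_mem _ h3)
  have h4 := (Subgroup.mem_centralizer_iff).1 (hle hc) d rfl
  have : c * d = d * c := h4.symm
  simp [commutatorElement_def, this]

/-- `(B, D)` are not in the commutator case. -/
theorem not_commutator_BD : ¬ RootCommutatorCase S B D := by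
  intro hcBD
  obtain ⟨a, ha, ha1⟩ : ∃ a ∈ A, a ≠ 1 := by
    obtain ⟨x, hx⟩ := Subgroup.ne_bot_iff_exists_ne_one.1 (hS.ne_bot A K.hA)
    exact ⟨x, x.2, fun e => hx (Subtype.ext e)⟩
  obtain ⟨c, hc, hc1⟩ : ∃ c ∈ C, c ≠ 1 := by
    obtain ⟨x, hx⟩ := Subgroup.ne_bot_iff_exists_ne_one.1 (hS.ne_bot C K.hC)
    exact ⟨x, x.2, fun e => hx (Subtype.ext e)⟩
  obtain ⟨b, hb, hab⟩ := K.exists_conj hS ha ha1 hc
  obtain ⟨d, hd, hdc⟩ := K.symm.exists_conj hS hc hc1 ha
  have hac : a * c = c * a := (K.comm_ca hS hc ha).symm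
  have hda : d⁻¹ * a * d = a := by
    rw [mul_assoc, K.comm_ad hS ha hd, inv_mul_cancel_left]
  have hdia : d * a * d⁻¹ = a := by
    rw [← K.comm_ad hS ha hd]
    group
  have hbc : b⁻¹ * c * b = c := by
    rw [mul_assoc, K.comm_cb hS hc hb, inv_mul_cancel_left]
  have hdc' : d * c * d⁻¹ = c * a⁻¹ := by
    have h1 : c = d * (c * a) * d⁻¹ := by rw [← hdc]; group
    have h2 : d * (c * a) * d⁻¹ = (d * c * d⁻¹) * (d * a * d⁻¹) := by group
    rw [h2, hdia] at h1
    rw [eq_mul_inv_iff_mul_eq]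
    exact h1.symm
  -- the two elements commute
  have hcomm : b * (d⁻¹ * b * d) = (d⁻¹ * b * d) * b := by
    have h1 := commutator_case_commute (RootCommutatorCase.symm' hcBD) (hS.commutative B K.hB) (D.inv_mem hd) b hb
      (d⁻¹ * b * d) (by simpa using conj_mem_conjBy (g := d⁻¹) hb)
    exact h1
  set b₂ := d⁻¹ * b * d with hb₂
  have e1 : b₂⁻¹ * a * b₂ = a * c * a := by
    calc b₂⁻¹ * a * b₂ = d⁻¹ * (b⁻¹ * (d * a * d⁻¹) * b) * d := by rw [hb₂]; group
      _ = d⁻¹ * (a * c) * d := by rw [hdia, hab]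
      _ = (d⁻¹ * a * d) * (d⁻¹ * c * d) := by group
      _ = a * (c * a) := by rw [hda, hdc]
      _ = _ := by group
  have e2 : b₂⁻¹ * c * b₂ = a⁻¹ := by
    calc b₂⁻¹ * c * b₂ = d⁻¹ * (b⁻¹ * (d * c * d⁻¹) * b) * d := by rw [hb₂]; group
      _ = d⁻¹ * ((b⁻¹ * c * b) * (b⁻¹ * a * b)⁻¹) * d := by rw [hdc']; group
      _ = d⁻¹ * (c * (a * c)⁻¹) * d := by rw [hbc, hab]
      _ = d⁻¹ * a⁻¹ * d := by
        congr 2
        rw [mul_inv_rev, mul_inv_cancel_left]
      _ = (d⁻¹ * a * d)⁻¹ := by group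
      _ = _ := by rw [hda]
  have e3 : (b * b₂)⁻¹ * a * (b * b₂) = a * c := by
    calc (b * b₂)⁻¹ * a * (b * b₂) = b₂⁻¹ * (b⁻¹ * a * b) * b₂ := by group
      _ = b₂⁻¹ * (a * c) * b₂ := by rw [hab]
      _ = (b₂⁻¹ * a * b₂) * (b₂⁻¹ * c * b₂) := by group
      _ = a * c * a * a⁻¹ := by rw [e1, e2]
      _ = _ := by group
  have e4 : (b₂ * b)⁻¹ * a * (b₂ * b) = (a * c) * c * (a * c) := by
    calc (b₂ * b)⁻¹ * a * (b₂ * b) = b⁻¹ * (b₂⁻¹ * a * b₂) * b := by group
      _ = b⁻¹ * (a * c * a) * b := by rw [e1]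
      _ = (b⁻¹ * a * b) * (b⁻¹ * c * b) * (b⁻¹ * a * b) := by group
      _ = _ := by rw [hab, hbc]
  rw [hcomm, e4] at e3
  -- `a c c a c = a c`
  have e5 : a = (c * c)⁻¹ := by
    have h1 : (a * c) * (c * (a * c)) = (a * c) * 1 := by
      rw [mul_one]
      calc (a * c) * (c * (a * c)) = (a * c) * c * (a * c) := by group
        _ = _ := e3
    have h2 : c * (a * c) = 1 := mul_left_cancel h1
    have h3 : a * c * c = 1 := by
      calc a * c * c = (c * a) * c := by rw [hac]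
        _ = c * (a * c) := by group
        _ = 1 := h2
    rw [eq_inv_iff_mul_eq_one, ← mul_assoc]
    exact h3
  have hmem : a ∈ A ⊓ C := ⟨ha, by rw [e5]; exact C.inv_mem (C.mul_mem hc hc)⟩
  rw [K.inf_eq_bot hS] at hmem
  exact ha1 hmem

/-- `(B, D)` is a rank one pair. -/
theorem rank : IsRankOnePair B D := by
  rcases hS.pair B K.hB D K.hD with h1 | h1 | h1
  · exact absurd h1 (K.not_commute_BD hS)
  · exact h1
  · exact absurd h1 (K.not_commutator_BD hS)

/-- Elements of `A` and `B` do not commute. -/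
theorem ne_comm {a b : G} (ha : a ∈ A) (ha1 : a ≠ 1) (hb : b ∈ B) (hb1 : b ≠ 1) : a * b ≠ b * a := by
  intro e
  have hrk := K.rank hS
  have hne : conjBy D b ≠ D := conjBy_ne_of_mem_left hrk hb hb1
  have hmem : conjBy D b ∈ unipotentSubgroups B D :=
    conjBy_mem_unipotent hrk (right_mem_unipotent hrk) (Subgroup.mem_sup_left hb)
  have hsup : D ⊔ conjBy D b = B ⊔ D := sup_eq_of_ne hrk (right_mem_unipotent hrk) hmem hne.symm
  have hle : D ⊔ conjBy D b ≤ Subgroup.centralizer ({a} : Set G) := by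
    apply sup_le
    · intro d hd
      rw [Subgroup.mem_centralizer_iff]
      intro w hw
      rw [Set.mem_singleton_iff.1 hw]
      exact K.comm_ad hS ha hd
    · rintro _ ⟨d, hd, rfl⟩
      rw [Subgroup.mem_centralizer_iff]
      intro w hw
      rw [Set.mem_singleton_iff.1 hw]
      have h1 := K.comm_ad hS ha hd
      have h2 : a * b⁻¹ = b⁻¹ * a := (Commute.inv_right (e : Commute a b)).eq
      simp only [MulEquiv.coe_toMonoidHom, MulAut.conj_apply]
      calc a * (b * d * b⁻¹) = (a * b) * d * b⁻¹ := by group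
        _ = b * (a * d) * b⁻¹ := by rw [e]; group
        _ = b * d * (a * b⁻¹) := by rw [h1]; group
        _ = b * d * (b⁻¹ * a) := by rw [h2]
        _ = _ := by group
  rw [hsup] at hle
  have h1 := (K.cAB hS).2.2.1 a ha ha1
  rw [K.eC] at h1
  apply hS.ne_bot C K.hC
  rw [← h1, eq_bot_iff, Subgroup.closure_le]
  rintro _ ⟨b', hb', rfl⟩
  have h3 := (Subgroup.mem_centralizer_iff).1 (hle (Subgroup.mem_sup_left hb')) a rfl
  have : a * b' = b' * a := h3
  simp [this]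

theorem comm_ac {a c : G} (ha : a ∈ A) (hc : c ∈ C) : a * c = c * a := (K.comm_ca hS hc ha).symm

/-- Elements of `AC`. -/
theorem mem_N {x : G} (hx : x ∈ A ⊔ C) : ∃ a ∈ A, ∃ c ∈ C, x = a * c :=
  mem_sup_of_commute (fun _ ha _ hc => K.comm_ac hS ha hc) hx

theorem conj_mem_N {b x : G} (hb : b ∈ B) (hx : x ∈ A ⊔ C) : b * x * b⁻¹ ∈ A ⊔ C := by
  obtain ⟨a, ha, c, hc, rfl⟩ := K.mem_N hS hx
  have h1 : b * a * b⁻¹ * a⁻¹ ∈ C := by
    rw [← K.eC, Subgroup.commutator_comm]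
    exact Subgroup.commutator_mem_commutator hb ha
  have e : b * (a * c) * b⁻¹ = (b * a * b⁻¹ * a⁻¹) * a * c := by
    have : b * c = c * b := (K.comm_cb hS hc hb).symm
    calc b * (a * c) * b⁻¹ = b * a * (c * b⁻¹) := by group
      _ = b * a * (b⁻¹ * c) := by rw [(Commute.inv_right (this.symm : Commute c b)).eq]
      _ = _ := by group
  rw [e]
  exact Subgroup.mul_mem _ (Subgroup.mul_mem _ (Subgroup.mem_sup_right h1) (Subgroup.mem_sup_left ha))
    (Subgroup.mem_sup_right hc)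

theorem mem_right_of_comm {b x : G} (hb : b ∈ B) (hb1 : b ≠ 1) (hx : x ∈ A ⊔ C) (e : x * b = b * x) : x ∈ C := by
  obtain ⟨a, ha, c, hc, rfl⟩ := K.mem_N hS hx
  have ha1 : a = 1 := by
    by_contra ha1
    apply K.ne_comm hS ha ha1 hb hb1
    have h1 := K.comm_cb hS hc hb
    have h2 : a * b * c = b * a * c := by
      calc a * b * c = a * (c * b) := by rw [h1]; group
        _ = a * c * b := by group
        _ = b * (a * c) := e
        _ = _ := by group
    exact mul_right_cancel h2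
  rw [ha1, one_mul]
  exact hc

/-- The key relation: partners in `(B, D)` exchange the conjugates of `A` and `C`. -/
theorem partner_swap {b d : G} (hb : b ∈ B) (hb1 : b ≠ 1) (hd : d ∈ D) (hd1 : d ≠ 1)
    (e : conjBy B d⁻¹ = conjBy D b⁻¹) : conjBy C d⁻¹ = conjBy A b⁻¹ := by
  set g := b * d⁻¹ with hg
  have hBg : conjBy B g = D := by
    rw [hg, conjBy_mul, e, conjBy_conjBy_inv]
  have hNg : ∀ x ∈ A ⊔ C, g * x * g⁻¹ ∈ A ⊔ C := by
    intro x hx
    have h1 : d⁻¹ * x * d⁻¹⁻¹ ∈ C ⊔ A := K.symm.conj_mem_N hS (D.inv_mem hd) (by rwa [sup_comm])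
    rw [sup_comm] at h1
    have h2 := K.conj_mem_N hS hb h1
    have e2 : g * x * g⁻¹ = b * (d⁻¹ * x * d⁻¹⁻¹) * b⁻¹ := by rw [hg]; group
    rw [e2]
    exact h2
  have hNg' : ∀ x ∈ A ⊔ C, g⁻¹ * x * g ∈ A ⊔ C := by
    intro x hx
    have h1 : b⁻¹ * x * b⁻¹⁻¹ ∈ A ⊔ C := K.conj_mem_N hS (B.inv_mem hb) hx
    have h2 : d * (b⁻¹ * x * b⁻¹⁻¹) * d⁻¹ ∈ C ⊔ A := K.symm.conj_mem_N hS hd (by rwa [sup_comm])
    rw [sup_comm] at h2
    have e2 : g⁻¹ * x * g = d * (b⁻¹ * x * b⁻¹⁻¹) * d⁻¹ := by rw [hg]; group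
    rw [e2]
    exact h2
  have hCg : conjBy C g = A := by
    apply le_antisymm
    · rintro _ ⟨c, hc, rfl⟩
      have hdm : d ∈ conjBy B g := by rw [hBg]; exact hd
      obtain ⟨b', hb', hb'e⟩ := hdm
      have hb'e' : g * b' * g⁻¹ = d := by simpa using hb'e
      simp only [MulEquiv.coe_toMonoidHom, MulAut.conj_apply]
      have hy := hNg c (Subgroup.mem_sup_right hc)
      refine K.symm.mem_right_of_comm hS hd hd1 (by rwa [sup_comm]) ?_
      rw [← hb'e']
      calc g * c * g⁻¹ * (g * b' * g⁻¹) = g * (c * b') * g⁻¹ := by group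
        _ = g * (b' * c) * g⁻¹ := by rw [K.comm_cb hS hc hb']
        _ = _ := by group
    · intro a ha
      have hy := hNg' a (Subgroup.mem_sup_left ha)
      have hd₂ : g * b * g⁻¹ ∈ D := by
        rw [← hBg]
        exact conj_mem_conjBy hb
      have hyC : g⁻¹ * a * g ∈ C := by
        refine K.mem_right_of_comm hS hb hb1 hy ?_
        have h1 := K.comm_ad hS ha hd₂
        calc g⁻¹ * a * g * b = g⁻¹ * (a * (g * b * g⁻¹)) * g := by group
          _ = g⁻¹ * ((g * b * g⁻¹) * a) * g := by rw [h1]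
          _ = _ := by group
      refine ⟨_, hyC, ?_⟩
      simp only [MulEquiv.coe_toMonoidHom, MulAut.conj_apply]
      group
  rw [hg, conjBy_mul, conjBy_eq_iff_eq_conjBy_inv] at hCg
  exact hCg

/-- The two descriptions of the line. -/
theorem images_eq : (fun b : G => conjBy A b) '' (B : Set G) ∪ {C} =
    (fun d : G => conjBy C d) '' (D : Set G) ∪ {A} := by
  have hrk := K.rank hS
  ext E
  constructor
  · rintro (⟨b, hb, rfl⟩ | h1)
    · by_cases hb1 : b = 1
      · right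
        subst hb1
        simp
      · obtain ⟨d, hd, hd1, e⟩ := hrk.cond_left b⁻¹ (B.inv_mem hb) (inv_ne_one.mpr hb1)
        have h2 := K.partner_swap hS (B.inv_mem hb) (inv_ne_one.mpr hb1) hd hd1 e
        rw [inv_inv] at h2
        left
        exact ⟨d⁻¹, D.inv_mem hd, h2⟩
    · left
      rw [Set.mem_singleton_iff.1 h1]
      exact ⟨1, D.one_mem, by simp⟩
  · rintro (⟨d, hd, rfl⟩ | h1)
    · by_cases hd1 : d = 1
      · right
        subst hd1
        simp
      · obtain ⟨b, hb, hb1, e⟩ := hrk.cond_right d⁻¹ (D.inv_mem hd) (inv_ne_one.mpr hd1)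
        have h2 := K.partner_swap hS hb hb1 (D.inv_mem hd) (inv_ne_one.mpr hd1) e.symm
        rw [inv_inv] at h2
        left
        exact ⟨b⁻¹, B.inv_mem hb, h2.symm⟩
    · left
      rw [Set.mem_singleton_iff.1 h1]
      exact ⟨1, B.one_mem, by simp⟩

/-- The line is stable under `B`. -/
theorem stable_left {b : G} (hb : b ∈ B) {E : Subgroup G}
    (hE : E ∈ (fun b : G => conjBy A b) '' (B : Set G) ∪ {C}) :
    conjBy E b ∈ (fun b : G => conjBy A b) '' (B : Set G) ∪ {C} := by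
  rcases hE with ⟨b', hb', rfl⟩ | h1
  · left
    exact ⟨b * b', B.mul_mem hb hb', by simp [conjBy_mul]⟩
  · rw [Set.mem_singleton_iff.1 h1]
    right
    exact conjBy_eq_self_of_commute (fun c hc => (K.comm_cb hS hc hb).symm)

theorem le_setStab : B ⊔ D ≤ setStab ((fun b : G => conjBy A b) '' (B : Set G) ∪ {C}) := by
  apply sup_le
  · intro b hb E hE
    exact ⟨K.stable_left hS hb hE, K.stable_left hS (B.inv_mem hb) hE⟩
  · intro d hd E hE
    rw [K.images_eq hS] at hE ⊢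
    exact ⟨K.symm.stable_left hS hd hE, K.symm.stable_left hS (D.inv_mem hd) hE⟩

/-- An element of `⟨B, D⟩` conjugating `A` to `C`. -/
theorem exists_conj_eq : ∃ x ∈ B ⊔ D, C = conjBy A x := by
  have hrk := K.rank hS
  obtain ⟨b, hb, hb1⟩ := exists_ne_one_left hrk
  obtain ⟨d, hd, hd1, e⟩ := hrk.cond_left b hb hb1
  have h2 := K.partner_swap hS hb hb1 hd hd1 e
  refine ⟨d * b⁻¹, Subgroup.mul_mem _ (Subgroup.mem_sup_right hd) (Subgroup.mem_sup_left (B.inv_mem hb)), ?_⟩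
  rw [conjBy_mul, ← h2, conjBy_conjBy_inv]

theorem orbit_eq : {E | ∃ x ∈ B ⊔ D, E = conjBy A x} = (fun b : G => conjBy A b) '' (B : Set G) ∪ {C} := by
  ext E
  constructor
  · rintro ⟨x, hx, rfl⟩
    exact (K.le_setStab hS hx A (Or.inl ⟨1, B.one_mem, by simp⟩)).1
  · rintro (⟨b, hb, rfl⟩ | h1)
    · exact ⟨b, Subgroup.mem_sup_left hb, rfl⟩
    · rw [Set.mem_singleton_iff.1 h1]
      exact K.exists_conj_eq hS

theorem orbit_eq_orbit : {E | ∃ x ∈ B ⊔ D, E = conjBy A x} = {E | ∃ x ∈ B ⊔ D, E = conjBy C x} := by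
  obtain ⟨g, hg, hgC⟩ := K.exists_conj_eq hS
  ext E
  constructor
  · rintro ⟨x, hx, rfl⟩
    refine ⟨x * g⁻¹, Subgroup.mul_mem _ hx (Subgroup.inv_mem _ hg), ?_⟩
    rw [conjBy_mul, hgC, conjBy_inv_conjBy]
  · rintro ⟨x, hx, rfl⟩
    refine ⟨x * g, Subgroup.mul_mem _ hx hg, ?_⟩
    rw [conjBy_mul, ← hgC]

/-- The partition of `AC`. -/
theorem partition : IsSubgroupPartition (A ⊔ C) ((fun b : G => conjBy A b) '' (B : Set G) ∪ {C}) := by
  refine ⟨?_, ?_, ?_⟩
  · rintro E (⟨b, hb, rfl⟩ | h1)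
    · rintro _ ⟨a, ha, rfl⟩
      exact K.conj_mem_N hS hb (Subgroup.mem_sup_left ha)
    · rw [Set.mem_singleton_iff.1 h1]
      exact le_sup_right
  · intro x hx hx1
    obtain ⟨a, ha, c, hc, rfl⟩ := K.mem_N hS hx
    by_cases ha1 : a = 1
    · subst ha1
      exact ⟨C, Or.inr rfl, by simpa using hc⟩
    · obtain ⟨b, hb, hbe⟩ := K.exists_conj hS ha ha1 hc
      refine ⟨conjBy A b⁻¹, Or.inl ⟨b⁻¹, B.inv_mem hb, rfl⟩, ?_⟩
      rw [← hbe]
      simpa using conj_mem_conjBy (g := b⁻¹) ha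
  · have hACbot := K.inf_eq_bot hS
    have hinC : ∀ {b a : G}, b ∈ B → a ∈ A → b * a * b⁻¹ * a⁻¹ ∈ C := by
      intro b a hb ha
      rw [← K.eC, Subgroup.commutator_comm]
      exact Subgroup.commutator_mem_commutator hb ha
    -- two conjugates
    have hcase : ∀ b ∈ B, ∀ b' ∈ B, conjBy A b ≠ conjBy A b' → conjBy A b ⊓ conjBy A b' = ⊥ := by
      intro b hb b' hb' hne
      rw [eq_bot_iff]
      rintro x ⟨⟨a, ha, rfl⟩, ⟨a', ha', hx⟩⟩
      rw [Subgroup.mem_bot]
      simp only [MulEquiv.coe_toMonoidHom, MulAut.conj_apply] at hx ⊢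
      by_contra hne1
      have ha1 : a ≠ 1 := by
        rintro rfl
        simp at hne1
      set g := b⁻¹ * b' with hg
      have hgB : g ∈ B := B.mul_mem (B.inv_mem hb) hb'
      have h1 : g * a' * g⁻¹ = a := by
        rw [hg]
        calc b⁻¹ * b' * a' * (b⁻¹ * b')⁻¹ = b⁻¹ * (b' * a' * b'⁻¹) * b := by group
          _ = b⁻¹ * (b * a * b⁻¹) * b := by rw [hx]
          _ = a := by group
      have ha'1 : a' ≠ 1 := by
        rintro rfl
        apply ha1
        rw [← h1]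
        group
      have h2 : g * a' * g⁻¹ * a'⁻¹ ∈ C := hinC hgB ha'
      have h3 : g * a' * g⁻¹ * a'⁻¹ ∈ A := by
        rw [h1]
        exact A.mul_mem ha (A.inv_mem ha')
      have h4 : g * a' * g⁻¹ * a'⁻¹ ∈ A ⊓ C := ⟨h3, h2⟩
      rw [hACbot] at h4
      have h5 : g * a' * g⁻¹ * a'⁻¹ = 1 := h4
      have hgcomm : a' * g = g * a' := by
        have h6 : g * a' * g⁻¹ = a' := mul_inv_eq_one.mp h5
        exact (mul_inv_eq_iff_eq_mul.mp h6).symm
      have hg1 : g = 1 := by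
        by_contra hg1
        exact K.ne_comm hS ha' ha'1 hgB hg1 hgcomm
      apply hne
      have : b' = b := by
        rw [hg] at hg1
        exact (inv_mul_eq_one.mp hg1).symm
      rw [this]
    have hcase2 : ∀ b ∈ B, conjBy A b ⊓ C = ⊥ := by
      intro b hb
      rw [eq_bot_iff]
      rintro x ⟨⟨a, ha, rfl⟩, hxC⟩
      simp only [MulEquiv.coe_toMonoidHom, MulAut.conj_apply] at hxC
      have h1 := hinC hb ha
      have h2 : a ∈ C := by
        have h3 : a = (b * a * b⁻¹ * a⁻¹)⁻¹ * (b * a * b⁻¹) := by group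
        rw [h3]
        exact C.mul_mem (C.inv_mem h1) hxC
      have h4 : a ∈ A ⊓ C := ⟨ha, h2⟩
      rw [hACbot] at h4
      have h5 : a = 1 := h4
      rw [Subgroup.mem_bot]
      simp [h5]
    rintro E (⟨b, hb, rfl⟩ | h1) F (⟨b', hb', rfl⟩ | h2) hne
    · exact hcase b hb b' hb' hne
    · rw [Set.mem_singleton_iff.1 h2]
      exact hcase2 b hb
    · rw [Set.mem_singleton_iff.1 h1, inf_comm]
      exact hcase2 b' hb'
    · rw [Set.mem_singleton_iff.1 h1, Set.mem_singleton_iff.1 h2] at hne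
      exact absurd rfl hne

/-- Centraliser of the line in `⟨B, D⟩` is central. -/
theorem centralizer_central {x y : G} (hx : x ∈ B ⊔ D)
    (hxc : x ∈ Subgroup.centralizer ((A ⊔ C : Subgroup G) : Set G)) (hy : y ∈ B ⊔ D) : x * y = y * x := by
  have hrk := K.rank hS
  have hxN : ∀ n ∈ A ⊔ C, x * n = n * x := fun n hn =>
    ((Subgroup.mem_centralizer_iff).1 hxc n hn).symm
  -- general step
  have step : ∀ {A B C D : Subgroup G}, LineConfig S A B C D → IsRankOnePair B D → x ∈ B ⊔ D →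
      (∀ n ∈ A ⊔ C, x * n = n * x) → ∀ b ∈ B, x * b = b * x := by
    intro A B C D K hrk hx hxN b hb
    have hfix : conjBy B x = B := by
      by_contra hne
      have hmem : conjBy B x ∈ unipotentSubgroups B D :=
        conjBy_mem_unipotent hrk left_mem_unipotent hx
      have hsup : B ⊔ conjBy B x = B ⊔ D := sup_eq_of_ne hrk left_mem_unipotent hmem (Ne.symm hne)
      have hle : B ⊔ conjBy B x ≤ Subgroup.centralizer (C : Set G) := by
        apply sup_le
        · intro b' hb'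
          rw [Subgroup.mem_centralizer_iff]
          intro c hc
          exact K.comm_cb hS hc hb'
        · rintro _ ⟨b', hb', rfl⟩
          rw [Subgroup.mem_centralizer_iff]
          intro c hc
          have h1 : x * c = c * x := hxN c (Subgroup.mem_sup_right hc)
          have h2 : x⁻¹ * c = c * x⁻¹ := (Commute.inv_left (h1 : Commute x c)).eq
          simp only [MulEquiv.coe_toMonoidHom, MulAut.conj_apply]
          calc c * (x * b' * x⁻¹) = x * (c * b') * x⁻¹ := by rw [← mul_assoc, ← mul_assoc, ← h1]; group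
            _ = x * (b' * c) * x⁻¹ := by rw [K.comm_cb hS hc hb']
            _ = x * b' * (c * x⁻¹) := by group
            _ = x * b' * (x⁻¹ * c) := by rw [h2]
            _ = _ := by group
      rw [hsup] at hle
      obtain ⟨d, hd, hd1⟩ := exists_ne_one_right hrk
      obtain ⟨c, hc, hc1⟩ : ∃ c ∈ C, c ≠ 1 := by
        obtain ⟨z, hz⟩ := Subgroup.ne_bot_iff_exists_ne_one.1 (hS.ne_bot C K.hC)
        exact ⟨z, z.2, fun e => hz (Subtype.ext e)⟩
      have h3 := (Subgroup.mem_centralizer_iff).1 (hle (Subgroup.mem_sup_right hd)) c hc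
      exact K.symm.ne_comm hS hc hc1 hd hd1 h3
    have hb₁ : x * b * x⁻¹ ∈ B := by
      rw [← hfix]
      exact conj_mem_conjBy hb
    obtain ⟨a, ha, ha1⟩ : ∃ a ∈ A, a ≠ 1 := by
      obtain ⟨z, hz⟩ := Subgroup.ne_bot_iff_exists_ne_one.1 (hS.ne_bot A K.hA)
      exact ⟨z, z.2, fun e => hz (Subtype.ext e)⟩
    have h1 : x * a = a * x := hxN a (Subgroup.mem_sup_left ha)
    have h2 : x * (b * a * b⁻¹) = (b * a * b⁻¹) * x := hxN _ (K.conj_mem_N hS hb (Subgroup.mem_sup_left ha))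
    -- `x b x⁻¹` and `b` act in the same way on `a`
    have h3 : (x * b * x⁻¹) * a * (x * b * x⁻¹)⁻¹ = b * a * b⁻¹ := by
      have h4 : x⁻¹ * a * x = a := by rw [mul_assoc, ← h1, inv_mul_cancel_left]
      calc (x * b * x⁻¹) * a * (x * b * x⁻¹)⁻¹ = x * (b * (x⁻¹ * a * x) * b⁻¹) * x⁻¹ := by group
        _ = x * (b * a * b⁻¹) * x⁻¹ := by rw [h4]
        _ = (b * a * b⁻¹) * x * x⁻¹ := by rw [h2]
        _ = _ := by group
    have h5 : b⁻¹ * (x * b * x⁻¹) ∈ B := B.mul_mem (B.inv_mem hb) hb₁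
    have h6 : a * (b⁻¹ * (x * b * x⁻¹)) = (b⁻¹ * (x * b * x⁻¹)) * a := by
      have h7 : (x * b * x⁻¹) * a = (b * a * b⁻¹) * (x * b * x⁻¹) :=
        mul_inv_eq_iff_eq_mul.mp h3
      calc a * (b⁻¹ * (x * b * x⁻¹)) = b⁻¹ * ((b * a * b⁻¹) * (x * b * x⁻¹)) := by group
        _ = b⁻¹ * ((x * b * x⁻¹) * a) := by rw [h7]
        _ = _ := by group
    have h8 : b⁻¹ * (x * b * x⁻¹) = 1 := by
      by_contra h9
      exact K.ne_comm hS ha ha1 h5 h9 h6
    have h9 : x * b * x⁻¹ = b := by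
      have := inv_mul_eq_one.mp h8
      exact this.symm
    exact mul_inv_eq_iff_eq_mul.mp h9
  have hB := step K hrk hx hxN
  have hD := step K.symm (RankOnePair_symm hrk) (by rwa [sup_comm]) (by rwa [sup_comm])
  exact commute_of_mem_sup hB hD hy

end LineConfig

end Cfsg.Agent.Lib.RootSubgroups
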