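import Cfsg.Agent.Lib.RootSubgroups.Commutator

/-!
Rank one pairs and lines: if `(A, B)` is a rank one pair and `C` commutes with `A`, lies on a line with `A` and is
in the commutator case with `B`, then `⁅A, ⁅B, C⁆⁆ = C` and `(A, B)` is special.
-/

set_option autoImplicit false

namespace Cfsg.Agent.Lib.RootSubgroups

open Cfsg
open scoped commutatorElement

variable {G : Type*} [Group G]

/-- The key computation. -/
theorem special_key {S : Set (Subgroup G)} (hS : IsRootSubgroupSet S) {A B C : Subgroup G}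
    (hA : A ∈ S) (hB : B ∈ S) (h : IsRankOnePair A B) (hC : C ∈ S) (hAC : ⁅A, C⁆ = ⊥)
    (hD : ⁅B, C⁆ ∈ S) {X : Subgroup G} (hX : X ∈ S) (hCX : IsRankOnePair C X)
    (hroot : ∀ c ∈ C, c ≠ 1 → ∀ a ∈ A, a ≠ 1 → c * a ∈ rootElements S) :
    ⁅A, ⁅B, C⁆⁆ = C ∧ IsSpecialRankOnePair A B := by
  set D := ⁅B, C⁆ with hDdef
  have hcBC : RootCommutatorCase S B C := commutator_case_of_mem hS hB hC hD
  have hDB : ∀ d ∈ D, ∀ b ∈ B, d * b = b * d := fun d hd b hb =>
    hcBC.2.1 d hd b (Subgroup.mem_sup_left hb)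
  have hDC : ∀ d ∈ D, ∀ c ∈ C, d * c = c * d := fun d hd c hc =>
    hcBC.2.1 d hd c (Subgroup.mem_sup_right hc)
  have hac : ∀ a ∈ A, ∀ c ∈ C, a * c = c * a := fun a ha c hc =>
    commute_of_commutator_eq_bot hAC ha hc
  have hBCne : ∀ b ∈ B, b ≠ 1 → ∀ c ∈ C, c ≠ 1 → b * c ≠ c * b := fun b hb hb1 c hc hc1 =>
    comm_ne_of_partner hS hB hA (RankOnePair_symm h) hcBC hb hb1 hc hc1
  have hcd : ∀ b ∈ B, ∀ c ∈ C, b * c * b⁻¹ * c⁻¹ ∈ D := fun b hb c hc =>
    Subgroup.commutator_mem_commutator hb hc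
  have hcd1 : ∀ b ∈ B, b ≠ 1 → ∀ c ∈ C, c ≠ 1 → b * c * b⁻¹ * c⁻¹ ≠ 1 := by
    intro b hb hb1 c hc hc1 e
    apply hBCne b hb hb1 c hc hc1
    calc b * c = (b * c * b⁻¹ * c⁻¹) * (c * b) := by group
      _ = c * b := by rw [e, one_mul]
  -- the basic step
  have hstep : ∀ a ∈ A, ∀ b ∈ B, conjBy A b⁻¹ = conjBy B a⁻¹ → ∀ c ∈ C, ∀ y ∈ B,
      y * ((a * (b * c * b⁻¹ * c⁻¹)⁻¹ * a⁻¹) * c) = ((a * (b * c * b⁻¹ * c⁻¹)⁻¹ * a⁻¹) * c) * y := by
    intro a ha b hb e c hc y hy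
    set d := b * c * b⁻¹ * c⁻¹ with hd
    have hdD : d ∈ D := hcd b hb c hc
    have hmem : a⁻¹ * y * a ∈ conjBy A b⁻¹ := by
      rw [e]
      have := conj_mem_conjBy (g := a⁻¹) hy
      simpa using this
    obtain ⟨x, hx, hxe⟩ := hmem
    have hxe' : b⁻¹ * x * b = a⁻¹ * y * a := by simpa using hxe
    have hb1 : b⁻¹ * c * b = d⁻¹ * c := by
      have e1 : d * b = b * d := hDB d hdD b hb
      have e2 : b * c * b⁻¹ = d * c := by rw [hd]; group
      calc b⁻¹ * c * b = b⁻¹ * (d⁻¹ * (b * c * b⁻¹)) * b := by rw [e2]; group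
        _ = (b⁻¹ * d⁻¹ * b) * c := by group
        _ = d⁻¹ * c := by
          have e3 : b * d⁻¹ = d⁻¹ * b := (Commute.inv_right (e1.symm : Commute b d)).eq
          have : b⁻¹ * d⁻¹ * b = d⁻¹ := by
            rw [mul_assoc, ← e3, inv_mul_cancel_left]
          rw [this]
    -- `b⁻¹ x b` commutes with `b⁻¹ c b`
    have h1 : (b⁻¹ * x * b) * (b⁻¹ * c * b) = (b⁻¹ * c * b) * (b⁻¹ * x * b) := by
      calc (b⁻¹ * x * b) * (b⁻¹ * c * b) = b⁻¹ * (x * c) * b := by group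
        _ = b⁻¹ * (c * x) * b := by rw [hac x hx c hc]
        _ = _ := by group
    rw [hxe', hb1] at h1
    have hd_ac : a * (d⁻¹ * c) * a⁻¹ = (a * d⁻¹ * a⁻¹) * c := by
      calc a * (d⁻¹ * c) * a⁻¹ = (a * d⁻¹ * a⁻¹) * (a * c * a⁻¹) := by group
        _ = _ := by
          rw [hac a ha c hc]
          group
    rw [← hd_ac]
    calc y * (a * (d⁻¹ * c) * a⁻¹) = a * ((a⁻¹ * y * a) * (d⁻¹ * c)) * a⁻¹ := by group
      _ = a * ((d⁻¹ * c) * (a⁻¹ * y * a)) * a⁻¹ := by rw [h1]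
      _ = _ := by group
  obtain ⟨a₀, ha₀, ha₀1⟩ := exists_ne_one_left h
  obtain ⟨b₀, hb₀, hb₀1, e₀⟩ := h.cond_left a₀ ha₀ ha₀1
  obtain ⟨c₀, hc₀, hc₀1⟩ := exists_ne_one_left hCX
  -- `(A, D)` is in the commutator case
  have hADcase : RootCommutatorCase S A D := by
    rcases hS.pair A hA D hD with h1 | h1 | h1
    · exfalso
      have hcomm : ∀ a ∈ A, ∀ d ∈ D, a * d = d * a := fun a ha d hd =>
        commute_of_commutator_eq_bot h1 ha hd
      have h2 := hstep a₀ ha₀ b₀ hb₀ e₀ c₀ hc₀ b₀ hb₀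
      set d := b₀ * c₀ * b₀⁻¹ * c₀⁻¹ with hd
      have hdD : d ∈ D := hcd b₀ hb₀ c₀ hc₀
      have e1 : a₀ * d⁻¹ * a₀⁻¹ = d⁻¹ := by
        have := hcomm a₀ ha₀ d hdD
        have h3 : a₀ * d⁻¹ = d⁻¹ * a₀ := (Commute.inv_right this).eq
        rw [h3]
        group
      rw [e1] at h2
      apply hBCne b₀ hb₀ hb₀1 c₀ hc₀ hc₀1
      have e2 : b₀ * d⁻¹ = d⁻¹ * b₀ := by
        have := hDB d hdD b₀ hb₀
        exact (Commute.inv_left this).eq.symm
      have h3 : d⁻¹ * (b₀ * c₀) = d⁻¹ * (c₀ * b₀) := by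
        calc d⁻¹ * (b₀ * c₀) = (d⁻¹ * b₀) * c₀ := by group
          _ = b₀ * d⁻¹ * c₀ := by rw [e2]
          _ = b₀ * (d⁻¹ * c₀) := by group
          _ = d⁻¹ * c₀ * b₀ := h2
          _ = _ := by group
      exact mul_left_cancel h3
    · exfalso
      set d := b₀ * c₀ * b₀⁻¹ * c₀⁻¹ with hd
      have hdD : d ∈ D := hcd b₀ hb₀ c₀ hc₀
      have hd1 : d ≠ 1 := hcd1 b₀ hb₀ hb₀1 c₀ hc₀ hc₀1
      have hz : c₀ ∈ Subgroup.centralizer ((D ⊔ A : Subgroup G) : Set G) := by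
        have hle : D ⊔ A ≤ Subgroup.centralizer ({c₀} : Set G) := by
          apply sup_le
          · intro x hx
            rw [Subgroup.mem_centralizer_iff]
            intro w hw
            rw [Set.mem_singleton_iff.1 hw]
            exact (hDC x hx c₀ hc₀).symm
          · intro x hx
            rw [Subgroup.mem_centralizer_iff]
            intro w hw
            rw [Set.mem_singleton_iff.1 hw]
            exact (hac x hx c₀ hc₀).symm
        rw [Subgroup.mem_centralizer_iff]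
        intro x hx
        exact ((Subgroup.mem_centralizer_iff).1 (hle hx) c₀ rfl).symm
      refine Cfsg.Agent.S5025.result hS hD ⟨hA, RankOnePair_symm h1⟩ hz hc₀1 d hdD hd1 ?_
      have e1 : c₀ * d = b₀ * c₀ * b₀⁻¹ := by
        rw [← hDC d hdD c₀ hc₀, hd]
        group
      rw [e1]
      refine ⟨?_, conjBy C b₀, hS.conj_mem C hC b₀, by simpa using conj_mem_conjBy (g := b₀) hc₀⟩
      intro e2
      apply hc₀1
      have : c₀ = b₀⁻¹ * (b₀ * c₀ * b₀⁻¹) * b₀ := by group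
      rw [this, e2]
      group
    · exact h1
  set E₁ := ⁅A, D⁆ with hE₁
  have hE₁S : E₁ ∈ S := hADcase.1
  have hEA : ∀ e ∈ E₁, ∀ a ∈ A, e * a = a * e := fun e he a ha =>
    hADcase.2.1 e he a (Subgroup.mem_sup_left ha)
  have hED : ∀ e ∈ E₁, ∀ d ∈ D, e * d = d * e := fun e he d hd =>
    hADcase.2.1 e he d (Subgroup.mem_sup_right hd)
  have hadc : ∀ a ∈ A, ∀ d ∈ D, a * d * a⁻¹ * d⁻¹ ∈ E₁ := fun a ha d hd =>
    Subgroup.commutator_mem_commutator ha hd
  have hcE : ∀ c ∈ C, ∀ e ∈ E₁, c * e = e * c := by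
    intro c hc e he
    have hle : E₁ ≤ Subgroup.centralizer ({c} : Set G) := by
      rw [hE₁, Subgroup.commutator_le]
      intro a ha d hd
      have h1 : a ∈ Subgroup.centralizer ({c} : Set G) := by
        rw [Subgroup.mem_centralizer_iff]
        intro w hw
        rw [Set.mem_singleton_iff.1 hw]
        exact (hac a ha c hc).symm
      have h2 : d ∈ Subgroup.centralizer ({c} : Set G) := by
        rw [Subgroup.mem_centralizer_iff]
        intro w hw
        rw [Set.mem_singleton_iff.1 hw]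
        exact (hDC d hd c hc).symm
      exact Subgroup.mul_mem _ (Subgroup.mul_mem _ (Subgroup.mul_mem _ h1 h2) (Subgroup.inv_mem _ h1))
        (Subgroup.inv_mem _ h2)
    exact (Subgroup.mem_centralizer_iff).1 (hle he) c rfl
  -- the relation
  have hrel : ∀ a ∈ A, a ≠ 1 → ∀ b ∈ B, b ≠ 1 → conjBy A b⁻¹ = conjBy B a⁻¹ → ∀ c ∈ C, c ≠ 1 →
      (a * (b * c * b⁻¹ * c⁻¹)⁻¹ * a⁻¹ * (b * c * b⁻¹ * c⁻¹)) * c = 1 := by
    intro a ha ha1 b hb hb1 e c hc hc1
    set d := b * c * b⁻¹ * c⁻¹ with hd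
    have hdD : d ∈ D := hcd b hb c hc
    set w := a * d⁻¹ * a⁻¹ * d with hw
    have hwE : w ∈ E₁ := by
      have := hadc a ha d⁻¹ (D.inv_mem hdD)
      simpa [hw] using this
    by_contra hz1
    set z := w * c with hz
    have hzy : ∀ y ∈ B, y * z = z * y := by
      intro y hy
      have h2 := hstep a ha b hb e c hc y hy
      rw [← hd] at h2
      have e1 : a * d⁻¹ * a⁻¹ * c = z * d⁻¹ := by
        have hcd' : d⁻¹ * c = c * d⁻¹ := (Commute.inv_left (hDC d hdD c hc)).eq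
        calc a * d⁻¹ * a⁻¹ * c = w * (d⁻¹ * c) := by rw [hw]; group
          _ = w * (c * d⁻¹) := by rw [hcd']
          _ = z * d⁻¹ := by rw [hz]; group
      rw [e1] at h2
      have hyd : y * d⁻¹ = d⁻¹ * y := (Commute.inv_right (hDB d hdD y hy).symm).eq
      have h3 : (y * z) * d⁻¹ = (z * y) * d⁻¹ := by
        calc (y * z) * d⁻¹ = y * (z * d⁻¹) := by group
          _ = z * d⁻¹ * y := h2
          _ = z * (d⁻¹ * y) := by group
          _ = z * (y * d⁻¹) := by rw [hyd]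
          _ = _ := by group
      exact mul_right_cancel h3
    have hzA : ∀ x ∈ A, z * x = x * z := by
      intro x hx
      rw [hz]
      calc w * c * x = w * (c * x) := by group
        _ = w * (x * c) := by rw [hac x hx c hc]
        _ = (w * x) * c := by group
        _ = (x * w) * c := by rw [hEA w hwE x hx]
        _ = _ := by group
    have hzd : z * d = d * z := by
      rw [hz]
      calc w * c * d = w * (c * d) := by group
        _ = w * (d * c) := by rw [hDC d hdD c hc]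
        _ = (w * d) * c := by group
        _ = (d * w) * c := by rw [hED w hwE d hdD]
        _ = _ := by group
    -- the rank one pair `(d⁻¹ A d, B)`
    have hBd : conjBy B d⁻¹ = B := conjBy_eq_self_of_commute (fun b' hb' =>
      (Commute.inv_left (hDB d hdD b' hb')).eq)
    have hpair : IsRankOnePair (conjBy A d⁻¹) B := by
      have := conjBy_pair h d⁻¹
      rwa [hBd] at this
    have hzc : z ∈ Subgroup.centralizer ((conjBy A d⁻¹ ⊔ B : Subgroup G) : Set G) := by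
      have hle : conjBy A d⁻¹ ⊔ B ≤ Subgroup.centralizer ({z} : Set G) := by
        apply sup_le
        · rintro _ ⟨x, hx, rfl⟩
          rw [Subgroup.mem_centralizer_iff]
          intro u hu
          rw [Set.mem_singleton_iff.1 hu]
          have hzdinv : z * d⁻¹ = d⁻¹ * z := (Commute.inv_right hzd).eq
          simp only [MulEquiv.coe_toMonoidHom, MulAut.conj_apply, inv_inv]
          calc z * (d⁻¹ * x * d) = (z * d⁻¹) * x * d := by group
            _ = d⁻¹ * (z * x) * d := by rw [hzdinv]; group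
            _ = d⁻¹ * (x * z) * d := by rw [hzA x hx]
            _ = d⁻¹ * x * (z * d) := by group
            _ = d⁻¹ * x * (d * z) := by rw [hzd]
            _ = _ := by group
        · intro y hy
          rw [Subgroup.mem_centralizer_iff]
          intro u hu
          rw [Set.mem_singleton_iff.1 hu]
          exact (hzy y hy).symm
      rw [Subgroup.mem_centralizer_iff]
      intro x hx
      exact ((Subgroup.mem_centralizer_iff).1 (hle hx) z rfl).symm
    have hgmem : d⁻¹ * a * d ∈ conjBy A d⁻¹ := by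
      have := conj_mem_conjBy (g := d⁻¹) ha
      simpa using this
    have hg1 : d⁻¹ * a * d ≠ 1 := by
      intro e1
      apply ha1
      have : a = d * (d⁻¹ * a * d) * d⁻¹ := by group
      rw [this, e1]
      group
    refine Cfsg.Agent.S5025.result hS (hS.conj_mem A hA _) ⟨hB, hpair⟩ hzc hz1 _ hgmem hg1 ?_
    have e2 : z * (d⁻¹ * a * d) = c * a := by
      have e3 : d⁻¹ * a * d = w⁻¹ * a := by
        rw [hw]
        group
      rw [e3, hz]
      calc w * c * (w⁻¹ * a) = (c * w) * (w⁻¹ * a) := by rw [hcE c hc w hwE]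
        _ = _ := by group
    rw [e2]
    exact hroot c hc hc1 a ha ha1
  -- `E₁ = C`
  have hEC : E₁ = C := by
    have h1 := hrel a₀ ha₀ ha₀1 b₀ hb₀ hb₀1 e₀ c₀ hc₀ hc₀1
    set d := b₀ * c₀ * b₀⁻¹ * c₀⁻¹ with hd
    have hdD : d ∈ D := hcd b₀ hb₀ c₀ hc₀
    have hw : a₀ * d⁻¹ * a₀⁻¹ * d ∈ E₁ := by
      have := hadc a₀ ha₀ d⁻¹ (D.inv_mem hdD)
      simpa using this
    have hw2 : c₀⁻¹ ∈ E₁ := by
      have : c₀⁻¹ = a₀ * d⁻¹ * a₀⁻¹ * d := eq_comm.mp (mul_eq_one_iff_eq_inv.mp h1)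
      rwa [this]
    exact (eq_of_mem_of_mem hS hX hCX hE₁S (C.inv_mem hc₀) hw2 (inv_ne_one.mpr hc₀1)).symm
  refine ⟨hEC, h, ?_⟩
  -- special
  intro a ha ha1 b hb hb1 e
  obtain ⟨c, hc, hc1⟩ := exists_ne_one_left hCX
  have h1 := hrel a ha ha1 b hb hb1 e c hc hc1
  set d := b * c * b⁻¹ * c⁻¹ with hd
  have hdD : d ∈ D := hcd b hb c hc
  have hd1 : d ≠ 1 := hcd1 b hb hb1 c hc hc1
  have hmem : a⁻¹ * b⁻¹ * a ∈ conjBy A b⁻¹ := by
    rw [e]
    have := conj_mem_conjBy (g := a⁻¹) (B.inv_mem hb)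
    simpa using this
  obtain ⟨x, hx, hxe⟩ := hmem
  have hxe' : b⁻¹ * x * b = a⁻¹ * b⁻¹ * a := by simpa using hxe
  -- `a d a⁻¹ = c d`
  have hcd2 : c * d = d * c := (hDC d hdD c hc).symm
  have hcE1 : c ∈ E₁ := by rw [hEC]; exact hc
  have hca : a * c = c * a := hac a ha c hc
  have hcainv : a⁻¹ * c⁻¹ * a = c⁻¹ := by
    have h2 : a * c⁻¹ = c⁻¹ * a := (Commute.inv_right (hca : Commute a c)).eq
    rw [mul_assoc, ← h2, inv_mul_cancel_left]
  have had : a * d⁻¹ * a⁻¹ = c⁻¹ * d⁻¹ := by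
    have h2 : a * d⁻¹ * a⁻¹ * d = c⁻¹ := mul_eq_one_iff_eq_inv.mp h1
    calc a * d⁻¹ * a⁻¹ = (a * d⁻¹ * a⁻¹ * d) * d⁻¹ := by group
      _ = _ := by rw [h2]
  have had2 : a⁻¹ * d⁻¹ * a = c * d⁻¹ := by
    have h3 : d⁻¹ = c⁻¹ * (a⁻¹ * d⁻¹ * a) := by
      calc d⁻¹ = a⁻¹ * (a * d⁻¹ * a⁻¹) * a := by group
        _ = a⁻¹ * (c⁻¹ * d⁻¹) * a := by rw [had]
        _ = (a⁻¹ * c⁻¹ * a) * (a⁻¹ * d⁻¹ * a) := by group
        _ = _ := by rw [hcainv]
    rw [eq_inv_mul_iff_mul_eq.mpr h3.symm]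
    group
  have hadd : a * d * a⁻¹ = d * c := by
    have := congrArg (fun u => u⁻¹) had
    simp only [mul_inv_rev, inv_inv] at this
    rw [← mul_assoc] at this
    exact this
  have hb1' : b⁻¹ * c * b = d⁻¹ * c := by
    have e2 : b * c * b⁻¹ = d * c := by rw [hd]; group
    have e3 : b * d⁻¹ = d⁻¹ * b := (Commute.inv_right ((hDB d hdD b hb).symm : Commute b d)).eq
    have e4 : b⁻¹ * d⁻¹ * b = d⁻¹ := by rw [mul_assoc, ← e3, inv_mul_cancel_left]
    calc b⁻¹ * c * b = b⁻¹ * (d⁻¹ * (b * c * b⁻¹)) * b := by rw [e2]; group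
      _ = (b⁻¹ * d⁻¹ * b) * c := by group
      _ = d⁻¹ * c := by rw [e4]
  set e' := x * d * x⁻¹ * d⁻¹ with he'
  have he'C : e' ∈ C := by
    rw [← hEC]
    exact hadc x hx d hdD
  have hxd : x * d * x⁻¹ = e' * d := by rw [he']; group
  have hbd : b⁻¹ * d * b = d := by
    rw [mul_assoc, hDB d hdD b hb, inv_mul_cancel_left]
  -- two expressions of `g c g⁻¹`
  have hway1 : (a⁻¹ * b⁻¹ * a) * c * (a⁻¹ * b⁻¹ * a)⁻¹ = c * d⁻¹ * c := by
    have hac2 : a * c * a⁻¹ = c := by rw [hca]; group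
    have hac3 : a⁻¹ * c * a = c := by
      rw [mul_assoc, ← hca, inv_mul_cancel_left]
    calc (a⁻¹ * b⁻¹ * a) * c * (a⁻¹ * b⁻¹ * a)⁻¹
        = a⁻¹ * (b⁻¹ * (a * c * a⁻¹) * b) * a := by group
      _ = a⁻¹ * (d⁻¹ * c) * a := by rw [hac2, hb1']
      _ = (a⁻¹ * d⁻¹ * a) * (a⁻¹ * c * a) := by group
      _ = _ := by rw [had2, hac3]
  have hway2 : (b⁻¹ * x * b) * c * (b⁻¹ * x * b)⁻¹ = (b⁻¹ * e' * b) * c := by
    have e2 : b * c * b⁻¹ = d * c := by rw [hd]; group
    have hxc : x * c * x⁻¹ = c := by rw [hac x hx c hc]; group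
    calc (b⁻¹ * x * b) * c * (b⁻¹ * x * b)⁻¹ = b⁻¹ * (x * (b * c * b⁻¹) * x⁻¹) * b := by group
      _ = b⁻¹ * ((x * d * x⁻¹) * (x * c * x⁻¹)) * b := by rw [e2]; group
      _ = b⁻¹ * (e' * d * c) * b := by rw [hxd, hxc]
      _ = (b⁻¹ * e' * b) * (b⁻¹ * d * b) * (b⁻¹ * c * b) := by group
      _ = (b⁻¹ * e' * b) * d * (d⁻¹ * c) := by rw [hbd, hb1']
      _ = _ := by group
  rw [hxe', hway1] at hway2
  have h5 : c * d⁻¹ = b⁻¹ * e' * b := mul_right_cancel hway2
  have hd3 : b⁻¹ * e' * b * e'⁻¹ ∈ D := by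
    have := hcd b⁻¹ (B.inv_mem hb) e' he'C
    simpa using this
  set d3 := b⁻¹ * e' * b * e'⁻¹ with hd3def
  have h6 : b⁻¹ * e' * b = d3 * e' := by rw [hd3def]; group
  rw [h6] at h5
  have h7 : c * e'⁻¹ = d * d3 := by
    have hde : e' * d = d * e' := (hDC d hdD e' he'C).symm
    have hdd : d3 * d = d * d3 := comm_of_isMulCommutative (hS.commutative D hD) hd3 hdD
    calc c * e'⁻¹ = (c * d⁻¹) * d * e'⁻¹ := by group
      _ = d3 * e' * d * e'⁻¹ := by rw [h5]
      _ = d3 * (e' * d) * e'⁻¹ := by group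
      _ = d3 * (d * e') * e'⁻¹ := by rw [hde]
      _ = d3 * d := by group
      _ = d * d3 := hdd
  have hCD : C ⊓ D = ⊥ := by
    refine (inf_eq_bot_of_partner hS hX hCX hD).resolve_right ?_
    intro e2
    apply hBCne b hb hb1 c hc hc1
    have : c ∈ D := by rw [← e2]; exact hc
    exact (hDB c this b hb).symm
  have h8 : c * e'⁻¹ = 1 := by
    have : c * e'⁻¹ ∈ C ⊓ D := ⟨C.mul_mem hc (C.inv_mem he'C), by rw [h7]; exact D.mul_mem hdD hd3⟩
    rw [hCD] at this
    exact this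
  have h9 : e' = c := (mul_inv_eq_one.mp h8).symm
  have h10 : x * d * x⁻¹ = a * d * a⁻¹ := by
    rw [hxd, hadd, h9, hcd2]
  have h11 : (a⁻¹ * x) * d = d * (a⁻¹ * x) := by
    have h12 : (a⁻¹ * x) * d * (a⁻¹ * x)⁻¹ = d := by
      calc (a⁻¹ * x) * d * (a⁻¹ * x)⁻¹ = a⁻¹ * (x * d * x⁻¹) * a := by group
        _ = a⁻¹ * (a * d * a⁻¹) * a := by rw [h10]
        _ = d := by group
    exact mul_inv_eq_iff_eq_mul.mp h12
  have hxa : x = a := by
    by_contra hne
    have hu : a⁻¹ * x ≠ 1 := by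
      intro h12
      exact hne (inv_mul_eq_one.mp h12).symm
    exact comm_ne_of_partner hS hA hB h hADcase (A.mul_mem (A.inv_mem ha) hx) hu hdD hd1 h11
  rw [hxa] at hxe'
  exact hxe'

/-- A non-identity product of an element of `A` and of a different member inside an abelian partitioned subgroup. -/
theorem mul_mem_rootElements {S : Set (Subgroup G)} {L T A : Subgroup G}
    (hL : IsSubgroupPartition L (membersIn S L)) (hT : T ≤ L) (hA : A ≤ L)
    (hTA : T ⊓ A = ⊥) {t a : G} (ht : t ∈ T) (ht1 : t ≠ 1) (ha : a ∈ A) :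
    t * a ∈ rootElements S := by
  have hne : t * a ≠ 1 := by
    intro e
    apply ht1
    have h1 : t = a⁻¹ := eq_inv_of_mul_eq_one_left e
    have h2 : t ∈ T ⊓ A := ⟨ht, by rw [h1]; exact A.inv_mem ha⟩
    rw [hTA] at h2
    exact h2
  obtain ⟨M, hM, hmem⟩ := hL.2.1 (t * a) (L.mul_mem (hT ht) (hA ha)) hne
  exact ⟨hne, M, hM.1, hmem⟩

/-- Line lemma: for a rank one pair `(A, B)` and a partitioned abelian subgroup `L` containing `A` and another member
`E`, some member of `L` other than `A` is in the commutator case with `B`. -/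
theorem exists_commutator_on_line {S : Set (Subgroup G)} (hS : IsRootSubgroupSet S) {A B E L : Subgroup G}
    (hA : A ∈ S) (hB : B ∈ S) (h : IsRankOnePair A B) (hE : E ∈ S) (hEne : E ≠ A)
    (hL : IsSubgroupPartition L (membersIn S L)) (hLab : IsMulCommutative L) (hAL : A ≤ L) (hEL : E ≤ L) :
    ∃ T ∈ S, T ≤ L ∧ T ≠ A ∧ ⁅B, T⁆ ∈ S := by
  by_contra hcon
  push Not at hcon
  have hinf : ∀ T ∈ S, T ≠ A → T ⊓ A = ⊥ := by
    intro T hT hne
    rw [inf_comm]
    exact (inf_eq_bot_of_partner hS hB h hT).resolve_right hne.symm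
  have hcomm : ∀ {x y : G}, x ∈ L → y ∈ L → x * y = y * x := fun hx hy =>
    comm_of_isMulCommutative hLab hx hy
  have hrank : ∀ T ∈ S, T ≤ L → T ≠ A → IsRankOnePair T B := by
    intro T hT hTL hne
    rcases hS.pair T hT B hB with h1 | h1 | h1
    · exfalso
      have hTne := hS.ne_bot T hT
      obtain ⟨t, ht1⟩ := Subgroup.ne_bot_iff_exists_ne_one.1 hTne
      have htT : (t : G) ∈ T := t.2
      have ht1' : (t : G) ≠ 1 := fun e => ht1 (Subtype.ext e)
      have hz : (t : G) ∈ Subgroup.centralizer ((A ⊔ B : Subgroup G) : Set G) := by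
        have hle : A ⊔ B ≤ Subgroup.centralizer ({(t : G)} : Set G) := by
          apply sup_le
          · intro a ha
            rw [Subgroup.mem_centralizer_iff]
            intro w hw
            rw [Set.mem_singleton_iff.1 hw]
            exact hcomm (hTL htT) (hAL ha)
          · intro b hb
            rw [Subgroup.mem_centralizer_iff]
            intro w hw
            rw [Set.mem_singleton_iff.1 hw]
            exact commute_of_commutator_eq_bot h1 htT hb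
        rw [Subgroup.mem_centralizer_iff]
        intro x hx
        exact ((Subgroup.mem_centralizer_iff).1 (hle hx) t rfl).symm
      obtain ⟨a, ha, ha1⟩ := exists_ne_one_left h
      exact Cfsg.Agent.S5025.result hS hA ⟨hB, h⟩ hz ht1' a ha ha1
        (mul_mem_rootElements hL hTL hAL (hinf T hT hne) htT ht1' ha)
    · exact h1
    · exact absurd (by rw [Subgroup.commutator_comm]; exact h1.1) (hcon T hT hTL hne)
  have hEB := hrank E hE hEL hEne
  obtain ⟨e, heE, he1⟩ := exists_ne_one_left hEB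
  obtain ⟨b, hb, hb1, ee⟩ := hEB.cond_left e heE he1
  obtain ⟨a, ha, ha1, ea⟩ := h.cond_right b hb hb1
  -- elementwise commuting
  have hkey : ∀ u ∈ B, ∀ v ∈ B, u * ((a * e⁻¹) * v * (a * e⁻¹)⁻¹) = ((a * e⁻¹) * v * (a * e⁻¹)⁻¹) * u := by
    intro u hu v hv
    have h1 : a⁻¹ * u * a ∈ conjBy A b⁻¹ := by
      rw [← ea]
      simpa using conj_mem_conjBy (g := a⁻¹) hu
    have h2 : e⁻¹ * v * e ∈ conjBy E b⁻¹ := by
      rw [ee]
      simpa using conj_mem_conjBy (g := e⁻¹) hv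
    obtain ⟨p, hp, hpe⟩ := h1
    obtain ⟨q, hq, hqe⟩ := h2
    have hpe' : b⁻¹ * p * b = a⁻¹ * u * a := by simpa using hpe
    have hqe' : b⁻¹ * q * b = e⁻¹ * v * e := by simpa using hqe
    have h3 : (b⁻¹ * p * b) * (b⁻¹ * q * b) = (b⁻¹ * q * b) * (b⁻¹ * p * b) := by
      calc (b⁻¹ * p * b) * (b⁻¹ * q * b) = b⁻¹ * (p * q) * b := by group
        _ = b⁻¹ * (q * p) * b := by rw [hcomm (hAL hp) (hEL hq)]
        _ = _ := by group
    rw [hpe', hqe'] at h3
    calc u * ((a * e⁻¹) * v * (a * e⁻¹)⁻¹) = a * ((a⁻¹ * u * a) * (e⁻¹ * v * e)) * a⁻¹ := by group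
      _ = a * ((e⁻¹ * v * e) * (a⁻¹ * u * a)) * a⁻¹ := by rw [h3]
      _ = _ := by group
  have hEA := hinf E hE hEne
  have ht1 : a * e⁻¹ ≠ 1 := by
    intro h1
    apply ha1
    have h2 : a = e := mul_inv_eq_one.mp h1
    have h3 : a ∈ E ⊓ A := ⟨by rw [h2]; exact heE, ha⟩
    rw [hEA] at h3
    exact h3
  obtain ⟨T, hT, htT⟩ := hL.2.1 (a * e⁻¹) (L.mul_mem (hAL ha) (L.inv_mem (hEL heE))) ht1
  have hTA : T ≠ A := by
    rintro rfl
    apply he1
    have h2 : e⁻¹ ∈ T := by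
      have := T.mul_mem (T.inv_mem ha) htT
      simpa using this
    have h3 : e ∈ E ⊓ T := ⟨heE, by simpa using T.inv_mem h2⟩
    rw [hEA] at h3
    exact h3
  have hTB := hrank T hT.1 hT.2 hTA
  have hne := conjBy_ne_of_mem_left hTB htT ht1
  have hpts : IsRankOnePair B (conjBy B (a * e⁻¹)) :=
    pair_of_mem_unipotent hTB (right_mem_unipotent hTB)
      (conjBy_mem_unipotent hTB (right_mem_unipotent hTB) (Subgroup.mem_sup_left htT)) hne.symm
  apply IsRankOnePair.not_commute' hpts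
  rintro u hu _ ⟨v, hv, rfl⟩
  exact hkey u hu v hv

end Cfsg.Agent.Lib.RootSubgroups
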