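import Cfsg.Agent.Lib.RootSubgroups.LineTrans
import Cfsg.Agent.Lib.RootSubgroups.Config

/-!
Non-degenerate classes: rank one partners are commutators of commutator partners; the graph of line partners is
connected; generation by the line partners and a rank one partner; weak TI-subsets are abelian.
-/

set_option autoImplicit false

namespace Cfsg.Agent.Lib.RootSubgroups

open Cfsg
open scoped commutatorElement

variable {G : Type*} [Group G]

section Basic

variable {S : Set (Subgroup G)} (hS : IsRootSubgroupSet S) (hP : ∀ C ∈ S, ∃ X ∈ S, IsRankOnePair C X)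
include hS hP

theorem eq_of_le_member {A B : Subgroup G} (hA : A ∈ S) (hB : B ∈ S) (h : A ≤ B) : A = B := by
  obtain ⟨X, hX, hAX⟩ := hP A hA
  obtain ⟨x, hx1⟩ := Subgroup.ne_bot_iff_exists_ne_one.1 (hS.ne_bot A hA)
  exact eq_of_mem_of_mem hS hX hAX hB x.2 (h x.2) (fun e => hx1 (Subtype.ext e))

/-- The commutator of two members lying in `S` has the first as a line partner. -/
theorem line_of_commutator {A B : Subgroup G} (hA : A ∈ S) (hB : B ∈ S) (hC : ⁅A, B⁆ ∈ S) :
    A ∈ linePartners S ⁅A, B⁆ := by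
  obtain ⟨X, hX, hAX⟩ := hP A hA
  exact (Cfsg.Agent.S5029.result hS (not_isolated_of_partner hA hX hAX) hA hB hC).2.2.1

/-- From `⁅C, W⁆ = X` and a member `T` on the line `X ⊔ W` different from `X`: `⁅C, T⁆ = X`. -/
theorem commutator_eq_of_mem_line {C W X T : Subgroup G} (hC : C ∈ S) (hW : W ∈ S) (e : ⁅C, W⁆ = X)
    (hXS : X ∈ S) (hT : T ∈ S) (hTL : T ≤ X ⊔ W) (hTX : T ≠ X) : ⁅C, T⁆ = X := by
  have hcc : RootCommutatorCase S C W := commutator_case_of_mem hS hC hW (by rw [e]; exact hXS)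
  have hXC : ∀ x ∈ X, ∀ c ∈ C, x * c = c * x := fun x hx c hc =>
    hcc.2.1 x (by rw [e]; exact hx) c (Subgroup.mem_sup_left hc)
  have hXW : ∀ x ∈ X, ∀ w ∈ W, x * w = w * x := fun x hx w hw =>
    hcc.2.1 x (by rw [e]; exact hx) w (Subgroup.mem_sup_right hw)
  obtain ⟨XX, hXX, hXXr⟩ := hP X hXS
  have hinf : X ⊓ T = ⊥ := (inf_eq_bot_of_partner hS hXX hXXr hT).resolve_right hTX.symm
  -- the commutators land in `X`
  have hle : ⁅C, T⁆ ≤ X := by
    rw [Subgroup.commutator_le]
    intro c hc t ht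
    obtain ⟨x, hx, w, hw, rfl⟩ := mem_sup_of_commute hXW (hTL ht)
    have h1 : c * w * c⁻¹ * w⁻¹ ∈ X := by
      rw [← e]
      exact Subgroup.commutator_mem_commutator hc hw
    have h2 : c * x = x * c := (hXC x hx c hc).symm
    have e2 : ⁅c, x * w⁆ = c * w * c⁻¹ * w⁻¹ := by
      rw [commutatorElement_def]
      calc c * (x * w) * c⁻¹ * (x * w)⁻¹ = (c * x) * w * c⁻¹ * w⁻¹ * x⁻¹ := by group
        _ = x * (c * w * c⁻¹ * w⁻¹) * x⁻¹ := by rw [h2]; group
        _ = (c * w * c⁻¹ * w⁻¹) * x * x⁻¹ := by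
          have := hXW x hx
          have h3 : x * (c * w * c⁻¹ * w⁻¹) = (c * w * c⁻¹ * w⁻¹) * x := by
            have h4 := comm_of_isMulCommutative (hS.commutative X hXS) hx h1
            exact h4
          rw [h3]
        _ = _ := by group
    rw [e2]
    exact h1
  -- non-trivial
  obtain ⟨t, ht1⟩ := Subgroup.ne_bot_iff_exists_ne_one.1 (hS.ne_bot T hT)
  have htT : (t : G) ∈ T := t.2
  have ht1' : (t : G) ≠ 1 := fun e => ht1 (Subtype.ext e)
  have hne : ⁅C, T⁆ ≠ ⊥ := by
    intro h0
    obtain ⟨x, hx, w, hw, hte⟩ := mem_sup_of_commute hXW (hTL htT)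
    have hw1 : w ≠ 1 := by
      rintro rfl
      apply ht1'
      have h1 : (t : G) ∈ X ⊓ T := ⟨by rw [hte]; simpa using hx, htT⟩
      rw [hinf] at h1
      exact h1
    apply hS.ne_bot X hXS
    rw [← e, ← hcc.2.2.2 w hw hw1, eq_bot_iff, Subgroup.closure_le]
    rintro _ ⟨c, hc, rfl⟩
    have h1 : c * t = t * c := commute_of_commutator_eq_bot h0 hc htT
    rw [hte] at h1
    have h2 : c * x = x * c := (hXC x hx c hc).symm
    have h3 : c * w = w * c := by
      have h4 : x * (c * w) = x * (w * c) := by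
        calc x * (c * w) = (c * x) * w := by rw [h2]; group
          _ = c * (x * w) := by group
          _ = (x * w) * c := h1
          _ = _ := by group
      exact mul_left_cancel h4
    show c * w * c⁻¹ * w⁻¹ = 1
    rw [h3]
    group
  rcases hS.pair C hC T hT with h | h | h
  · exact absurd h hne
  · exfalso
    have hconj : conjBy C (t : G) ≠ C := conjBy_ne_of_mem_left (RankOnePair_symm h) htT ht1'
    have h1 : conjBy C (t : G) ∈ unipotentSubgroups C T :=
      conjBy_mem_unipotent h left_mem_unipotent (Subgroup.mem_sup_right htT)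
    have hr := pair_of_mem_unipotent h left_mem_unipotent h1 hconj.symm
    apply IsRankOnePair.not_commute' hr
    rintro c hc _ ⟨c', hc', rfl⟩
    have h2 : (t : G) * c' * (t : G)⁻¹ * c'⁻¹ ∈ X := by
      apply hle
      rw [Subgroup.commutator_comm]
      exact Subgroup.commutator_mem_commutator htT hc'
    have e3 : (MulAut.conj (t : G)).toMonoidHom c' = ((t : G) * c' * (t : G)⁻¹ * c'⁻¹) * c' := by
      simp [mul_assoc]
    rw [e3]
    have h3 : c * c' = c' * c := comm_of_isMulCommutative (hS.commutative C hC) hc hc'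
    have h4 := (hXC _ h2 c hc).symm
    calc c * (((t : G) * c' * (t : G)⁻¹ * c'⁻¹) * c') = (c * ((t : G) * c' * (t : G)⁻¹ * c'⁻¹)) * c' := by group
      _ = ((t : G) * c' * (t : G)⁻¹ * c'⁻¹) * (c * c') := by rw [h4]; group
      _ = ((t : G) * c' * (t : G)⁻¹ * c'⁻¹) * (c' * c) := by rw [h3]
      _ = _ := by group
  · exact eq_of_le_member hS hP h.1 hXS hle

end Basic

section Class

variable {S : Set (Subgroup G)} (hS : IsRootSubgroupClass S) (hnd : IsNondegenerateRootSet S)
include hS hnd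

theorem nondeg_hP : ∀ C ∈ S, ∃ X ∈ S, IsRankOnePair C X := fun _ hC => nondeg_exists_partner hS hnd hC

/-- **Key lemma.** A rank one partner of `A` is the commutator of two commutator partners of `A`. -/
theorem exists_commutator_partners {A X : Subgroup G} (hA : A ∈ S) (hX : X ∈ S) (h : IsRankOnePair A X) :
    ∃ C ∈ commutatorPartners S A, ∃ T ∈ commutatorPartners S A, ⁅C, T⁆ = X := by
  have hP := nondeg_hP hS hnd
  have hS1 := hS.1
  obtain ⟨C, hCl, hCA⟩ := nondeg_exists_line_commutator hS hnd hX hA (RankOnePair_symm h)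
  have hCS : C ∈ S := hCl.1.1
  have hXl : X ∈ linePartners S C := linePartners_symm hS1 hP hX hCl
  obtain ⟨W, hW, e⟩ := exists_commutator_eq_of_line hS1 hP hCS hXl
  have hWl : W ∈ linePartners S X := by
    have h1 := line_of_commutator hS1 hP hW hCS (by rw [Subgroup.commutator_comm, e]; exact hX)
    rwa [Subgroup.commutator_comm, e] at h1
  obtain ⟨T, hT, hTL, hTX, hTA⟩ := exists_commutator_on_line hS1 hX hA (RankOnePair_symm h) hWl.1.1 hWl.1.2.1
    hWl.2 (line_abelian hS1 hP hX hWl) le_sup_left le_sup_right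
  exact ⟨C, hCA, T, ⟨hT, hTA⟩, commutator_eq_of_mem_line hS1 hP hCS hW e hX hT hTL hTX⟩

omit hnd in
theorem linePartners_conj {A B : Subgroup G} (h : B ∈ linePartners S A) (g : G) :
    conjBy B g ∈ linePartners S (conjBy A g) := by
  have hB := h.1.1
  refine ⟨⟨hS.1.conj_mem B hB g, ?_, ?_⟩, ?_⟩
  · intro e
    exact h.1.2.1 (conjBy_injective g e)
  · have e1 : ⁅conjBy A g, conjBy B g⁆ = conjBy ⁅A, B⁆ g := (Subgroup.map_commutator _ _ _).symm
    rw [e1, h.1.2.2]
    simp
  · have e1 : conjBy A g ⊔ conjBy B g = conjBy (A ⊔ B) g := (conjBy_sup _ _ _).symm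
    rw [e1]
    obtain ⟨h1, h2, h3⟩ := h.2
    have hmem : ∀ D, D ∈ membersIn S (A ⊔ B) → conjBy D g ∈ membersIn S (conjBy (A ⊔ B) g) := by
      intro D hD
      refine ⟨hS.1.conj_mem D hD.1 g, ?_⟩
      exact Subgroup.map_mono hD.2
    refine ⟨fun D hD => hD.2, ?_, ?_⟩
    · intro x hx hx1
      have hx' : g⁻¹ * x * g ∈ A ⊔ B := mem_conjBy.1 hx
      have hx1' : g⁻¹ * x * g ≠ 1 := by
        intro e
        apply hx1
        have : x = g * (g⁻¹ * x * g) * g⁻¹ := by group
        rw [this, e]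
        group
      obtain ⟨D, hD, hxD⟩ := h2 _ hx' hx1'
      refine ⟨conjBy D g, hmem D hD, ?_⟩
      exact mem_conjBy.2 hxD
    · intro C hC D hD hne
      have hC0 : conjBy C g⁻¹ ∈ membersIn S (A ⊔ B) := by
        refine ⟨hS.1.conj_mem C hC.1 g⁻¹, ?_⟩
        have := Subgroup.map_mono (f := (MulAut.conj g⁻¹).toMonoidHom) hC.2
        have e2 : conjBy (conjBy (A ⊔ B) g) g⁻¹ = A ⊔ B := conjBy_inv_conjBy _ _
        rw [show (Subgroup.map (MulAut.conj g⁻¹).toMonoidHom (conjBy (A ⊔ B) g)) = A ⊔ B from e2] at this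
        exact this
      have hD0 : conjBy D g⁻¹ ∈ membersIn S (A ⊔ B) := by
        refine ⟨hS.1.conj_mem D hD.1 g⁻¹, ?_⟩
        have := Subgroup.map_mono (f := (MulAut.conj g⁻¹).toMonoidHom) hD.2
        have e2 : conjBy (conjBy (A ⊔ B) g) g⁻¹ = A ⊔ B := conjBy_inv_conjBy _ _
        rw [show (Subgroup.map (MulAut.conj g⁻¹).toMonoidHom (conjBy (A ⊔ B) g)) = A ⊔ B from e2] at this
        exact this
      have hne0 : conjBy C g⁻¹ ≠ conjBy D g⁻¹ := fun e => hne (conjBy_injective g⁻¹ e)
      have h4 := h3 _ hC0 _ hD0 hne0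
      have e5 : C ⊓ D = conjBy (conjBy C g⁻¹ ⊓ conjBy D g⁻¹) g := by
        rw [show conjBy (conjBy C g⁻¹ ⊓ conjBy D g⁻¹) g =
          conjBy (conjBy C g⁻¹) g ⊓ conjBy (conjBy D g⁻¹) g from
          Subgroup.map_inf _ _ _ (MulAut.conj g).injective]
        rw [conjBy_conjBy_inv, conjBy_conjBy_inv]
      rw [e5, h4]
      simp

omit hnd in
theorem reach_conj {A B : Subgroup G} (h : Relation.ReflTransGen (EAdj S S) A B) (g : G) :
    Relation.ReflTransGen (EAdj S S) (conjBy A g) (conjBy B g) := by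
  induction h with
  | refl => exact Relation.ReflTransGen.refl
  | tail _ h2 ih =>
    obtain ⟨hC, hD, hl⟩ := h2
    exact ih.tail ⟨hS.1.conj_mem _ hC g, hS.1.conj_mem _ hD g, linePartners_conj hS hl g⟩

omit hnd in
theorem reach_symm (hA : ∀ {A B : Subgroup G}, EAdj S S A B → EAdj S S B A) {A B : Subgroup G}
    (h : Relation.ReflTransGen (EAdj S S) A B) : Relation.ReflTransGen (EAdj S S) B A := by
  induction h with
  | refl => exact Relation.ReflTransGen.refl
  | tail _ h2 ih => exact Relation.ReflTransGen.head (hA h2) ih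

/-- The graph of line partners is connected. -/
theorem line_graph_connected : IsConnectedFamily (EAdj S S) S := by
  have hP := nondeg_hP hS hnd
  have hS1 := hS.1
  have hsym : ∀ {A B : Subgroup G}, EAdj S S A B → EAdj S S B A := by
    rintro A B ⟨hA, hB, hl⟩
    exact ⟨hB, hA, linePartners_symm hS1 hP hA hl⟩
  intro A₀ hA₀ B₀ hB₀
  -- the stabilizer of the component of `A₀`
  let N : Subgroup G :=
    { carrier := {g | Relation.ReflTransGen (EAdj S S) A₀ (conjBy A₀ g)}
      one_mem' := by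
        show Relation.ReflTransGen (EAdj S S) A₀ (conjBy A₀ 1)
        rw [show conjBy A₀ (1 : G) = A₀ by simp]
      mul_mem' := by
        intro g h hg hh
        show Relation.ReflTransGen (EAdj S S) A₀ (conjBy A₀ (g * h))
        rw [conjBy_mul]
        exact hg.trans (reach_conj hS hh g)
      inv_mem' := by
        intro g hg
        show Relation.ReflTransGen (EAdj S S) A₀ (conjBy A₀ g⁻¹)
        have := reach_conj hS hg g⁻¹
        rw [conjBy_inv_conjBy] at this
        exact reach_symm hS hsym this }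
  have hN : ∀ {g : G}, g ∈ N ↔ Relation.ReflTransGen (EAdj S S) A₀ (conjBy A₀ g) := Iff.rfl
  -- elements fixing a member of the component
  have hfix : ∀ {C : Subgroup G} {g : G}, Relation.ReflTransGen (EAdj S S) A₀ C → conjBy C g = C → g ∈ N := by
    intro C g hC hg
    have h1 := reach_conj hS hC g
    rw [hg] at h1
    exact hC.trans (reach_symm hS hsym h1)
  have hcomm : ∀ {C D : Subgroup G}, Relation.ReflTransGen (EAdj S S) A₀ C → ⁅C, D⁆ = ⊥ → D ≤ N := by
    intro C D hC h0 d hd
    refine hfix hC (conjBy_eq_self_of_commute ?_)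
    intro c hc
    exact (commute_of_commutator_eq_bot h0 hc hd).symm
  have hself : ∀ {C : Subgroup G}, Relation.ReflTransGen (EAdj S S) A₀ C → C ≤ N := by
    intro C hC c hc
    exact hfix hC (conjBy_of_mem hc)
  have hPsi : ∀ {D : Subgroup G}, D ∈ commutatorPartners S A₀ → D ≤ N := by
    rintro D ⟨hD, hc⟩
    have h1 := line_of_commutator hS1 hP hA₀ hD hc
    have h2 : Relation.ReflTransGen (EAdj S S) A₀ ⁅A₀, D⁆ :=
      Relation.ReflTransGen.single ⟨hA₀, hc, linePartners_symm hS1 hP hc h1⟩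
    refine hcomm h2 ?_
    have hcc := commutator_case_of_mem hS1 hA₀ hD hc
    apply commutator_eq_bot_of_commute
    intro c hc' d hd
    exact hcc.2.1 c hc' d (Subgroup.mem_sup_right hd)
  have hall : ∀ D ∈ S, D ≤ N := by
    intro D hD
    rcases hS1.pair A₀ hA₀ D hD with h | h | h
    · exact hcomm Relation.ReflTransGen.refl h
    · obtain ⟨C, hC, T, hT, e⟩ := exists_commutator_partners hS hnd hA₀ hD h
      rw [← e, Subgroup.commutator_le]
      intro c hc t ht
      have h1 := hPsi hC hc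
      have h2 := hPsi hT ht
      rw [commutatorElement_def]
      exact N.mul_mem (N.mul_mem (N.mul_mem h1 h2) (N.inv_mem h1)) (N.inv_mem h2)
    · exact hPsi ⟨hD, h.1⟩
  have htop : N = ⊤ := by
    rw [eq_top_iff, ← hS1.generates]
    exact iSup₂_le hall
  obtain ⟨g, rfl⟩ := hS.2.2 A₀ hA₀ B₀ hB₀
  have hg : g ∈ N := by rw [htop]; trivial
  exact hg

/-- Generation by line partners and one rank one partner. -/
theorem generation {A B : Subgroup G} (hA : A ∈ S) (hB : B ∈ S) (h : IsRankOnePair A B) :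
    (⨆ C ∈ linePartners S A, C) ⊔ B = ⊤ := by
  have hP := nondeg_hP hS hnd
  have hS1 := hS.1
  set H := (⨆ C ∈ linePartners S A, C) ⊔ B with hH
  have hΛ : ∀ C ∈ linePartners S A, C ≤ H := fun C hC =>
    le_trans (le_iSup₂_of_le C hC le_rfl) le_sup_left
  have hBH : B ≤ H := le_sup_right
  have hAH : A ≤ H := by
    obtain ⟨E, hE, F, hF, e⟩ := nondeg_exists_commutator_eq hS hnd hA
    have h1 : E ∈ linePartners S A := by
      have := line_of_commutator hS1 hP hE hF (by rw [e]; exact hA)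
      rwa [e] at this
    have h2 : F ∈ linePartners S A := by
      have := line_of_commutator hS1 hP hF hE (by rw [Subgroup.commutator_comm, e]; exact hA)
      rwa [Subgroup.commutator_comm, e] at this
    rw [← e, Subgroup.commutator_le]
    intro x hx y hy
    have hx' := hΛ E h1 hx
    have hy' := hΛ F h2 hy
    rw [commutatorElement_def]
    exact H.mul_mem (H.mul_mem (H.mul_mem hx' hy') (H.inv_mem hx')) (H.inv_mem hy')
  -- line partners of `A` are `H`-conjugate to `A`
  have hconj : ∀ E ∈ linePartners S A, ∃ x ∈ H, E = conjBy A x := by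
    intro E hE
    obtain ⟨T, hTA, hV, K⟩ := exists_transv hS1 hP hA hE hB h
    have hVH : ⁅B, T⁆ ≤ H := by
      rw [Subgroup.commutator_le]
      intro x hx y hy
      have hT : T ∈ linePartners S A := by
        obtain ⟨e1, e2⟩ := K.comm A ⟨hA, le_sup_left⟩ hTA.symm
        refine ⟨⟨K.hT.1, hTA, ?_⟩, ?_⟩
        · exact commutator_eq_bot_of_commute (fun a ha t ht =>
            comm_of_isMulCommutative (line_abelian hS1 hP hA hE) (le_sup_left (a := A) ha) (K.hT.2 ht))
        · rw [e2]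
          exact hE.2
      have hx' := hBH hx
      have hy' := hΛ T hT hy
      rw [commutatorElement_def]
      exact H.mul_mem (H.mul_mem (H.mul_mem hx' hy') (H.inv_mem hx')) (H.inv_mem hy')
    have hmemL : ∀ {D : Subgroup G}, D ∈ membersIn S (A ⊔ E) → D ≠ T → ∃ x ∈ H, D = conjBy A x := by
      intro D hD hne
      obtain ⟨v, hv, e⟩ := K.exists_conj hS1 hP ⟨hA, le_sup_left⟩ hTA.symm hD hne
      exact ⟨v, hVH hv, e.symm⟩
    by_cases hEne : E = T
    · -- moving the centre by a transvection group with centre `A`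
      obtain ⟨V₂, K₂⟩ := exists_transv_center hS1 hP hA hE (T₂ := A) ⟨hA, le_sup_left⟩
      have hTmem := K.hT
      obtain ⟨e1, -⟩ := K₂.comm T hTmem hTA
      have hV₂l : V₂ ∈ linePartners S A := by
        have h1 := line_of_commutator hS1 hP K₂.hV hTmem.1 (by rw [Subgroup.commutator_comm, e1]; exact hA)
        rwa [Subgroup.commutator_comm, e1] at h1
      obtain ⟨w, hw1⟩ := Subgroup.ne_bot_iff_exists_ne_one.1 (hS1.ne_bot V₂ K₂.hV)
      have hwV : (w : G) ∈ V₂ := w.2
      have hw1' : (w : G) ≠ 1 := fun e => hw1 (Subtype.ext e)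
      have h2 : conjBy T (w : G) ∈ membersIn S (A ⊔ E) :=
        conj_member hS1 hP (K₂.le_normalizer hS1 hP hwV) hTmem
      have h3 := K₂.conj_ne hS1 hP hTmem hTA hwV hw1'
      obtain ⟨x, hx, ex⟩ := hmemL h2 h3
      refine ⟨(w : G)⁻¹ * x, H.mul_mem (H.inv_mem (hΛ V₂ hV₂l hwV)) hx, ?_⟩
      rw [conjBy_mul, ← ex, conjBy_inv_conjBy, hEne]
    · exact hmemL ⟨hE.1.1, le_sup_right⟩ hEne
  -- the orbit of `A` under `H` is closed under line partners
  have hreach : ∀ {C : Subgroup G}, Relation.ReflTransGen (EAdj S S) A C → ∃ x ∈ H, C = conjBy A x := by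
    intro C hC
    induction hC with
    | refl => exact ⟨1, H.one_mem, by simp⟩
    | tail _ h2 ih =>
      rename_i D E
      obtain ⟨x, hx, rfl⟩ := ih
      obtain ⟨-, -, hl⟩ := h2
      have h3 := linePartners_conj hS hl x⁻¹
      rw [conjBy_inv_conjBy] at h3
      obtain ⟨y, hy, e⟩ := hconj _ h3
      refine ⟨x * y, H.mul_mem hx hy, ?_⟩
      rw [conjBy_mul, ← e, conjBy_conjBy_inv]
  rw [eq_top_iff, ← hS1.generates]
  refine iSup₂_le ?_
  intro C hC
  obtain ⟨x, hx, rfl⟩ := hreach (line_graph_connected hS hnd A hA C hC)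
  rintro _ ⟨a, ha, rfl⟩
  exact H.mul_mem (H.mul_mem hx (hAH ha)) (H.inv_mem hx)

/-- Weak TI-subsets are abelian. -/
theorem weakTI_abelian {Δ : Set (Subgroup G)} (hΔ : IsWeakTISubset S Δ) : IsAbelianFamily Δ := by
  have hP := nondeg_hP hS hnd
  have hS1 := hS.1
  obtain ⟨hsub, -, hne, hTI⟩ := hΔ
  -- the stabilizer
  have hstab : ∀ {C D : Subgroup G}, C ∈ Δ → D ∈ S → conjBy C = conjBy C → (∀ d ∈ D, conjBy C d ∈ Δ) →
      D ≤ setStab Δ := by
    intro C D hC hD _ hd d hdD
    by_cases hd1 : d = 1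
    · rw [hd1]; exact Subgroup.one_mem _
    have hroot : d ∈ rootElements S := ⟨hd1, D, hD, hdD⟩
    have himg : (fun A => conjBy A d) '' Δ = Δ := by
      rcases hTI d hroot with h | h
      · exact h
      · exfalso
        exact Set.disjoint_left.1 h ⟨C, hC, rfl⟩ (hd d hdD)
    have hinv : ∀ E ∈ Δ, conjBy E d⁻¹ ∈ Δ := by
      intro E hE
      rw [← himg] at hE
      obtain ⟨F, hF, rfl⟩ := hE
      show conjBy (conjBy F d) d⁻¹ ∈ Δ
      rwa [conjBy_inv_conjBy]
    intro E hE
    refine ⟨?_, hinv E hE⟩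
    rw [← himg]
    exact ⟨E, hE, rfl⟩
  have hcomm : ∀ {C D : Subgroup G}, C ∈ Δ → D ∈ S → ⁅C, D⁆ = ⊥ → D ≤ setStab Δ := by
    intro C D hC hD h0
    refine hstab hC hD rfl ?_
    intro d hd
    rw [conjBy_eq_self_of_commute]
    · exact hC
    · intro c hc
      exact (commute_of_commutator_eq_bot h0 hc hd).symm
  have hself : ∀ {C : Subgroup G}, C ∈ Δ → C ≤ setStab Δ := by
    intro C hC
    refine hstab hC (hsub hC) rfl ?_
    intro d hd
    rw [conjBy_of_mem hd]
    exact hC
  -- the main step: a member of `Δ` with a rank one partner in the stabilizer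
  have hmain : ∀ {A W : Subgroup G}, A ∈ Δ → W ∈ S → IsRankOnePair A W → W ≤ setStab Δ → False := by
    intro A W hA hW h hWN
    apply hne
    have htop : setStab Δ = ⊤ := by
      rw [eq_top_iff, ← generation hS hnd (hsub hA) hW h]
      refine sup_le (iSup₂_le ?_) hWN
      intro C hC
      exact hcomm hA hC.1.1 hC.1.2.2
    apply le_antisymm hsub
    intro X hX
    obtain ⟨g, rfl⟩ := hS.2.2 A (hsub hA) X hX
    have hg : g ∈ setStab Δ := by rw [htop]; trivial
    exact (hg A hA).1
  intro A hA B hB a ha b hb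
  by_contra hab
  have hAB : ⁅A, B⁆ ≠ ⊥ := fun e => hab (commute_of_commutator_eq_bot e ha hb)
  rcases hS1.pair A (hsub hA) B (hsub hB) with h | h | h
  · exact hAB h
  · exact hmain hA (hsub hB) h (hself hB)
  · -- commutator case
    have hF : ⁅B, A⁆ ∈ S := by rw [Subgroup.commutator_comm]; exact h.1
    have h1 := line_of_commutator hS1 hP (hsub hB) (hsub hA) hF
    obtain ⟨W, hW, e⟩ := exists_commutator_eq_of_line hS1 hP hF h1
    have K : LineConfig S B A ⁅B, A⁆ W := ⟨hsub hB, hsub hA, hF, hW, rfl, e⟩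
    have hrk : IsRankOnePair A W := K.rank hS1
    have hBW : ⁅B, W⁆ = ⊥ := commutator_eq_bot_of_commute (fun x hx y hy => K.comm_ad hS1 hx hy)
    exact hmain hA hW hrk (hcomm hB hW hBW)

end Class

end Cfsg.Agent.Lib.RootSubgroups
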