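import Cfsg.Agent.Lib.RootSubgroups.Nilp
import Cfsg.Agent.Lib.RootSubgroups.Line
import Cfsg.Agent.S5029

/-!
Lines: the members of `S` in a partitioned abelian product `AB`. Transvection groups on a line and double
transitivity.
-/

set_option autoImplicit false

namespace Cfsg.Agent.Lib.RootSubgroups

open Cfsg

variable {G : Type*} [Group G]

/-- `V` acts on the subgroup `L` as a transvection group with centre `T`. -/
structure Transv (S : Set (Subgroup G)) (L T V : Subgroup G) : Prop where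
  hV : V ∈ S
  hT : T ∈ membersIn S L
  other : ∃ C ∈ membersIn S L, C ≠ T
  comm : ∀ C ∈ membersIn S L, C ≠ T → ⁅C, V⁆ = T ∧ C ⊔ T = L

section Transv

variable {S : Set (Subgroup G)} {L T V : Subgroup G}
  (hS : IsRootSubgroupSet S) (hP : ∀ C ∈ S, ∃ X ∈ S, IsRankOnePair C X) (K : Transv S L T V)
include hS K

theorem Transv.cc {C : Subgroup G} (hC : C ∈ membersIn S L) (hne : C ≠ T) : RootCommutatorCase S C V :=
  commutator_case_of_mem hS hC.1 K.hV (by rw [(K.comm C hC hne).1]; exact K.hT.1)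

theorem Transv.comm_TV {t v : G} (ht : t ∈ T) (hv : v ∈ V) : t * v = v * t := by
  obtain ⟨C, hC, hne⟩ := K.other
  exact (K.cc hS hC hne).2.1 t (by rw [(K.comm C hC hne).1]; exact ht) v (Subgroup.mem_sup_right hv)

theorem Transv.conj_T {v : G} (hv : v ∈ V) : conjBy T v = T :=
  conjBy_eq_self_of_commute (fun t ht => (K.comm_TV hS ht hv).symm)

include hP

theorem Transv.members_eq {C : Subgroup G} (hC : C ∈ membersIn S L) (hne : C ≠ T) :
    membersIn S L = (fun v : G => conjBy C v) '' (V : Set G) ∪ {T} := by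
  obtain ⟨e1, e2⟩ := K.comm C hC hne
  obtain ⟨X, hX, hCX⟩ := hP C hC.1
  have h1 := (Cfsg.Agent.S5029.result hS (not_isolated_of_partner hC.1 hX hCX) hC.1 K.hV
    (by rw [e1]; exact K.hT.1)).1
  rw [e1, e2] at h1
  exact h1

theorem Transv.exists_conj {C D : Subgroup G} (hC : C ∈ membersIn S L) (hne : C ≠ T)
    (hD : D ∈ membersIn S L) (hDne : D ≠ T) : ∃ v ∈ V, conjBy C v = D := by
  rw [K.members_eq hS hP hC hne] at hD
  rcases hD with ⟨v, hv, rfl⟩ | h1
  · exact ⟨v, hv, rfl⟩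
  · exact absurd h1 hDne

theorem Transv.le_normalizer : V ≤ Subgroup.normalizer (L : Set G) := by
  apply le_normalizer_of_conj
  intro v hv y hy
  obtain ⟨C, hC, hne⟩ := K.other
  obtain ⟨e1, e2⟩ := K.comm C hC hne
  rw [← e2] at hy
  have hcomm : ∀ c ∈ C, ∀ t ∈ T, c * t = t * c := fun c hc t ht =>
    ((K.cc hS hC hne).2.1 t (by rw [e1]; exact ht) c (Subgroup.mem_sup_left hc)).symm
  obtain ⟨c, hc, t, ht, rfl⟩ := mem_sup_of_commute hcomm hy
  have h1 : conjBy C v ∈ membersIn S L := by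
    rw [K.members_eq hS hP hC hne]
    exact Or.inl ⟨v, hv, rfl⟩
  have h2 : v * c * v⁻¹ ∈ L := h1.2 (conj_mem_conjBy hc)
  have h3 : v * t * v⁻¹ = t := by
    rw [← K.comm_TV hS ht hv]
    group
  have e : v * (c * t) * v⁻¹ = (v * c * v⁻¹) * (v * t * v⁻¹) := by group
  rw [e, h3]
  exact L.mul_mem h2 (K.hT.2 ht)

omit K in
theorem conj_member {g : G} (hg : g ∈ Subgroup.normalizer (L : Set G)) {C : Subgroup G} (hC : C ∈ membersIn S L) :
    conjBy C g ∈ membersIn S L := by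
  refine ⟨hS.conj_mem C hC.1 g, ?_⟩
  rintro _ ⟨c, hc, rfl⟩
  have := (Subgroup.mem_normalizer_iff.1 hg c).1 (hC.2 hc)
  simpa using this

omit K in
/-- Transport of the structure. -/
theorem Transv.conj (K : Transv S L T V) {g : G} (hg : g ∈ Subgroup.normalizer (L : Set G)) :
    Transv S L (conjBy T g) (conjBy V g) := by
  have hg' : g⁻¹ ∈ Subgroup.normalizer (L : Set G) := Subgroup.inv_mem _ hg
  have hLg : conjBy L g = L := conjBy_eq_self_iff_mem_normalizer.2 hg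
  refine ⟨hS.conj_mem V K.hV g, conj_member hS hP hg K.hT, ?_, ?_⟩
  · obtain ⟨C, hC, hne⟩ := K.other
    refine ⟨conjBy C g, conj_member hS hP hg hC, ?_⟩
    intro e
    exact hne (conjBy_injective g e)
  · intro C hC hne
    have hC₀ : conjBy C g⁻¹ ∈ membersIn S L := conj_member hS hP hg' hC
    have hCe : conjBy (conjBy C g⁻¹) g = C := conjBy_conjBy_inv C g
    have hne₀ : conjBy C g⁻¹ ≠ T := by
      intro e
      apply hne
      rw [← e, hCe]
    obtain ⟨e1, e2⟩ := K.comm _ hC₀ hne₀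
    constructor
    · rw [← e1]
      conv_lhs => rw [← hCe]
      exact (Subgroup.map_commutator _ _ _).symm
    · have := congrArg (fun D => conjBy D g) e2
      simp only [conjBy_sup, hCe, hLg] at this
      exact this

/-- Non-identity elements move the members different from the centre. -/
theorem Transv.conj_ne {C : Subgroup G} (hC : C ∈ membersIn S L) (hne : C ≠ T) {v : G} (hv : v ∈ V) (hv1 : v ≠ 1) :
    conjBy C v ≠ C := by
  intro e
  obtain ⟨e1, -⟩ := K.comm C hC hne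
  have hc := K.cc hS hC hne
  obtain ⟨X, hX, hCX⟩ := hP C hC.1
  have hinf : C ⊓ T = ⊥ := (inf_eq_bot_of_partner hS hX hCX K.hT.1).resolve_right hne
  apply hS.ne_bot T K.hT.1
  rw [← e1, ← hc.2.2.2 v hv hv1, eq_bot_iff, Subgroup.closure_le]
  rintro _ ⟨c, hcC, rfl⟩
  have h1 : v * c⁻¹ * v⁻¹ ∈ C := by
    have := conj_mem_conjBy (g := v) (C.inv_mem hcC)
    rwa [e] at this
  have h2 : c * v * c⁻¹ * v⁻¹ ∈ C := by
    have e3 : c * v * c⁻¹ * v⁻¹ = c * (v * c⁻¹ * v⁻¹) := by group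
    rw [e3]
    exact C.mul_mem hcC h1
  have h3 : c * v * c⁻¹ * v⁻¹ ∈ T := by
    rw [← e1]
    exact Subgroup.commutator_mem_commutator hcC hv
  have h4 : c * v * c⁻¹ * v⁻¹ ∈ C ⊓ T := ⟨h2, h3⟩
  rw [hinf] at h4
  exact h4

/-- There is a member different from `T` and a given `T'`. -/
theorem Transv.exists_third {T' : Subgroup G} (hT' : T' ∈ membersIn S L) (hne : T' ≠ T) :
    ∃ E ∈ membersIn S L, E ≠ T ∧ E ≠ T' := by
  obtain ⟨v, hv1⟩ := Subgroup.ne_bot_iff_exists_ne_one.1 (hS.ne_bot V K.hV)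
  have hv : (v : G) ∈ V := v.2
  have hv1' : (v : G) ≠ 1 := fun e => hv1 (Subtype.ext e)
  have h1 : conjBy T' (v : G) ∈ membersIn S L := conj_member hS hP (K.le_normalizer hS hP hv) hT'
  refine ⟨_, h1, ?_, K.conj_ne hS hP hT' hne hv hv1'⟩
  intro e
  apply hne
  have := congrArg (fun D => conjBy D (v : G)⁻¹) e
  simp only [conjBy_inv_conjBy] at this
  rw [this, conjBy_eq_self_of_commute]
  intro t ht
  have e3 := K.comm_TV hS ht hv
  have e4 : (v : G)⁻¹ * t = t * (v : G)⁻¹ := by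
    rw [inv_mul_eq_iff_eq_mul, ← mul_assoc, ← e3]
    group
  exact e4

omit K in
/-- Double transitivity from two transvection groups with different centres. -/
theorem Transv.doubly {T' V' : Subgroup G} (K : Transv S L T V) (K' : Transv S L T' V') (hTT' : T ≠ T')
    {C₁ C₂ D₁ D₂ : Subgroup G} (hC₁ : C₁ ∈ membersIn S L) (hC₂ : C₂ ∈ membersIn S L)
    (hD₁ : D₁ ∈ membersIn S L) (hD₂ : D₂ ∈ membersIn S L) (hC : C₁ ≠ C₂) (hD : D₁ ≠ D₂) :
    ∃ x ∈ V ⊔ V', conjBy C₁ x = D₁ ∧ conjBy C₂ x = D₂ := by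
  obtain ⟨E, hE, hET, hET'⟩ := K.exists_third hS hP K'.hT hTT'.symm
  have hN : V ⊔ V' ≤ Subgroup.normalizer (L : Set G) :=
    sup_le (K.le_normalizer hS hP) (K'.le_normalizer hS hP)
  have key : ∀ {C₁ C₂ : Subgroup G}, C₁ ∈ membersIn S L → C₂ ∈ membersIn S L → C₁ ≠ C₂ →
      ∃ x ∈ V ⊔ V', conjBy C₁ x = E ∧ conjBy C₂ x = T := by
    intro C₁ C₂ hC₁ hC₂ hC
    have step : ∃ g ∈ V ⊔ V', conjBy C₂ g = T := by
      by_cases h2 : C₂ = T
      · exact ⟨1, Subgroup.one_mem _, by simp [h2]⟩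
      by_cases h3 : C₂ = T'
      · subst h3
        obtain ⟨v, hv, hve⟩ := K.exists_conj hS hP hC₂ h2 hE hET
        obtain ⟨v', hv', hve'⟩ := K'.exists_conj hS hP hE hET' K.hT hTT'
        refine ⟨v' * v, Subgroup.mul_mem _ (Subgroup.mem_sup_right hv') (Subgroup.mem_sup_left hv), ?_⟩
        rw [conjBy_mul, hve, hve']
      · obtain ⟨v', hv', hve'⟩ := K'.exists_conj hS hP hC₂ h3 K.hT hTT'
        exact ⟨v', Subgroup.mem_sup_right hv', hve'⟩
    obtain ⟨g, hg, hge⟩ := step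
    have h4 : conjBy C₁ g ∈ membersIn S L := conj_member hS hP (hN hg) hC₁
    have h5 : conjBy C₁ g ≠ T := by
      intro e
      apply hC
      apply conjBy_injective g
      show conjBy C₁ g = conjBy C₂ g
      rw [e, hge]
    obtain ⟨v, hv, hve⟩ := K.exists_conj hS hP h4 h5 hE hET
    refine ⟨v * g, Subgroup.mul_mem _ (Subgroup.mem_sup_left hv) hg, ?_, ?_⟩
    · rw [conjBy_mul, hve]
    · rw [conjBy_mul, hge, K.conj_T hS hv]
  obtain ⟨x₁, hx₁, e₁, e₂⟩ := key hC₁ hC₂ hC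
  obtain ⟨x₂, hx₂, e₃, e₄⟩ := key hD₁ hD₂ hD
  refine ⟨x₂⁻¹ * x₁, Subgroup.mul_mem _ (Subgroup.inv_mem _ hx₂) hx₁, ?_, ?_⟩
  · rw [conjBy_mul, e₁, ← e₃, conjBy_inv_conjBy]
  · rw [conjBy_mul, e₂, ← e₄, conjBy_inv_conjBy]

end Transv

section Line

variable {S : Set (Subgroup G)} (hS : IsRootSubgroupSet S) (hP : ∀ C ∈ S, ∃ X ∈ S, IsRankOnePair C X)
include hS hP

theorem line_abelian {A B : Subgroup G} (hA : A ∈ S) (hB : B ∈ linePartners S A) : IsMulCommutative ↥(A ⊔ B) :=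
  isMulCommutative_sup_of_commute (hS.commutative A hA) (hS.commutative B hB.1.1)
    (fun _ ha _ hb => commute_of_commutator_eq_bot hB.1.2.2 ha hb)

/-- The Line Lemma with its consequences. -/
theorem exists_transv {A B U : Subgroup G} (hA : A ∈ S) (hB : B ∈ linePartners S A) (hU : U ∈ S)
    (h : IsRankOnePair A U) : ∃ T, T ≠ A ∧ ⁅U, T⁆ ∈ S ∧ Transv S (A ⊔ B) T ⁅U, T⁆ := by
  have hBS : B ∈ S := hB.1.1
  have hL := hB.2
  have hLab := line_abelian hS hP hA hB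
  obtain ⟨T, hT, hTL, hTA, hV⟩ := exists_commutator_on_line hS hA hU h hBS hB.1.2.1 hL hLab le_sup_left le_sup_right
  refine ⟨T, hTA, hV, ?_⟩
  set L := A ⊔ B with hLdef
  set V := ⁅U, T⁆ with hVdef
  have hAL : A ≤ L := le_sup_left
  have hAT : ⁅A, T⁆ = ⊥ := commutator_eq_bot_of_commute (fun a ha t ht =>
    comm_of_isMulCommutative hLab (hAL ha) (hTL ht))
  have hinf : T ⊓ A = ⊥ := by
    rw [inf_comm]
    exact (inf_eq_bot_of_partner hS hU h hT).resolve_right hTA.symm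
  obtain ⟨X, hX, hTX⟩ := hP T hT
  have e1 : ⁅A, V⁆ = T := (special_key hS hA hU h hT hAT hV hX hTX
    (fun c hc hc1 a ha _ => mul_mem_rootElements hL hTL hAL hinf hc hc1 ha)).1
  obtain ⟨XA, hXA, hAXA⟩ := hP A hA
  have hS29 := Cfsg.Agent.S5029.result hS (not_isolated_of_partner hA hXA hAXA) hA hV (by rw [e1]; exact hT)
  rw [e1] at hS29
  obtain ⟨hmem, hpart, -, -⟩ := hS29
  -- `L = A ⊔ T`
  have hLN : L = A ⊔ T := by
    apply le_antisymm
    · refine sup_le le_sup_left ?_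
      obtain ⟨t, ht1⟩ := Subgroup.ne_bot_iff_exists_ne_one.1 (hS.ne_bot T hT)
      have htT : (t : G) ∈ T := t.2
      have ht1' : (t : G) ≠ 1 := fun e => ht1 (Subtype.ext e)
      obtain ⟨a, ha, e, he, hte⟩ := mem_sup_of_commute
        (fun _ ha _ hb => commute_of_commutator_eq_bot hB.1.2.2 ha hb) (hTL htT)
      have he1 : e ≠ 1 := by
        rintro rfl
        apply ht1'
        have h1 : (t : G) ∈ T ⊓ A := ⟨htT, by rw [hte]; simpa using ha⟩
        rw [hinf] at h1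
        exact h1
      have heN : e ∈ A ⊔ T := by
        have h1 : e = a⁻¹ * t := by rw [hte]; group
        rw [h1]
        exact Subgroup.mul_mem _ (Subgroup.mem_sup_left (A.inv_mem ha)) (Subgroup.mem_sup_right htT)
      obtain ⟨M, hM, heM⟩ := hpart.2.1 e heN he1
      obtain ⟨XB, hXB, hBXB⟩ := hP B hBS
      rcases inf_eq_bot_of_partner hS hXB hBXB hM.1 with h1 | h1
      · exfalso
        have h2 : e ∈ B ⊓ M := ⟨he, heM⟩
        rw [h1] at h2
        exact he1 h2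
      · rw [h1]
        exact hM.2
    · exact sup_le hAL hTL
  have hcAV := commutator_case_of_mem hS hA hV (by rw [e1]; exact hT)
  have hTV : ∀ t ∈ T, ∀ v ∈ V, t * v = v * t := fun t ht v hv =>
    hcAV.2.1 t (by rw [e1]; exact ht) v (Subgroup.mem_sup_right hv)
  have hVN : ∀ v ∈ V, conjBy (A ⊔ T) v = A ⊔ T := by
    intro v hv
    apply conjBy_eq_self_iff_mem_normalizer.2
    refine (le_normalizer_of_conj (B := V) ?_) hv
    intro v hv y hy
    obtain ⟨a, ha, t, ht, rfl⟩ := mem_sup_of_commute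
      (fun _ ha _ ht => commute_of_commutator_eq_bot hAT ha ht) hy
    have h1 : v * a * v⁻¹ * a⁻¹ ∈ T := by
      rw [← e1, Subgroup.commutator_comm]
      exact Subgroup.commutator_mem_commutator hv ha
    have h3 : v * t * v⁻¹ = t := by
      rw [← hTV t ht v hv]
      group
    have e : v * (a * t) * v⁻¹ = (v * a * v⁻¹ * a⁻¹) * a * (v * t * v⁻¹) := by group
    rw [e, h3]
    exact Subgroup.mul_mem _ (Subgroup.mul_mem _ (Subgroup.mem_sup_right h1) (Subgroup.mem_sup_left ha))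
      (Subgroup.mem_sup_right ht)
  refine ⟨hV, ⟨hT, hTL⟩, ⟨A, ⟨hA, hAL⟩, hTA.symm⟩, ?_⟩
  intro C hC hne
  have hC' : C ∈ membersIn S (A ⊔ T) := by rw [← hLN]; exact hC
  rw [hmem] at hC'
  rcases hC' with ⟨v, hv, rfl⟩ | h1
  · constructor
    · have e2 : ⁅conjBy A v, conjBy V v⁆ = conjBy ⁅A, V⁆ v := (Subgroup.map_commutator _ _ _).symm
      rw [conjBy_of_mem hv, e1] at e2
      rw [e2]
      exact conjBy_eq_self_of_commute (fun t ht => (hTV t ht v hv).symm)
    · have e2 : conjBy (A ⊔ T) v = conjBy A v ⊔ conjBy T v := conjBy_sup _ _ _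
      have e3 : conjBy T v = T := conjBy_eq_self_of_commute (fun t ht => (hTV t ht v hv).symm)
      rw [e3, hVN v hv] at e2
      rw [hLN]
      exact e2.symm
  · exact absurd h1 hne

theorem linePartners_symm {A B : Subgroup G} (hA : A ∈ S) (hB : B ∈ linePartners S A) : A ∈ linePartners S B := by
  refine ⟨⟨hA, hB.1.2.1.symm, ?_⟩, ?_⟩
  · rw [Subgroup.commutator_comm]
    exact hB.1.2.2
  · rw [sup_comm]
    exact hB.2

/-- The two transvection groups with different centres on a line. -/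
theorem exists_two_transv {A B : Subgroup G} (hA : A ∈ S) (hB : B ∈ linePartners S A) :
    ∃ T V T' V', T ≠ T' ∧ Transv S (A ⊔ B) T V ∧ Transv S (A ⊔ B) T' V' := by
  obtain ⟨U, hU, hAU⟩ := hP A hA
  obtain ⟨T, hTA, hV, K⟩ := exists_transv hS hP hA hB hU hAU
  obtain ⟨e1, e2⟩ := K.comm A ⟨hA, le_sup_left⟩ hTA.symm
  have hT := K.hT
  have hAT : A ∈ linePartners S T := by
    refine ⟨⟨hA, hTA.symm, ?_⟩, ?_⟩
    · rw [Subgroup.commutator_comm]
      exact commutator_eq_bot_of_commute (fun a ha t ht =>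
        comm_of_isMulCommutative (line_abelian hS hP hA hB) (le_sup_left (a := A) ha) (hT.2 ht))
    · rw [sup_comm, e2]
      exact hB.2
  obtain ⟨U', hU', hTU'⟩ := hP T hT.1
  obtain ⟨T', hT'T, hV', K'⟩ := exists_transv hS hP hT.1 hAT hU' hTU'
  rw [sup_comm, e2] at K'
  exact ⟨T, _, T', _, hT'T.symm, K, K'⟩

/-- Double transitivity on a line. -/
theorem line_doubly {A B : Subgroup G} (hA : A ∈ S) (hB : B ∈ linePartners S A)
    {C₁ C₂ D₁ D₂ : Subgroup G} (hC₁ : C₁ ∈ membersIn S (A ⊔ B)) (hC₂ : C₂ ∈ membersIn S (A ⊔ B))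
    (hD₁ : D₁ ∈ membersIn S (A ⊔ B)) (hD₂ : D₂ ∈ membersIn S (A ⊔ B)) (hC : C₁ ≠ C₂) (hD : D₁ ≠ D₂) :
    ∃ x ∈ ⨆ E ∈ normalizingMembers S (A ⊔ B), E, conjBy C₁ x = D₁ ∧ conjBy C₂ x = D₂ := by
  obtain ⟨T, V, T', V', hne, K, K'⟩ := exists_two_transv hS hP hA hB
  obtain ⟨x, hx, e⟩ := Transv.doubly hS hP K K' hne hC₁ hC₂ hD₁ hD₂ hC hD
  refine ⟨x, ?_, e⟩
  have h1 : V ≤ ⨆ E ∈ normalizingMembers S (A ⊔ B), E :=
    le_iSup₂_of_le V ⟨K.hV, K.le_normalizer hS hP⟩ le_rfl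
  have h2 : V' ≤ ⨆ E ∈ normalizingMembers S (A ⊔ B), E :=
    le_iSup₂_of_le V' ⟨K'.hV, K'.le_normalizer hS hP⟩ le_rfl
  exact sup_le h1 h2 hx

/-- Every member of a line is the centre of a transvection group. -/
theorem exists_transv_center {A B T₂ : Subgroup G} (hA : A ∈ S) (hB : B ∈ linePartners S A)
    (hT₂ : T₂ ∈ membersIn S (A ⊔ B)) : ∃ V, Transv S (A ⊔ B) T₂ V := by
  obtain ⟨T, V, T', V', hne, K, K'⟩ := exists_two_transv hS hP hA hB
  obtain ⟨E, hE, hEne⟩ : ∃ E ∈ membersIn S (A ⊔ B), E ≠ T₂ := by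
    by_cases h : T = T₂
    · exact ⟨T', K'.hT, by rw [← h]; exact hne.symm⟩
    · exact ⟨T, K.hT, h⟩
  obtain ⟨C, hC, hCne⟩ := K.other
  obtain ⟨x, hx, e1, e2⟩ := Transv.doubly hS hP K K' hne K.hT hC hT₂ hE hCne.symm hEne.symm
  have hN : V ⊔ V' ≤ Subgroup.normalizer ((A ⊔ B : Subgroup G) : Set G) :=
    sup_le (K.le_normalizer hS hP) (K'.le_normalizer hS hP)
  refine ⟨conjBy V x, ?_⟩
  have := Transv.conj hS hP K (hN hx)
  rwa [e1] at this

/-- A line partner is a commutator. -/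
theorem exists_commutator_eq_of_line {F B : Subgroup G} (hF : F ∈ S) (hB : B ∈ linePartners S F) :
    ∃ W ∈ S, ⁅F, W⁆ = B := by
  obtain ⟨W, K⟩ := exists_transv_center hS hP hF hB (T₂ := B) ⟨hB.1.1, le_sup_right⟩
  exact ⟨W, K.hV, (K.comm F ⟨hF, le_sup_left⟩ hB.1.2.1.symm).1⟩

end Line

end Cfsg.Agent.Lib.RootSubgroups
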