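import Cfsg.Agent.Lib.RootSubgroups.NonDeg
import Cfsg.Agent.Lib.RootSubgroups.CommMod

/-!
Three members `A`, `B`, `C` of `S` with `⁅A, B⁆, ⁅B, C⁆ ∈ S` and `A`, `C` commuting.
-/

set_option autoImplicit false

namespace Cfsg.Agent.Lib.RootSubgroups

open Cfsg

variable {G : Type*} [Group G]

theorem sup_eq_closure_union (P Q : Subgroup G) : P ⊔ Q = Subgroup.closure ((P : Set G) ∪ Q) := by
  rw [Subgroup.closure_union, Subgroup.closure_eq, Subgroup.closure_eq]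

theorem comm_commutator_of_comm {c : G} {P Q : Subgroup G} (hP : ∀ x ∈ P, c * x = x * c) (hQ : ∀ x ∈ Q, c * x = x * c)
    {p : G} (hp : p ∈ ⁅P, Q⁆) : c * p = p * c := by
  have hle : ⁅P, Q⁆ ≤ Subgroup.centralizer ({c} : Set G) := by
    rw [Subgroup.commutator_le]
    intro a ha d hd
    have h1 : a ∈ Subgroup.centralizer ({c} : Set G) := by
      rw [Subgroup.mem_centralizer_iff]
      intro w hw
      rw [Set.mem_singleton_iff.1 hw]
      exact hP a ha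
    have h2 : d ∈ Subgroup.centralizer ({c} : Set G) := by
      rw [Subgroup.mem_centralizer_iff]
      intro w hw
      rw [Set.mem_singleton_iff.1 hw]
      exact hQ d hd
    exact Subgroup.mul_mem _ (Subgroup.mul_mem _ (Subgroup.mul_mem _ h1 h2) (Subgroup.inv_mem _ h1))
      (Subgroup.inv_mem _ h2)
  exact (Subgroup.mem_centralizer_iff).1 (hle hp) c rfl

section Side

variable {S : Set (Subgroup G)} (hS : IsRootSubgroupSet S) {A B C : Subgroup G}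
  (hA : A ∈ S) (hB : B ∈ S) (hC : C ∈ S) (hH : ⁅B, C⁆ ∈ S) (hAC : ∀ a ∈ A, ∀ c ∈ C, a * c = c * a)
  {b : G} (hb : b ∈ B) (hb1 : b ≠ 1)

include hS hB hC hH in
theorem side_cHB {h x : G} (hh : h ∈ ⁅B, C⁆) (hx : x ∈ B) : h * x = x * h :=
  (commutator_case_of_mem hS hB hC hH).2.1 h hh x (Subgroup.mem_sup_left hx)

include hS hB hC hH in
theorem side_cHC {h x : G} (hh : h ∈ ⁅B, C⁆) (hx : x ∈ C) : h * x = x * h :=
  (commutator_case_of_mem hS hB hC hH).2.1 h hh x (Subgroup.mem_sup_right hx)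

include hS hB hC hH in
theorem side_conj_le (hb : b ∈ B) : conjBy C b⁻¹ ≤ C ⊔ ⁅B, C⁆ := by
  rintro _ ⟨c, hc, rfl⟩
  have h1 : b⁻¹ * c * b * c⁻¹ ∈ ⁅B, C⁆ := by
    have := Subgroup.commutator_mem_commutator (B.inv_mem hb) hc
    simpa [commutatorElement_def] using this
  have e : (MulAut.conj b⁻¹).toMonoidHom c = c * (b⁻¹ * c * b * c⁻¹) := by
    have h2 := side_cHC hS hB hC hH h1 hc
    simp only [MulEquiv.coe_toMonoidHom, MulAut.conj_apply, inv_inv]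
    rw [← h2]
    group
  rw [e]
  exact Subgroup.mul_mem _ (Subgroup.mem_sup_left hc) (Subgroup.mem_sup_right h1)

include hS hB hC hH in
theorem side_commutator_le (hb : b ∈ B) (hb1 : b ≠ 1) : ⁅B, C⁆ ≤ C ⊔ conjBy C b⁻¹ := by
  have h1 := (commutator_case_of_mem hS hB hC hH).2.2.1 b⁻¹ (B.inv_mem hb) (inv_ne_one.mpr hb1)
  rw [← h1, Subgroup.closure_le]
  rintro _ ⟨c, hc, rfl⟩
  have e : b⁻¹ * c * b⁻¹⁻¹ * c⁻¹ = (b⁻¹ * c * b⁻¹⁻¹) * c⁻¹ := rfl
  simp only [inv_inv]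
  refine Subgroup.mul_mem _ (Subgroup.mem_sup_right ?_) (Subgroup.mem_sup_left (C.inv_mem hc))
  simpa using conj_mem_conjBy (g := b⁻¹) hc

include hS hB hC hH in
theorem side_abelian : IsMulCommutative ↥(C ⊔ ⁅B, C⁆) :=
  isMulCommutative_sup_of_commute (hS.commutative C hC) (hS.commutative _ hH)
    (fun _ hc _ hh => (side_cHC hS hB hC hH hh hc).symm)

include hS hB hC hH in
theorem side_comm_C_conj (hb : b ∈ B) {c c' : G} (hc : c ∈ C) (hc' : c' ∈ conjBy C b⁻¹) : c * c' = c' * c :=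
  comm_of_isMulCommutative (side_abelian hS hB hC hH) (Subgroup.mem_sup_left hc) (side_conj_le hS hB hC hH hb hc')

include hS hB hC hH hAC in
/-- `a` and `y ∈ C ⊔ C'`: the commutator lies in `⁅A, C'⁆`. -/
theorem side_comm_mem (hb : b ∈ B) {a y : G} (ha : a ∈ A) (hy : y ∈ C ⊔ conjBy C b⁻¹) :
    a * y * a⁻¹ * y⁻¹ ∈ ⁅A, conjBy C b⁻¹⁆ := by
  obtain ⟨c, hc, c', hc', rfl⟩ := mem_sup_of_commute
    (fun _ hc _ hc' => side_comm_C_conj hS hB hC hH hb hc hc') hy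
  have h1 : a * c' * a⁻¹ * c'⁻¹ ∈ ⁅A, conjBy C b⁻¹⁆ := Subgroup.commutator_mem_commutator ha hc'
  have h2 : c * (a * c' * a⁻¹ * c'⁻¹) = (a * c' * a⁻¹ * c'⁻¹) * c :=
    comm_commutator_of_comm (fun x hx => (hAC x hx c hc).symm)
      (fun x hx => side_comm_C_conj hS hB hC hH hb hc hx) h1
  have e : a * (c * c') * a⁻¹ * (c * c')⁻¹ = a * c' * a⁻¹ * c'⁻¹ := by
    have e1 : a * c = c * a := hAC a ha c hc
    calc a * (c * c') * a⁻¹ * (c * c')⁻¹ = (a * c) * c' * a⁻¹ * c'⁻¹ * c⁻¹ := by group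
      _ = c * (a * c' * a⁻¹ * c'⁻¹) * c⁻¹ := by rw [e1]; group
      _ = (a * c' * a⁻¹ * c'⁻¹) * c * c⁻¹ := by rw [h2]
      _ = _ := by group
  rw [e]
  exact h1

include hS hA hB hC hH hAC in
/-- `(C', A)` is not a rank one pair. -/
theorem side_not_rank (hb : b ∈ B) (hb1 : b ≠ 1) : ¬ IsRankOnePair (conjBy C b⁻¹) A := by
  intro hr
  have hcase := commutator_case_of_mem hS hB hC hH
  -- find `c` not commuting with `b⁻¹`
  obtain ⟨c, hc, hcne⟩ : ∃ c ∈ C, b⁻¹ * c * b * c⁻¹ ≠ 1 := by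
    by_contra hcon
    push Not at hcon
    apply hS.ne_bot _ hH
    have h1 := hcase.2.2.1 b⁻¹ (B.inv_mem hb) (inv_ne_one.mpr hb1)
    rw [← h1, eq_bot_iff, Subgroup.closure_le]
    rintro _ ⟨c, hc, rfl⟩
    simpa using hcon c hc
  have hc1 : c ≠ 1 := by
    rintro rfl
    simp at hcne
  set h := b⁻¹ * c * b * c⁻¹ with hh
  have hhH : h ∈ ⁅B, C⁆ := by
    have := Subgroup.commutator_mem_commutator (B.inv_mem hb) hc
    simpa [commutatorElement_def] using this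
  have hz : c⁻¹ ∈ Subgroup.centralizer ((conjBy C b⁻¹ ⊔ A : Subgroup G) : Set G) := by
    apply Subgroup.inv_mem
    have hle : conjBy C b⁻¹ ⊔ A ≤ Subgroup.centralizer ({c} : Set G) := by
      apply sup_le
      · intro x hx
        rw [Subgroup.mem_centralizer_iff]
        intro w hw
        rw [Set.mem_singleton_iff.1 hw]
        exact side_comm_C_conj hS hB hC hH hb hc hx
      · intro x hx
        rw [Subgroup.mem_centralizer_iff]
        intro w hw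
        rw [Set.mem_singleton_iff.1 hw]
        exact (hAC x hx c hc).symm
    rw [Subgroup.mem_centralizer_iff]
    intro x hx
    exact ((Subgroup.mem_centralizer_iff).1 (hle hx) c rfl).symm
  have hmem : b⁻¹ * c * b ∈ conjBy C b⁻¹ := by
    simpa using conj_mem_conjBy (g := b⁻¹) hc
  have hne : b⁻¹ * c * b ≠ 1 := by
    intro e
    apply hc1
    have : c = b * (b⁻¹ * c * b) * b⁻¹ := by group
    rw [this, e]
    group
  refine Cfsg.Agent.S5025.result hS (hS.conj_mem C hC _) ⟨hA, hr⟩ hz (inv_ne_one.mpr hc1) _ hmem hne ?_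
  have e2 : c⁻¹ * (b⁻¹ * c * b) = h := by
    have h2 := side_cHC hS hB hC hH hhH hc
    calc c⁻¹ * (b⁻¹ * c * b) = c⁻¹ * (h * c) := by rw [hh]; group
      _ = c⁻¹ * (c * h) := by rw [h2]
      _ = h := by group
  rw [e2]
  exact ⟨hcne, _, hH, hhH⟩

include hS hA hB hC hH hAC in
/-- `⁅A, C'⁆` is trivial or in the commutator case. -/
theorem side_cases (hb : b ∈ B) (hb1 : b ≠ 1) :
    ⁅A, conjBy C b⁻¹⁆ = ⊥ ∨ RootCommutatorCase S A (conjBy C b⁻¹) := by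
  rcases hS.pair A hA _ (hS.conj_mem C hC b⁻¹) with h1 | h1 | h1
  · exact Or.inl h1
  · exact absurd (RankOnePair_symm h1) (side_not_rank hS hA hB hC hH hAC hb hb1)
  · exact Or.inr h1

include hS hA hB hC hH hAC in
theorem side_P_comm_A (hb : b ∈ B) (hb1 : b ≠ 1) {p a : G} (hp : p ∈ ⁅A, conjBy C b⁻¹⁆) (ha : a ∈ A) :
    p * a = a * p := by
  rcases side_cases hS hA hB hC hH hAC hb hb1 with h1 | h1
  · rw [h1, Subgroup.mem_bot] at hp
    simp [hp]
  · exact h1.2.1 p hp a (Subgroup.mem_sup_left ha)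

include hS hA hB hC hH hAC in
theorem side_P_comm_C' (hb : b ∈ B) (hb1 : b ≠ 1) {p c' : G} (hp : p ∈ ⁅A, conjBy C b⁻¹⁆)
    (hc' : c' ∈ conjBy C b⁻¹) : p * c' = c' * p := by
  rcases side_cases hS hA hB hC hH hAC hb hb1 with h1 | h1
  · rw [h1, Subgroup.mem_bot] at hp
    simp [hp]
  · exact h1.2.1 p hp c' (Subgroup.mem_sup_right hc')

include hS hB hC hH hAC in
/-- `⁅A, C'⁆ = ⊥` iff `⁅A, ⁅B, C⁆⁆ = ⊥`. -/
theorem side_bot_iff (hb : b ∈ B) (hb1 : b ≠ 1) : ⁅A, conjBy C b⁻¹⁆ = ⊥ ↔ ⁅A, ⁅B, C⁆⁆ = ⊥ := by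
  constructor
  · intro h0
    apply commutator_eq_bot_of_commute
    intro a ha h hh
    have h1 := side_comm_mem hS hB hC hH hAC hb ha (side_commutator_le hS hB hC hH hb hb1 hh)
    rw [h0, Subgroup.mem_bot] at h1
    have h2 : a * h * a⁻¹ = h := mul_inv_eq_one.mp h1
    exact mul_inv_eq_iff_eq_mul.mp h2
  · intro h0
    apply commutator_eq_bot_of_commute
    intro a ha c' hc'
    have hle := side_conj_le hS hB hC hH hb hc'
    obtain ⟨c, hc, h, hh, rfl⟩ := mem_sup_of_commute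
      (fun _ hc _ hh => (side_cHC hS hB hC hH hh hc).symm) hle
    have h1 : a * h = h * a := commute_of_commutator_eq_bot h0 ha hh
    have h2 : a * c = c * a := hAC a ha c hc
    calc a * (c * h) = (a * c) * h := by group
      _ = c * (a * h) := by rw [h2]; group
      _ = c * h * a := by rw [h1]; group

end Side

/-- The three subgroup step. -/
theorem three_subgroups_step {A B C : Subgroup G} (hAC : ⁅A, C⁆ = ⊥) (h : ⁅A, ⁅B, C⁆⁆ = ⊥) : ⁅C, ⁅B, A⁆⁆ = ⊥ := by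
  have h1 : ⁅⁅B, C⁆, A⁆ = ⊥ := by rw [Subgroup.commutator_comm]; exact h
  have h2 : ⁅⁅C, A⁆, B⁆ = ⊥ := by
    rw [Subgroup.commutator_comm C A, hAC, Subgroup.commutator_bot_left]
  have h3 := Subgroup.commutator_commutator_eq_bot_of_rotate h1 h2
  rw [Subgroup.commutator_comm, Subgroup.commutator_comm B A]
  exact h3


section Chain

/-- `x g x⁻¹ g⁻¹ ∈ K` for all `x ∈ X`, `g ∈ W`. -/
def CM (K X W : Subgroup G) : Prop := ∀ x ∈ X, ∀ g ∈ W, x * g * x⁻¹ * g⁻¹ ∈ K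

variable {K K' X X₁ X₂ W W₁ W₂ : Subgroup G}

theorem CM.symm (h : CM K X W) : CM K W X := by
  intro g hg x hx
  have := K.inv_mem (h x hx g hg)
  have e : g * x * g⁻¹ * x⁻¹ = (x * g * x⁻¹ * g⁻¹)⁻¹ := by group
  rw [e]
  exact this

theorem CM.sup_left (hN₁ : X₁ ≤ Subgroup.normalizer (K : Set G)) (hN₂ : X₂ ≤ Subgroup.normalizer (K : Set G))
    (h₁ : CM K X₁ W) (h₂ : CM K X₂ W) : CM K (X₁ ⊔ X₂) W := by
  have : X₁ ⊔ X₂ ≤ commSub K (W : Set G) :=
    sup_le (fun x hx => ⟨hN₁ hx, h₁ x hx⟩) (fun x hx => ⟨hN₂ hx, h₂ x hx⟩)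
  intro x hx g hg
  exact (this hx).2 g hg

theorem CM.sup_right (hN₁ : W₁ ≤ Subgroup.normalizer (K : Set G)) (hN₂ : W₂ ≤ Subgroup.normalizer (K : Set G))
    (h₁ : CM K X W₁) (h₂ : CM K X W₂) : CM K X (W₁ ⊔ W₂) :=
  (CM.sup_left hN₁ hN₂ h₁.symm h₂.symm).symm

theorem CM.of_comm (h : ∀ x ∈ X, ∀ g ∈ W, x * g = g * x) : CM K X W := by
  intro x hx g hg
  rw [h x hx g hg]
  have : g * x * x⁻¹ * g⁻¹ = 1 := by group
  rw [this]
  exact K.one_mem

theorem CM.mono (hK : K ≤ K') (h : CM K X W) : CM K' X W :=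
  fun x hx g hg => hK (h x hx g hg)

theorem CM.of_commutator : CM ⁅X, W⁆ X W :=
  fun _ hx _ hg => Subgroup.commutator_mem_commutator hx hg

theorem CM.comm (h : CM ⊥ X W) {x g : G} (hx : x ∈ X) (hg : g ∈ W) : x * g = g * x := by
  have h1 := h x hx g hg
  rw [Subgroup.mem_bot] at h1
  have h2 : x * g * x⁻¹ = g := mul_inv_eq_one.mp h1
  exact mul_inv_eq_iff_eq_mul.mp h2

theorem le_normalizer_bot (X : Subgroup G) : X ≤ Subgroup.normalizer ((⊥ : Subgroup G) : Set G) :=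
  le_normalizer_of_comm (fun x hx g _ => by
    rw [Subgroup.mem_bot] at hx ⊢
    subst hx
    group)

theorem CM.le_normalizer (h : CM K K W) : W ≤ Subgroup.normalizer (K : Set G) :=
  le_normalizer_of_comm h

theorem CM.sup_bot_left (h₁ : CM ⊥ X₁ W) (h₂ : CM ⊥ X₂ W) : CM ⊥ (X₁ ⊔ X₂) W :=
  CM.sup_left (le_normalizer_bot _) (le_normalizer_bot _) h₁ h₂

theorem CM.sup_bot_right (h₁ : CM ⊥ X W₁) (h₂ : CM ⊥ X W₂) : CM ⊥ X (W₁ ⊔ W₂) :=
  CM.sup_right (le_normalizer_bot _) (le_normalizer_bot _) h₁ h₂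

/-- The core chain argument. -/
theorem nilp_core {A B C F H P Q P₁ Q₁ : Subgroup G}
    (hAA : CM ⊥ A A) (hAB : CM F A B) (hAC : CM ⊥ A C) (hCC : CM ⊥ C C) (hCB : CM H C B) (hBB : CM ⊥ B B)
    (hFA : CM ⊥ F A) (hFB : CM ⊥ F B) (hFC : CM Q F C)
    (hHA : CM P H A) (hHB : CM ⊥ H B) (hHC : CM ⊥ H C)
    (hPA : CM ⊥ P A) (hPB : CM P₁ P B) (hPC : CM ⊥ P C)
    (hQA : CM ⊥ Q A) (hQB : CM Q₁ Q B) (hQC : CM ⊥ Q C)
    (hP₁A : CM ⊥ P₁ A) (hP₁B : CM ⊥ P₁ B) (hP₁C : CM ⊥ P₁ C)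
    (hQ₁A : CM ⊥ Q₁ A) (hQ₁B : CM ⊥ Q₁ B) (hQ₁C : CM ⊥ Q₁ C)
    (leF : F ≤ A ⊔ B ⊔ C) (leH : H ≤ A ⊔ B ⊔ C) (leP : P ≤ A ⊔ B ⊔ C) (leQ : Q ≤ A ⊔ B ⊔ C)
    (leP₁ : P₁ ≤ A ⊔ B ⊔ C) (leQ₁ : Q₁ ≤ A ⊔ B ⊔ C) : Group.IsNilpotent ↥(A ⊔ B ⊔ C) := by
  set R := A ⊔ B ⊔ C with hR
  have hAR : A ≤ R := le_sup_of_le_left le_sup_left
  have hBR : B ≤ R := le_sup_of_le_left le_sup_right
  have hCR : C ≤ R := le_sup_right
  have genR : ∀ {K X : Subgroup G}, R ≤ Subgroup.normalizer (K : Set G) → CM K X A → CM K X B → CM K X C → CM K X R := by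
    intro K X hN h1 h2 h3
    exact CM.sup_right (le_trans (sup_le hAR hBR) hN) (le_trans hCR hN)
      (CM.sup_right (le_trans hAR hN) (le_trans hBR hN) h1 h2) h3
  -- level 4
  set Z4 := P₁ ⊔ Q₁ with hZ4
  have s4 : CM ⊥ Z4 R := CM.sup_bot_left
    (CM.sup_bot_right (CM.sup_bot_right hP₁A hP₁B) hP₁C) (CM.sup_bot_right (CM.sup_bot_right hQ₁A hQ₁B) hQ₁C)
  have n4 : R ≤ Subgroup.normalizer (Z4 : Set G) := (s4.mono bot_le).le_normalizer
  have le4 : Z4 ≤ R := sup_le leP₁ leQ₁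
  -- level 3
  set Z3 := P ⊔ Q ⊔ Z4 with hZ3
  have s3 : CM Z4 Z3 R := by
    refine CM.sup_left (le_trans (sup_le leP leQ) n4) (le_trans le4 n4)
      (CM.sup_left (le_trans leP n4) (le_trans leQ n4) ?_ ?_) (s4.mono bot_le)
    · exact genR n4 (hPA.mono bot_le) (hPB.mono le_sup_left) (hPC.mono bot_le)
    · exact genR n4 (hQA.mono bot_le) (hQB.mono le_sup_right) (hQC.mono bot_le)
  have n3 : R ≤ Subgroup.normalizer (Z3 : Set G) := (s3.mono le_sup_right).le_normalizer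
  have le3 : Z3 ≤ R := sup_le (sup_le leP leQ) le4
  -- level 2
  set Z2 := F ⊔ H ⊔ Z3 with hZ2
  have s2 : CM Z3 Z2 R := by
    refine CM.sup_left (le_trans (sup_le leF leH) n3) (le_trans le3 n3)
      (CM.sup_left (le_trans leF n3) (le_trans leH n3) ?_ ?_) (s3.mono le_sup_right)
    · exact genR n3 (hFA.mono bot_le) (hFB.mono bot_le) (hFC.mono (le_sup_of_le_left le_sup_right))
    · exact genR n3 (hHA.mono (le_sup_of_le_left le_sup_left)) (hHB.mono bot_le) (hHC.mono bot_le)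
  have n2 : R ≤ Subgroup.normalizer (Z2 : Set G) := (s2.mono le_sup_right).le_normalizer
  have le2 : Z2 ≤ R := sup_le (sup_le leF leH) le3
  -- level 1
  set Z1 := A ⊔ C ⊔ Z2 with hZ1
  have s1 : CM Z2 Z1 R := by
    refine CM.sup_left (le_trans (sup_le hAR hCR) n2) (le_trans le2 n2)
      (CM.sup_left (le_trans hAR n2) (le_trans hCR n2) ?_ ?_) (s2.mono le_sup_right)
    · exact genR n2 (hAA.mono bot_le) (hAB.mono (le_sup_of_le_left le_sup_left)) (hAC.mono bot_le)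
    · exact genR n2 (hAC.symm.mono bot_le) (hCB.mono (le_sup_of_le_left le_sup_right)) (hCC.mono bot_le)
  have n1 : R ≤ Subgroup.normalizer (Z1 : Set G) := (s1.mono le_sup_right).le_normalizer
  have le1 : Z1 ≤ R := sup_le (sup_le hAR hCR) le2
  -- level 0
  have s0 : CM Z1 R R := by
    refine CM.sup_left (le_trans (sup_le hAR hBR) n1) (le_trans hCR n1)
      (CM.sup_left (le_trans hAR n1) (le_trans hBR n1) ?_ ?_) ?_
    · exact fun x hx g hg => (le_sup_right : Z2 ≤ Z1) (s1 x ((le_sup_of_le_left le_sup_left : A ≤ Z1) hx) g hg)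
    · refine genR n1 ?_ (hBB.mono bot_le) ?_
      · exact (hAB.mono ((le_sup_of_le_left le_sup_left : F ≤ Z2).trans le_sup_right)).symm
      · exact (hCB.mono ((le_sup_of_le_left le_sup_right : H ≤ Z2).trans le_sup_right)).symm
    · exact fun x hx g hg => (le_sup_right : Z2 ≤ Z1) (s1 x ((le_sup_of_le_left le_sup_right : C ≤ Z1) hx) g hg)
  -- chain
  refine isNilpotent_of_chain R 5 (fun i => match i with
    | 0 => R
    | 1 => Z1
    | 2 => Z2
    | 3 => Z3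
    | 4 => Z4
    | _ => ⊥) le_rfl rfl ?_
  intro i x hx g hg
  match i with
  | 0 => exact s0 x hx g hg
  | 1 => exact s1 x hx g hg
  | 2 => exact s2 x hx g hg
  | 3 => exact s3 x hx g hg
  | 4 => exact s4 x hx g hg
  | (n + 5) =>
    have hx1 : x = 1 := hx
    rw [hx1]
    have e : (1 : G) * g * 1⁻¹ * g⁻¹ = 1 := by group
    rw [e]
    exact Subgroup.one_mem _

end Chain

section Push

/-- Commutators of `T` with `B` stay central in `W`, and commute with `B`. -/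
theorem central_push {S : Set (Subgroup G)} (hS : IsRootSubgroupSet S) {T B W : Subgroup G} (hB : B ∈ S)
    (hT : T = ⊥ ∨ T ∈ S) (norm : ∀ g ∈ B, ∀ y ∈ W, g * y * g⁻¹ ∈ W) (hTW : T ≤ W)
    (hTc : ∀ t ∈ T, ∀ y ∈ W, t * y = y * t) {b : G} (hb : b ∈ B) (hb1 : b ≠ 1) :
    (∀ t ∈ ⁅T, B⁆, ∀ y ∈ W, t * y = y * t) ∧ (∀ t ∈ ⁅T, B⁆, ∀ g ∈ B, t * g = g * t) := by
  constructor
  · have hle : ⁅T, B⁆ ≤ Subgroup.centralizer (W : Set G) := by
      rw [Subgroup.commutator_le]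
      intro t ht g hg
      rw [Subgroup.mem_centralizer_iff]
      intro y hy
      have h1 : t * y = y * t := hTc t ht y hy
      have h2 : t * (g⁻¹ * y * g) = (g⁻¹ * y * g) * t := by
        have := norm g⁻¹ (B.inv_mem hg) y hy
        simpa using hTc t ht _ this
      have h3 : y * g * t⁻¹ * g⁻¹ = g * t⁻¹ * g⁻¹ * y := by
        have h4 : t⁻¹ * (g⁻¹ * y * g) = (g⁻¹ * y * g) * t⁻¹ := by
          rw [eq_mul_inv_iff_mul_eq, mul_assoc, inv_mul_eq_iff_eq_mul, h2]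
        calc y * g * t⁻¹ * g⁻¹ = g * ((g⁻¹ * y * g) * t⁻¹) * g⁻¹ := by group
          _ = g * (t⁻¹ * (g⁻¹ * y * g)) * g⁻¹ := by rw [h4]
          _ = _ := by group
      show y * (t * g * t⁻¹ * g⁻¹) = (t * g * t⁻¹ * g⁻¹) * y
      calc y * (t * g * t⁻¹ * g⁻¹) = (y * t) * g * t⁻¹ * g⁻¹ := by group
        _ = t * (y * g * t⁻¹ * g⁻¹) := by rw [← h1]; group
        _ = t * (g * t⁻¹ * g⁻¹ * y) := by rw [h3]
        _ = _ := by group
    intro t ht y hy
    exact (Subgroup.mem_centralizer_iff.1 (hle ht) y hy).symm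
  · rcases hT with rfl | hT
    · intro t ht g _
      rw [Subgroup.commutator_bot_left, Subgroup.mem_bot] at ht
      simp [ht]
    · rcases hS.pair T hT B hB with h | h | h
      · intro t ht g _
        rw [h, Subgroup.mem_bot] at ht
        simp [ht]
      · exfalso
        have hne : conjBy T b ≠ T := conjBy_ne_of_mem_left (RankOnePair_symm h) hb hb1
        have h1 : conjBy T b ∈ unipotentSubgroups T B :=
          conjBy_mem_unipotent h left_mem_unipotent (Subgroup.mem_sup_right hb)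
        have hr := pair_of_mem_unipotent h left_mem_unipotent h1 hne.symm
        apply IsRankOnePair.not_commute' hr
        rintro t ht _ ⟨t', ht', rfl⟩
        exact hTc t ht _ (norm b hb t' (hTW ht'))
      · intro t ht g hg
        exact h.2.1 t ht g (Subgroup.mem_sup_right hg)

end Push

section SupFacts

variable {U V : Subgroup G}

theorem sup_abelian_iff (hU : IsMulCommutative U) (hV : IsMulCommutative V) :
    IsMulCommutative ↥(U ⊔ V) ↔ ⁅U, V⁆ = ⊥ := by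
  constructor
  · intro h
    apply commutator_eq_bot_of_commute
    intro a ha b hb
    exact comm_of_isMulCommutative h (Subgroup.mem_sup_left ha) (Subgroup.mem_sup_right hb)
  · intro h
    exact isMulCommutative_sup_of_commute hU hV (fun _ ha _ hb => commute_of_commutator_eq_bot h ha hb)

theorem sup_class_two (hU : IsMulCommutative U) (hV : IsMulCommutative V)
    (hUc : ∀ p ∈ ⁅U, V⁆, ∀ u ∈ U, p * u = u * p) (hVc : ∀ p ∈ ⁅U, V⁆, ∀ v ∈ V, p * v = v * p) :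
    ⁅⁅U ⊔ V, U ⊔ V⁆, U ⊔ V⁆ = ⊥ := by
  set K := ⁅U, V⁆ with hK
  have hUN : U ≤ Subgroup.normalizer (K : Set G) := (CM.of_comm (K := K) hUc).le_normalizer
  have hVN : V ≤ Subgroup.normalizer (K : Set G) := (CM.of_comm (K := K) hVc).le_normalizer
  have hUU : CM K U U := CM.of_comm (fun _ hx _ hg => comm_of_isMulCommutative hU hx hg)
  have hVV : CM K V V := CM.of_comm (fun _ hx _ hg => comm_of_isMulCommutative hV hx hg)
  have hUV : CM K U V := CM.of_commutator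
  have hall : CM K (U ⊔ V) (U ⊔ V) :=
    CM.sup_left hUN hVN (CM.sup_right hUN hVN hUU hUV) (CM.sup_right hUN hVN hUV.symm hVV)
  have hle : ⁅U ⊔ V, U ⊔ V⁆ ≤ K := by
    rw [Subgroup.commutator_le]
    intro x hx y hy
    exact hall x hx y hy
  apply commutator_eq_bot_of_commute
  intro p hp y hy
  have hc : U ⊔ V ≤ Subgroup.centralizer (K : Set G) := by
    apply sup_le
    · intro u hu
      rw [Subgroup.mem_centralizer_iff]
      intro q hq
      exact hUc q hq u hu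
    · intro v hv
      rw [Subgroup.mem_centralizer_iff]
      intro q hq
      exact hVc q hq v hv
  exact (Subgroup.mem_centralizer_iff.1 (hc hy) p (hle hp))

theorem le_normalizer_of_conj {B W : Subgroup G} (h : ∀ g ∈ B, ∀ y ∈ W, g * y * g⁻¹ ∈ W) :
    B ≤ Subgroup.normalizer (W : Set G) := by
  intro g hg
  rw [Subgroup.mem_normalizer_iff]
  intro y
  constructor
  · exact h g hg y
  · intro hy
    have := h g⁻¹ (B.inv_mem hg) _ hy
    simpa [mul_assoc] using this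

end SupFacts

section Side2

variable {S : Set (Subgroup G)} (hS : IsRootSubgroupSet S) {A B C : Subgroup G}
  (hA : A ∈ S) (hB : B ∈ S) (hC : C ∈ S) (hF : ⁅B, A⁆ ∈ S) (hH : ⁅B, C⁆ ∈ S)
  (hAC : ∀ a ∈ A, ∀ c ∈ C, a * c = c * a)
  {b : G} (hb : b ∈ B) (hb1 : b ≠ 1)

include hS hB hC hH in
/-- `B` normalizes `C ⊔ ⁅B, C⁆`. -/
theorem side_norm {g y : G} (hg : g ∈ B) (hy : y ∈ C ⊔ ⁅B, C⁆) : g * y * g⁻¹ ∈ C ⊔ ⁅B, C⁆ := by
  obtain ⟨c, hc, h, hh, rfl⟩ := mem_sup_of_commute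
    (fun _ hc _ hh => (side_cHC hS hB hC hH hh hc).symm) hy
  have h1 : g * c * g⁻¹ ∈ C ⊔ ⁅B, C⁆ := by
    have := side_conj_le hS hB hC hH (B.inv_mem hg) (conj_mem_conjBy (g := g⁻¹⁻¹) hc)
    simpa using this
  have h2 : g * h * g⁻¹ = h := by
    rw [side_cHB hS hB hC hH hh hg |>.symm]
    group
  have e : g * (c * h) * g⁻¹ = (g * c * g⁻¹) * (g * h * g⁻¹) := by group
  rw [e, h2]
  exact Subgroup.mul_mem _ h1 (Subgroup.mem_sup_right hh)

include hS hB hC hH in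
theorem side_sup_eq (hb : b ∈ B) (hb1 : b ≠ 1) : C ⊔ ⁅B, C⁆ = C ⊔ conjBy C b⁻¹ :=
  le_antisymm (sup_le le_sup_left (side_commutator_le hS hB hC hH hb hb1))
    (sup_le le_sup_left (side_conj_le hS hB hC hH hb))

include hAC in
theorem side_conj_comm {x y : G} (hx : x ∈ conjBy A b⁻¹) (hy : y ∈ conjBy C b⁻¹) : x * y = y * x := by
  obtain ⟨a, ha, rfl⟩ := hx
  obtain ⟨c, hc, rfl⟩ := hy
  rw [← map_mul, hAC a ha c hc, map_mul]

include hS hA hB hC hF hH hAC in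
/-- `⁅A, C'⁆` centralizes everything in sight. -/
theorem side_P_central (hb : b ∈ B) (hb1 : b ≠ 1) {p y : G} (hp : p ∈ ⁅A, conjBy C b⁻¹⁆)
    (hy : y ∈ (A ⊔ ⁅B, A⁆) ⊔ (C ⊔ ⁅B, C⁆)) : p * y = y * p := by
  have hle : (A ⊔ ⁅B, A⁆) ⊔ (C ⊔ ⁅B, C⁆) ≤ Subgroup.centralizer ((⁅A, conjBy C b⁻¹⁆ : Subgroup G) : Set G) := by
    rw [side_sup_eq hS hB hA hF hb hb1, side_sup_eq hS hB hC hH hb hb1]
    refine sup_le (sup_le ?_ ?_) (sup_le ?_ ?_)
    · intro a ha
      rw [Subgroup.mem_centralizer_iff]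
      intro q hq
      exact side_P_comm_A hS hA hB hC hH hAC hb hb1 hq ha
    · intro a' ha'
      rw [Subgroup.mem_centralizer_iff]
      intro q hq
      exact (comm_commutator_of_comm (fun x hx => (side_comm_C_conj hS hB hA hF hb hx ha').symm)
        (fun x hx => side_conj_comm hAC ha' hx) hq).symm
    · intro c hc
      rw [Subgroup.mem_centralizer_iff]
      intro q hq
      exact (comm_commutator_of_comm (fun x hx => (hAC x hx c hc).symm)
        (fun x hx => side_comm_C_conj hS hB hC hH hb hc hx) hq).symm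
    · intro c' hc'
      rw [Subgroup.mem_centralizer_iff]
      intro q hq
      exact side_P_comm_C' hS hA hB hC hH hAC hb hb1 hq hc'
  exact Subgroup.mem_centralizer_iff.1 (hle hy) p hp

include hS hB hC hF hH in
theorem side_W_norm {g y : G} (hA : A ∈ S) (hg : g ∈ B) (hy : y ∈ (A ⊔ ⁅B, A⁆) ⊔ (C ⊔ ⁅B, C⁆)) :
    g * y * g⁻¹ ∈ (A ⊔ ⁅B, A⁆) ⊔ (C ⊔ ⁅B, C⁆) := by
  have hle : (A ⊔ ⁅B, A⁆) ⊔ (C ⊔ ⁅B, C⁆) ≤
      ((A ⊔ ⁅B, A⁆) ⊔ (C ⊔ ⁅B, C⁆)).comap (MulAut.conj g).toMonoidHom := by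
    apply sup_le
    · intro z hz
      exact Subgroup.mem_sup_left (side_norm hS hB hA hF hg hz)
    · intro z hz
      exact Subgroup.mem_sup_right (side_norm hS hB hC hH hg hz)
  exact hle hy

include hS hA hB hC hF hH hAC in
theorem side_P1 (hb : b ∈ B) (hb1 : b ≠ 1) :
    (∀ t ∈ ⁅⁅A, conjBy C b⁻¹⁆, B⁆, ∀ y ∈ (A ⊔ ⁅B, A⁆) ⊔ (C ⊔ ⁅B, C⁆), t * y = y * t) ∧
      (∀ t ∈ ⁅⁅A, conjBy C b⁻¹⁆, B⁆, ∀ g ∈ B, t * g = g * t) := by
  refine central_push hS hB ?_ (fun g hg y hy => side_W_norm hS hB hC hF hH hA hg hy) ?_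
    (fun t ht y hy => side_P_central hS hA hB hC hF hH hAC hb hb1 ht hy) hb hb1
  · rcases side_cases hS hA hB hC hH hAC hb hb1 with h | h
    · exact Or.inl h
    · exact Or.inr h.1
  · rw [Subgroup.commutator_le]
    intro a ha c' hc'
    have h1 : a ∈ (A ⊔ ⁅B, A⁆) ⊔ (C ⊔ ⁅B, C⁆) := Subgroup.mem_sup_left (Subgroup.mem_sup_left ha)
    have h2 : c' ∈ (A ⊔ ⁅B, A⁆) ⊔ (C ⊔ ⁅B, C⁆) :=
      Subgroup.mem_sup_right (side_conj_le hS hB hC hH hb hc')
    rw [commutatorElement_def]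
    exact Subgroup.mul_mem _ (Subgroup.mul_mem _ (Subgroup.mul_mem _ h1 h2) (Subgroup.inv_mem _ h1))
      (Subgroup.inv_mem _ h2)

end Side2

end Cfsg.Agent.Lib.RootSubgroups
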