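import Cfsg.Agent.Lib.RootSubgroups.Line
import Cfsg.Agent.S5029

/-!
Non-degenerate classes of abstract root subgroups: every rank one pair is special and every member is a commutator.
-/

set_option autoImplicit false

namespace Cfsg.Agent.Lib.RootSubgroups

open Cfsg

variable {G : Type*} [Group G]

theorem isMulCommutative_sup_of_commute {A C : Subgroup G} (hA : IsMulCommutative A) (hC : IsMulCommutative C)
    (h : ∀ a ∈ A, ∀ c ∈ C, a * c = c * a) : IsMulCommutative ↥(A ⊔ C) := by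
  refine ⟨⟨?_⟩⟩
  rintro ⟨x, hx⟩ ⟨y, hy⟩
  obtain ⟨a, ha, c, hc, rfl⟩ := mem_sup_of_commute h hx
  obtain ⟨a', ha', c', hc', rfl⟩ := mem_sup_of_commute h hy
  apply Subtype.ext
  show a * c * (a' * c') = a' * c' * (a * c)
  calc a * c * (a' * c') = a * (c * a') * c' := by group
    _ = a * (a' * c) * c' := by rw [h a' ha' c hc]
    _ = (a * a') * (c * c') := by group
    _ = (a' * a) * (c' * c) := by
      rw [comm_of_isMulCommutative hA ha ha', comm_of_isMulCommutative hC hc hc']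
    _ = a' * (a * c') * c := by group
    _ = a' * (c' * a) * c := by rw [h a ha c' hc']
    _ = _ := by group

section

variable {S : Set (Subgroup G)}

/-- Non-isolated from having a partner. -/
theorem not_isolated_of_partner {A X : Subgroup G} (hA : A ∈ S) (hX : X ∈ S) (h : IsRankOnePair A X) :
    ¬ IsIsolatedIn (FAdj S) S A := fun hi => (hi.2 X).1 ⟨hA, hX, h⟩

variable (hS : IsRootSubgroupClass S) (hnd : IsNondegenerateRootSet S)
include hS hnd

theorem nondeg_exists_partner {A : Subgroup G} (hA : A ∈ S) : ∃ X ∈ S, IsRankOnePair A X := by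
  obtain ⟨A₀, hA₀, B₀, hB₀, h₀⟩ := hnd.2.1
  obtain ⟨g, rfl⟩ := hS.2.2 A₀ hA₀ A hA
  exact ⟨conjBy B₀ g, hS.1.conj_mem _ hB₀ g, conjBy_pair h₀ g⟩

theorem nondeg_exists_commutator_eq {A : Subgroup G} (hA : A ∈ S) : ∃ E ∈ S, ∃ F ∈ S, ⁅E, F⁆ = A := by
  obtain ⟨A₀, hA₀, B₀, hB₀, h₀⟩ := hnd.2.2
  obtain ⟨g, rfl⟩ := hS.2.2 _ h₀.1 A hA
  exact ⟨conjBy A₀ g, hS.1.conj_mem _ hA₀ g, conjBy B₀ g, hS.1.conj_mem _ hB₀ g,
    (Subgroup.map_commutator _ _ _).symm⟩

/-- The first clause of the theorem: a line partner in the commutator case with a given rank one partner. -/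
theorem nondeg_exists_line_commutator {A B : Subgroup G} (hA : A ∈ S) (hB : B ∈ S) (h : IsRankOnePair A B) :
    ∃ C ∈ linePartners S A, C ∈ commutatorPartners S B := by
  obtain ⟨E, hE, F, hF, rfl⟩ := nondeg_exists_commutator_eq hS hnd hA
  obtain ⟨X, hX, hEX⟩ := nondeg_exists_partner hS hnd hE
  have hc := commutator_case_of_mem hS.1 hE hF hA
  obtain ⟨hset, hpart, hline, -⟩ := Cfsg.Agent.S5029.result hS.1 (not_isolated_of_partner hE hX hEX) hE hF hA
  have hECab : IsMulCommutative ↥(E ⊔ ⁅E, F⁆) :=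
    isMulCommutative_sup_of_commute (hS.1.commutative E hE) (hS.1.commutative _ hA)
      (fun a ha c hc' => (hc.2.1 c hc' a (Subgroup.mem_sup_left ha)).symm)
  obtain ⟨T, hT, hTL, hTne, hBT⟩ := exists_commutator_on_line hS.1 hA hB h hE hline.1.2.1 hpart hECab le_sup_right
    le_sup_left
  have hTmem : T ∈ membersIn S (E ⊔ ⁅E, F⁆) := ⟨hT, hTL⟩
  rw [hset] at hTmem
  rcases hTmem with ⟨f, hf, rfl⟩ | h1
  · refine ⟨_, ?_, hT, hBT⟩
    obtain ⟨Y, hY, hTY⟩ := nondeg_exists_partner hS hnd hT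
    have hcomm : ⁅conjBy E f, F⁆ = ⁅E, F⁆ := by
      have h2 : conjBy F f = F := conjBy_of_mem hf
      have h3 : conjBy ⁅E, F⁆ f = ⁅E, F⁆ := conjBy_eq_self_of_commute (fun c hc' =>
        (hc.2.1 c hc' f (Subgroup.mem_sup_right hf)).symm)
      calc ⁅conjBy E f, F⁆ = ⁅conjBy E f, conjBy F f⁆ := by rw [h2]
        _ = conjBy ⁅E, F⁆ f := (Subgroup.map_commutator _ _ _).symm
        _ = _ := h3
    have hAS' : ⁅conjBy E f, F⁆ ∈ S := by rw [hcomm]; exact hA
    obtain ⟨-, -, hline', -⟩ := Cfsg.Agent.S5029.result hS.1 (not_isolated_of_partner hT hY hTY) hT hF hAS'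
    rwa [hcomm] at hline'
  · exact absurd (Set.mem_singleton_iff.1 h1) hTne

/-- Every rank one pair in a non-degenerate class is special. -/
theorem nondeg_special {A B : Subgroup G} (hA : A ∈ S) (hB : B ∈ S) (h : IsRankOnePair A B) :
    IsSpecialRankOnePair A B := by
  obtain ⟨C, hC, hCB⟩ := nondeg_exists_line_commutator hS hnd hA hB h
  obtain ⟨⟨hCS, hCA, hAC⟩, hpart⟩ := hC
  obtain ⟨X, hX, hCX⟩ := nondeg_exists_partner hS hnd hCS
  have hinf : C ⊓ A = ⊥ := by
    rw [inf_comm]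
    exact (inf_eq_bot_of_partner hS.1 hB h hCS).resolve_right hCA.symm
  refine (special_key hS.1 hA hB h hCS hAC hCB.2 hX hCX ?_).2
  intro c hc hc1 a ha _
  exact mul_mem_rootElements hpart le_sup_right le_sup_left hinf hc hc1 ha

end

end Cfsg.Agent.Lib.RootSubgroups
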