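import Cfsg.Agent.Lib.RootSubgroups.LineGen

/-!
`G`-invariant preorders on a set of abstract root subgroups: if `A ≤ C` commute and `X` is a rank one partner of
both, and `C^u ≤ C` is impossible for `u ∈ X#`, then `C ≤ A`.
-/

set_option autoImplicit false

namespace Cfsg.Agent.Lib.RootSubgroups

open Cfsg

variable {G : Type*} [Group G]

/-- The conjugation argument. -/
theorem rel_symm_core {Rel : Subgroup G → Subgroup G → Prop}
    (hconj : ∀ {P Q : Subgroup G} (g : G), Rel P Q → Rel (conjBy P g) (conjBy Q g))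
    (htrans : ∀ {P Q R : Subgroup G}, Rel P Q → Rel Q R → Rel P R)
    {A C X : Subgroup G} (hAC : ∀ a ∈ A, ∀ c ∈ C, a * c = c * a)
    (hAX : IsRankOnePair A X) (hCX : IsRankOnePair C X)
    (hirr : ∀ u ∈ X, u ≠ 1 → ¬ Rel (conjBy C u) C) (h : Rel A C) : Rel C A := by
  obtain ⟨x, hx, hx1⟩ := exists_ne_one_right hAX
  obtain ⟨a, ha, ha1, ea⟩ := hAX.cond_right x hx hx1
  obtain ⟨c, hc, hc1, ec⟩ := hCX.cond_right x hx hx1
  have R1 := hconj x⁻¹ h
  rw [← ea, ← ec] at R1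
  have R2 := hconj c R1
  rw [conjBy_conjBy_inv, ← conjBy_mul] at R2
  obtain ⟨x₂, hx₂, hx₂1, e₂⟩ := hAX.cond_left a⁻¹ (A.inv_mem ha) (inv_ne_one.mpr ha1)
  rw [inv_inv] at e₂
  have R3 := hconj a R2
  rw [← conjBy_mul, ← e₂] at R3
  have e3 : a * (c * a⁻¹) = c := by
    rw [← mul_assoc, hAC a ha c hc]
    group
  rw [e3] at R3
  have R4 := hconj x₂ R3
  rw [conjBy_conjBy_inv] at R4
  obtain ⟨x₄, hx₄, hx₄1, e₄⟩ := hCX.cond_left c⁻¹ (C.inv_mem hc) (inv_ne_one.mpr hc1)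
  rw [inv_inv] at e₄
  rw [← e₄, ← conjBy_mul] at R4
  by_cases hu : x₂ * x₄⁻¹ = 1
  · rw [hu] at R4
    simpa using R4
  · exact absurd (htrans R4 h) (hirr _ (X.mul_mem hx₂ (X.inv_mem hx₄)) hu)

variable {S : Set (Subgroup G)}

theorem mem_centralizingMembers_iff {E U : Subgroup G} :
    E ∈ centralizingMembers S U ↔ E ∈ S ∧ ∀ e ∈ E, ∀ u ∈ U, u * e = e * u := by
  constructor
  · rintro ⟨h1, h2⟩
    exact ⟨h1, fun e he u hu => Subgroup.mem_centralizer_iff.1 (h2 he) u hu⟩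
  · rintro ⟨h1, h2⟩
    exact ⟨h1, fun e he => Subgroup.mem_centralizer_iff.2 (fun u hu => h2 e he u hu)⟩

theorem centralizingMembers_conj (hS : IsRootSubgroupSet S) {E U : Subgroup G} (h : E ∈ centralizingMembers S U) (g : G) :
    conjBy E g ∈ centralizingMembers S (conjBy U g) := by
  rw [mem_centralizingMembers_iff] at h ⊢
  refine ⟨hS.conj_mem E h.1 g, ?_⟩
  rintro _ ⟨e, he, rfl⟩ _ ⟨u, hu, rfl⟩
  rw [← map_mul, ← map_mul, h.2 e he u hu]

theorem rel_centralizing_conj (hS : IsRootSubgroupSet S) {P Q : Subgroup G} (g : G)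
    (h : centralizingMembers S P ⊆ centralizingMembers S Q) :
    centralizingMembers S (conjBy P g) ⊆ centralizingMembers S (conjBy Q g) := by
  intro E hE
  have h1 := centralizingMembers_conj hS hE g⁻¹
  rw [conjBy_inv_conjBy] at h1
  have h2 := centralizingMembers_conj hS (h h1) g
  rwa [conjBy_conjBy_inv] at h2

theorem rel_rankOne_conj (hS : IsRootSubgroupSet S) {P Q : Subgroup G} (g : G)
    (h : rankOnePartners S P ⊆ rankOnePartners S Q) :
    rankOnePartners S (conjBy P g) ⊆ rankOnePartners S (conjBy Q g) := by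
  rintro E ⟨hE, hr⟩
  have h1 : conjBy E g⁻¹ ∈ rankOnePartners S P := by
    refine ⟨hS.conj_mem E hE g⁻¹, ?_⟩
    have := conjBy_pair hr g⁻¹
    rwa [conjBy_inv_conjBy] at this
  obtain ⟨h2, h3⟩ := h h1
  refine ⟨hE, ?_⟩
  have := conjBy_pair h3 g
  rwa [conjBy_conjBy_inv] at this

/-- The kernel argument: `C` commuting with `A`, `(C, X)` a rank one pair and `⁅A, X⁆ ∈ S` commuting with `C` is
impossible. -/
theorem kernel_arg {A C X : Subgroup G} (hS : IsRootSubgroupSet S) (hCX : IsRankOnePair C X)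
    (hAC : ∀ a ∈ A, ∀ c ∈ C, a * c = c * a) (hc : RootCommutatorCase S A X)
    (hPC : ∀ p ∈ ⁅A, X⁆, ∀ c ∈ C, p * c = c * p) : False := by
  set P := ⁅A, X⁆ with hP
  have hPA : ∀ p ∈ P, ∀ a ∈ A, p * a = a * p := fun p hp a ha => hc.2.1 p hp a (Subgroup.mem_sup_left ha)
  have hPX : ∀ p ∈ P, ∀ x ∈ X, p * x = x * p := fun p hp x hx => hc.2.1 p hp x (Subgroup.mem_sup_right hx)
  have hcomm : ∀ a ∈ A, ∀ p ∈ P, a * p = p * a := fun a ha p hp => (hPA p hp a ha).symm
  have hCcent : ∀ c ∈ C, ∀ m ∈ A ⊔ P, c * m = m * c := by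
    intro c hc' m hm
    obtain ⟨a, ha, p, hp, rfl⟩ := mem_sup_of_commute hcomm hm
    have h1 := hAC a ha c hc'
    have h2 := hPC p hp c hc'
    calc c * (a * p) = (c * a) * p := by group
      _ = (a * c) * p := by rw [h1]
      _ = a * (c * p) := by group
      _ = a * (p * c) := by rw [h2]
      _ = _ := by group
  have hN1 : C ≤ Subgroup.normalizer ((A ⊔ P : Subgroup G) : Set G) := by
    apply le_normalizer_of_conj
    intro g hg y hy
    rw [hCcent g hg y hy]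
    simpa using hy
  have hN2 : X ≤ Subgroup.normalizer ((A ⊔ P : Subgroup G) : Set G) := by
    apply le_normalizer_of_conj
    intro g hg y hy
    obtain ⟨a, ha, p, hp, rfl⟩ := mem_sup_of_commute hcomm hy
    have h1 : g * a * g⁻¹ * a⁻¹ ∈ P := by
      rw [hP, Subgroup.commutator_comm]
      exact Subgroup.commutator_mem_commutator hg ha
    have h3 : g * p * g⁻¹ = p := by
      rw [← hPX p hp g hg]
      group
    have e : g * (a * p) * g⁻¹ = (g * a * g⁻¹ * a⁻¹) * a * (g * p * g⁻¹) := by group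
    rw [e, h3]
    exact Subgroup.mul_mem _ (Subgroup.mul_mem _ (Subgroup.mem_sup_right h1) (Subgroup.mem_sup_left ha))
      (Subgroup.mem_sup_right hp)
  have hN : C ⊔ X ≤ Subgroup.normalizer ((A ⊔ P : Subgroup G) : Set G) := sup_le hN1 hN2
  obtain ⟨r, hr, hXr⟩ := right_mem_unipotent hCX
  apply hS.ne_bot _ hc.1
  apply commutator_eq_bot_of_commute
  intro a ha x hx
  have hx' : x ∈ conjBy C r := by rw [← hXr]; exact hx
  have hc0 : r⁻¹ * x * r ∈ C := mem_conjBy.1 hx'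
  have hm : r⁻¹ * a * r ∈ A ⊔ P := by
    have h1 := (Subgroup.mem_normalizer_iff.1 (Subgroup.inv_mem _ (hN hr)) a).1 (Subgroup.mem_sup_left ha)
    simpa using h1
  have h2 := hCcent _ hc0 _ hm
  have h3 : r * ((r⁻¹ * x * r) * (r⁻¹ * a * r)) * r⁻¹ = r * ((r⁻¹ * a * r) * (r⁻¹ * x * r)) * r⁻¹ := by
    rw [h2]
  have h4 : r * ((r⁻¹ * x * r) * (r⁻¹ * a * r)) * r⁻¹ = x * a := by group
  have h5 : r * ((r⁻¹ * a * r) * (r⁻¹ * x * r)) * r⁻¹ = a * x := by group
  rw [h4, h5] at h3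
  exact h3.symm

theorem not_commute_conj_of_rank {C X : Subgroup G} (hCX : IsRankOnePair C X) {u : G} (hu : u ∈ X) (hu1 : u ≠ 1) :
    IsRankOnePair C (conjBy C u) := by
  have hne : conjBy C u ≠ C := conjBy_ne_of_mem_left (RankOnePair_symm hCX) hu hu1
  exact pair_of_mem_unipotent hCX left_mem_unipotent
    (conjBy_mem_unipotent hCX left_mem_unipotent (Subgroup.mem_sup_right hu)) hne.symm

end Cfsg.Agent.Lib.RootSubgroups
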