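import Cfsg.Agent.Lib.RootSubgroups.Abstract
import Cfsg.Prelude.Def_Transfer

/-!
Rank one groups acting quadratically on an abelian group.
-/

set_option autoImplicit false

namespace Cfsg.Agent.Lib.RootSubgroups.Quad

open Cfsg

variable {X : Type*} [Group X] {N : Type*} [AddCommGroup N] [DistribMulAction X N]

/-- the subgroup `A` acts quadratically on `N` -/
def IsQuad (N : Type*) [AddCommGroup N] [DistribMulAction X N] (A : Subgroup X) : Prop :=
  ∀ a ∈ A, ∀ a' ∈ A, ∀ n : N, a' • (a • n - n) = a • n - n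

theorem IsQuad.conjBy {A : Subgroup X} (h : IsQuad N A) (x : X) : IsQuad N (conjBy A x) := by
  intro b hb b' hb' n
  have hb2 := mem_conjBy.mp hb
  have hb3 := mem_conjBy.mp hb'
  have e := h _ hb2 _ hb3 (x⁻¹ • n)
  have e1 : x • ((x⁻¹ * b' * x) • ((x⁻¹ * b * x) • x⁻¹ • n - x⁻¹ • n)) =
      b' • (b • n - n) := by
    simp only [mul_smul, smul_sub, smul_inv_smul]
  have e2 : x • ((x⁻¹ * b * x) • x⁻¹ • n - x⁻¹ • n) = b • n - n := by
    simp only [mul_smul, smul_sub, smul_inv_smul]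
  rw [← e1, e, e2]

/-- elements fixed by the subgroup `S` -/
def fixedAdd (N : Type*) [AddCommGroup N] [DistribMulAction X N] (S : Subgroup X) : AddSubgroup N where
  carrier := {n | ∀ s ∈ S, s • n = n}
  add_mem' := by
    intro a b ha hb s hs
    rw [smul_add, ha s hs, hb s hs]
  zero_mem' := by
    intro s _
    exact smul_zero s
  neg_mem' := by
    intro a ha s hs
    rw [smul_neg, ha s hs]

theorem mem_fixedAdd {S : Subgroup X} {n : N} : n ∈ fixedAdd N S ↔ ∀ s ∈ S, s • n = n := Iff.rfl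

theorem T_mem_fixed {A : Subgroup X} (hq : IsQuad N A) {a : X} (ha : a ∈ A) (n : N) :
    a • n - n ∈ fixedAdd N A := fun s hs => hq a ha s hs n

theorem inv_smul_eq {A : Subgroup X} (hq : IsQuad N A) {a : X} (ha : a ∈ A) (n : N) :
    a⁻¹ • n = n - (a • n - n) := by
  have h1 : a⁻¹ • (a • n - n) = a • n - n := hq a ha _ (A.inv_mem ha) n
  rw [smul_sub, inv_smul_smul] at h1
  rw [← h1]
  abel

theorem pow_smul_quad {A : Subgroup X} (hq : IsQuad N A) {a : X} (ha : a ∈ A) (k : ℕ) (n : N) :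
    a ^ k • n = n + k • (a • n - n) := by
  induction k with
  | zero => simp
  | succ k ih =>
    rw [pow_succ', mul_smul, ih, smul_add, smul_comm a k, hq a ha a ha n, succ_nsmul]
    abel

theorem pair_exists {A B : Subgroup X} {a₀ b₀ a₁ : X} (e : conjBy A b₀⁻¹ = conjBy B a₀⁻¹) (ha₁ : a₁ ∈ A) :
    ∃ b₁ ∈ B, b₀⁻¹ * a₁ * b₀ = a₀⁻¹ * b₁ * a₀ := by
  have h1 : b₀⁻¹ * a₁ * b₀ ∈ conjBy A b₀⁻¹ := by
    rw [mem_conjBy]
    simpa [mul_assoc] using ha₁
  rw [e, mem_conjBy] at h1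
  refine ⟨_, h1, ?_⟩
  simp only [inv_inv]
  group

/-- `u` fixed by `B` with `(a₀ - 1) u` fixed by everything is fixed by `A`. -/
theorem fixed_of_T_fixed {A B : Subgroup X} {a₀ b₀ : X} (hqA : IsQuad N A) (ha₀ : a₀ ∈ A)
    (hb₀ : b₀ ∈ B) (e : conjBy A b₀⁻¹ = conjBy B a₀⁻¹) {u : N} (hu : u ∈ fixedAdd N B)
    (hzA : a₀ • u - u ∈ fixedAdd N A) (hzB : a₀ • u - u ∈ fixedAdd N B) : u ∈ fixedAdd N A := by
  intro a₁ ha₁
  obtain ⟨b₁, hb₁, eq⟩ := pair_exists e ha₁
  have h0 := congrArg (fun g : X => g • u) eq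
  simp only [mul_smul] at h0
  rw [hu b₀ hb₀] at h0
  have h1 : a₀ • u = u + (a₀ • u - u) := by abel
  have h2 : b₁ • a₀ • u = a₀ • u := by
    rw [h1, smul_add, hu b₁ hb₁, hzB b₁ hb₁]
  rw [h2, inv_smul_smul] at h0
  have h3 := congrArg (fun y => b₀ • y) h0
  simp only [smul_inv_smul] at h3
  rw [h3]
  exact hu b₀ hb₀

/-- the main computation: for `v` fixed by `A`, `(b₁ b₀ - 1) v` is fixed by everything, if
`b₀⁻¹ a₀ b₀ = a₀⁻¹ b₁ a₀`. -/
theorem key_mem {A B : Subgroup X} {a₀ b₀ b₁ : X} (hqA : IsQuad N A) (hqB : IsQuad N B) (ha₀ : a₀ ∈ A)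
    (hb₀ : b₀ ∈ B) (hb₁ : b₁ ∈ B) (e : conjBy A b₀⁻¹ = conjBy B a₀⁻¹)
    (eq : b₀⁻¹ * a₀ * b₀ = a₀⁻¹ * b₁ * a₀) {v : N} (hv : v ∈ fixedAdd N A) :
    (b₁ * b₀) • v - v ∈ fixedAdd N A ⊓ fixedAdd N B := by
  set r := b₀ • v - v with hr
  set q := b₁ • v - v with hq
  have hrB : r ∈ fixedAdd N B := T_mem_fixed hqB hb₀ v
  have hqB' : q ∈ fixedAdd N B := T_mem_fixed hqB hb₁ v
  have hu : (b₁ * b₀) • v - v = r + q := by
    rw [mul_smul]
    have : b₀ • v = v + r := by rw [hr]; abel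
    rw [this, smul_add, hrB b₁ hb₁, hq]
    abel
  have huB : r + q ∈ fixedAdd N B := (fixedAdd N B).add_mem hrB hqB'
  -- the identity
  have h0 := congrArg (fun g : X => g • v) eq
  simp only [mul_smul] at h0
  have h1 : b₀ • v = v + r := by rw [hr]; abel
  have h2 : b₁ • v = v + q := by rw [hq]; abel
  have hTr : a₀ • r - r ∈ fixedAdd N A := T_mem_fixed hqA ha₀ r
  have hTq : a₀ • q - q ∈ fixedAdd N A := T_mem_fixed hqA ha₀ q
  have hβ : b₀ • (a₀ • r - r) - (a₀ • r - r) ∈ fixedAdd N B := T_mem_fixed hqB hb₀ _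
  have hL : b₀⁻¹ • a₀ • b₀ • v = v + ((a₀ • r - r) - (b₀ • (a₀ • r - r) - (a₀ • r - r))) := by
    have h3 : a₀ • r = r + (a₀ • r - r) := by abel
    have h4 : a₀ • b₀ • v = v + r + (a₀ • r - r) := by
      rw [h1, smul_add, hv a₀ ha₀, h3, add_assoc]
      abel_nf
    rw [h4, smul_add, smul_add, inv_smul_eq hqB hb₀ v, ← hr, hrB _ (B.inv_mem hb₀),
      inv_smul_eq hqB hb₀ (a₀ • r - r)]
    abel
  have hR : a₀⁻¹ • b₁ • a₀ • v = v + (q - (a₀ • q - q)) := by
    rw [hv a₀ ha₀, h2, smul_add, hv _ (A.inv_mem ha₀), inv_smul_eq hqA ha₀ q]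
  rw [hL, hR] at h0
  have hz : (a₀ • r - r) + (a₀ • q - q) = q + (b₀ • (a₀ • r - r) - (a₀ • r - r)) := by
    have h7 := add_left_cancel h0
    rw [sub_eq_iff_eq_add] at h7
    have h8 : ∀ x t w : N, x = q - t + w → x + t = q + w := by
      intro x t w h; rw [h]; abel
    exact h8 _ _ _ h7
  have hzA : a₀ • (r + q) - (r + q) ∈ fixedAdd N A := T_mem_fixed hqA ha₀ _
  have hzeq : a₀ • (r + q) - (r + q) = (a₀ • r - r) + (a₀ • q - q) := by
    rw [smul_add]; abel
  have hzB : a₀ • (r + q) - (r + q) ∈ fixedAdd N B := by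
    rw [hzeq, hz]
    exact (fixedAdd N B).add_mem hqB' hβ
  rw [hu]
  exact ⟨fixed_of_T_fixed hqA ha₀ hb₀ e huB hzA hzB, huB⟩

theorem mem_closure_union_of_mem_sup {A B : Subgroup X} {x : X} (hx : x ∈ A ⊔ B) :
    x ∈ Subgroup.closure ((A : Set X) ∪ B) := by
  rw [Subgroup.closure_union, Subgroup.closure_eq, Subgroup.closure_eq]
  exact hx

/-- fixed by `A` and `B` means fixed by everything -/
theorem fixed_top {A B : Subgroup X} (hgen : A ⊔ B = ⊤) {v : N}
    (h : v ∈ fixedAdd N A ⊓ fixedAdd N B) (x : X) : x • v = v := by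
  have hx : x ∈ A ⊔ B := by rw [hgen]; trivial
  have hx' := mem_closure_union_of_mem_sup hx
  clear hx
  induction hx' using Subgroup.closure_induction with
  | mem x hx =>
    rcases hx with hx | hx
    · exact h.1 x hx
    · exact h.2 x hx
  | one => simp
  | mul x y _ _ hx hy =>
    rw [mul_smul, hy, hx]
  | inv x _ hx =>
    rw [inv_smul_eq_iff, hx]

/-- a subgroup-stabilized additive subgroup -/
theorem stable_of_gens {A B : Subgroup X} (hgen : A ⊔ B = ⊤) {U : AddSubgroup N}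
    (hA : ∀ a ∈ A, ∀ u ∈ U, a • u ∈ U) (hB : ∀ b ∈ B, ∀ u ∈ U, b • u ∈ U) (x : X) :
    ∀ u ∈ U, x • u ∈ U := by
  have hx : x ∈ A ⊔ B := by rw [hgen]; trivial
  have hx' := mem_closure_union_of_mem_sup hx
  have key : (∀ u ∈ U, x • u ∈ U) ∧ (∀ u ∈ U, x⁻¹ • u ∈ U) := by
    clear hx
    induction hx' using Subgroup.closure_induction with
    | mem x hx =>
      rcases hx with hx | hx
      · exact ⟨hA x hx, hA _ (A.inv_mem hx)⟩
      · exact ⟨hB x hx, hB _ (B.inv_mem hx)⟩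
    | one => simp
    | mul x y _ _ hx hy =>
      refine ⟨fun u hu => ?_, fun u hu => ?_⟩
      · rw [mul_smul]; exact hx.1 _ (hy.1 _ hu)
      · rw [mul_inv_rev, mul_smul]; exact hy.2 _ (hx.2 _ hu)
    | inv x _ hx =>
      rw [inv_inv]
      exact ⟨hx.2, hx.1⟩
  exact key.1

/-- the kernel of the action on `U / C` -/
def kerOn {U C : AddSubgroup N} (hU : ∀ (x : X), ∀ u ∈ U, x • u ∈ U) (hC : ∀ (x : X), ∀ c ∈ C, x • c = c) :
    Subgroup X where
  carrier := {x | ∀ u ∈ U, x • u - u ∈ C}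
  one_mem' := by
    intro u _
    simp [C.zero_mem]
  mul_mem' := by
    intro x y hx hy u hu
    have h1 := hy u hu
    have h2 := hx u hu
    have e : (x * y) • u - u = (y • u - u) + (x • u - u) := by
      have e2 : y • u = u + (y • u - u) := by abel
      rw [mul_smul]
      nth_rewrite 1 [e2]
      rw [smul_add, hC x _ h1]
      abel
    rw [e]
    exact C.add_mem h1 h2
  inv_mem' := by
    intro x hx u hu
    have h1 := hx _ (hU x⁻¹ u hu)
    rw [smul_inv_smul] at h1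
    have e : x⁻¹ • u - u = -(u - x⁻¹ • u) := by abel
    rw [e]
    exact C.neg_mem h1

theorem mem_kerOn {U C : AddSubgroup N} {hU : ∀ (x : X), ∀ u ∈ U, x • u ∈ U}
    {hC : ∀ (x : X), ∀ c ∈ C, x • c = c} {x : X} : x ∈ kerOn hU hC ↔ ∀ u ∈ U, x • u - u ∈ C := Iff.rfl

instance kerOn_normal {U C : AddSubgroup N} (hU : ∀ (x : X), ∀ u ∈ U, x • u ∈ U)
    (hC : ∀ (x : X), ∀ c ∈ C, x • c = c) : (kerOn hU hC).Normal := by
  refine ⟨?_⟩
  intro x hx g u hu
  have h1 := hx _ (hU g⁻¹ u hu)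
  have e : (g * x * g⁻¹) • u - u = g • (x • (g⁻¹ • u) - g⁻¹ • u) := by
    simp only [mul_smul, smul_sub, smul_inv_smul]
  rw [e, hC g _ h1]
  exact h1

/-- `(x - 1) n` lies in `C(A) + C(B)`. -/
theorem T_mem_sup {A B : Subgroup X} (hgen : A ⊔ B = ⊤) (hqA : IsQuad N A) (hqB : IsQuad N B)
    (hU : ∀ (x : X), ∀ u ∈ fixedAdd N A ⊔ fixedAdd N B, x • u ∈ fixedAdd N A ⊔ fixedAdd N B)
    (x : X) (n : N) : x • n - n ∈ fixedAdd N A ⊔ fixedAdd N B := by
  have hx : x ∈ A ⊔ B := by rw [hgen]; trivial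
  have hx' := mem_closure_union_of_mem_sup hx
  clear hx
  induction hx' using Subgroup.closure_induction with
  | mem x hx =>
    rcases hx with hx | hx
    · exact AddSubgroup.mem_sup_left (T_mem_fixed hqA hx n)
    · exact AddSubgroup.mem_sup_right (T_mem_fixed hqB hx n)
  | one => simp [AddSubgroup.zero_mem]
  | mul x y _ _ hx hy =>
    have e : (x * y) • n - n = x • (y • n - n) + (x • n - n) := by
      rw [mul_smul, smul_sub]; abel
    rw [e]
    exact AddSubgroup.add_mem _ (hU x _ hy) hx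
  | inv x _ hx =>
    have e : x⁻¹ • n - n = -(x⁻¹ • (x • n - n)) := by
      rw [smul_sub, inv_smul_smul]; abel
    rw [e]
    exact AddSubgroup.neg_mem _ (hU _ _ hx)

/-- The stability of `C(A) + C(B)`. -/
theorem stable_sup {A B : Subgroup X} (hgen : A ⊔ B = ⊤) (hqA : IsQuad N A) (hqB : IsQuad N B) (x : X) :
    ∀ u ∈ fixedAdd N A ⊔ fixedAdd N B, x • u ∈ fixedAdd N A ⊔ fixedAdd N B := by
  refine stable_of_gens hgen ?_ ?_ x
  · intro a ha u hu
    rw [AddSubgroup.mem_sup] at hu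
    obtain ⟨p, hp, q, hq, rfl⟩ := hu
    rw [smul_add, hp a ha]
    have e : p + a • q = (p + (a • q - q)) + q := by abel
    rw [e]
    exact AddSubgroup.add_mem _ (AddSubgroup.mem_sup_left
      (AddSubgroup.add_mem _ hp (T_mem_fixed hqA ha q))) (AddSubgroup.mem_sup_right hq)
  · intro b hb u hu
    rw [AddSubgroup.mem_sup] at hu
    obtain ⟨p, hp, q, hq, rfl⟩ := hu
    rw [smul_add, hq b hb]
    have e : b • p + q = p + ((b • p - p) + q) := by abel
    rw [e]
    exact AddSubgroup.add_mem _ (AddSubgroup.mem_sup_left hp) (AddSubgroup.mem_sup_right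
      (AddSubgroup.add_mem _ (T_mem_fixed hqB hb p) hq))

/-- Quadratic module of a rank one group with non-trivial `[N, X, X]` forces the group to be special. -/
theorem special_of_quadratic {A B : Subgroup X} (hgen : A ⊔ B = ⊤) (h : IsRankOnePair A B)
    (hqA : IsQuad N A) (hX : ∃ x y : X, ∃ n : N, y • (x • n - n) ≠ x • n - n) :
    IsSpecialRankOnePair A B := by
  refine ⟨h, ?_⟩
  intro a₀ ha₀ ha₀1 b₀ hb₀ hb₀1 e
  -- B acts quadratically
  have hqB : IsQuad N B := by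
    obtain ⟨x, -, hx⟩ := right_mem_unipotent h
    rw [hx]
    exact hqA.conjBy x
  obtain ⟨b₁, hb₁, eq⟩ := pair_exists e ha₀
  set C : AddSubgroup N := fixedAdd N A ⊓ fixedAdd N B with hC
  set U : AddSubgroup N := fixedAdd N A ⊔ fixedAdd N B with hUdef
  have hU : ∀ (x : X), ∀ u ∈ U, x • u ∈ U := stable_sup hgen hqA hqB
  have hCfix : ∀ (x : X), ∀ c ∈ C, x • c = c := fun x c hc => fixed_top hgen hc x
  set K := kerOn hU hCfix with hK
  have hKn : K.Normal := kerOn_normal hU hCfix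
  -- δ lies in K
  have hδK : b₁ * b₀ ∈ K := by
    intro u hu
    rw [hUdef, AddSubgroup.mem_sup] at hu
    obtain ⟨p, hp, q, hq, rfl⟩ := hu
    have e1 : (b₁ * b₀) • (p + q) - (p + q) = ((b₁ * b₀) • p - p) + ((b₁ * b₀) • q - q) := by
      rw [smul_add]; abel
    rw [e1, hq _ (B.mul_mem hb₁ hb₀), sub_self, add_zero]
    exact key_mem hqA hqB ha₀ hb₀ hb₁ e eq hp
  by_contra hne
  have hδ1 : b₁ * b₀ ≠ 1 := by
    intro h1
    apply hne
    have : b₁ = b₀⁻¹ := eq_inv_of_mul_eq_one_left h1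
    rw [eq, this]
  have hgen' : B ⊔ A = ⊤ := by rw [sup_comm]; exact hgen
  have hs := RankOnePair_symm h
  have hδnc : ¬ K ≤ Subgroup.center X := by
    intro hle
    have := hle hδK
    exact conjBy_ne_of_mem_right h (B.mul_mem hb₁ hb₀) hδ1 (conjBy_of_mem_center this A)
  have hKA : K ⊔ A = ⊤ := (normal_dichotomy hgen h K hKn).resolve_right hδnc
  have hKB : K ⊔ B = ⊤ := (normal_dichotomy hgen' hs K hKn).resolve_right hδnc
  -- every (x - 1) u lies in C for u ∈ U
  have hT : ∀ (x : X), ∀ u ∈ U, x • u - u ∈ C := by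
    intro x u hu
    refine ⟨?_, ?_⟩
    · have hx : x ∈ K ⊔ A := by rw [hKA]; trivial
      rw [Subgroup.mem_sup_of_normal_left] at hx
      obtain ⟨k, hk, a, ha, rfl⟩ := hx
      have e1 : (k * a) • u - u = (k • (a • u) - a • u) + (a • u - u) := by
        rw [mul_smul]; abel
      rw [e1]
      refine (fixedAdd N A).add_mem ((hk _ (hU a u hu)).1) ?_
      rw [hUdef, AddSubgroup.mem_sup] at hu
      obtain ⟨p, hp, q, hq, rfl⟩ := hu
      have e2 : a • (p + q) - (p + q) = a • q - q := by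
        rw [smul_add, hp a ha]; abel
      rw [e2]
      exact T_mem_fixed hqA ha q
    · have hx : x ∈ K ⊔ B := by rw [hKB]; trivial
      rw [Subgroup.mem_sup_of_normal_left] at hx
      obtain ⟨k, hk, b, hb, rfl⟩ := hx
      have e1 : (k * b) • u - u = (k • (b • u) - b • u) + (b • u - u) := by
        rw [mul_smul]; abel
      rw [e1]
      refine (fixedAdd N B).add_mem ((hk _ (hU b u hu)).2) ?_
      rw [hUdef, AddSubgroup.mem_sup] at hu
      obtain ⟨p, hp, q, hq, rfl⟩ := hu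
      have e2 : b • (p + q) - (p + q) = b • p - p := by
        rw [smul_add, hq b hb]; abel
      rw [e2]
      exact T_mem_fixed hqB hb p
  have hUC : ∀ u ∈ U, u ∈ C := by
    intro u hu
    have hu' := hu
    rw [hUdef, AddSubgroup.mem_sup] at hu'
    obtain ⟨p, hp, q, hq, rfl⟩ := hu'
    have hpU : p ∈ U := AddSubgroup.mem_sup_left hp
    have hqU : q ∈ U := AddSubgroup.mem_sup_right hq
    have hp2 : p ∈ fixedAdd N B :=
      fixed_of_T_fixed hqB hb₀ ha₀ e.symm hp (hT b₀ p hpU).2 (hT b₀ p hpU).1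
    have hq2 : q ∈ fixedAdd N A :=
      fixed_of_T_fixed hqA ha₀ hb₀ e hq (hT a₀ q hqU).1 (hT a₀ q hqU).2
    exact C.add_mem ⟨hp, hp2⟩ ⟨hq2, hq⟩
  obtain ⟨x, y, n, hne'⟩ := hX
  exact hne' (hCfix y _ (hUC _ (T_mem_sup hgen hqA hqB hU x n)))

/-- The faithful quadratic case: the unipotent subgroup is torsion-free or elementary abelian. -/
theorem torsionFree_or_elementary {A B : Subgroup X} (hgen : A ⊔ B = ⊤) (h : IsRankOnePair A B)
    (hqA : IsQuad N A) (hf : ∀ x : X, (∀ v : N, x • v = v) → x = 1) :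
    (∀ a ∈ A, a ≠ 1 → ¬ IsOfFinOrder a) ∨ ∃ p : ℕ, p.Prime ∧ IsElementaryAbelian p A := by
  have hqB : IsQuad N B := by
    obtain ⟨x, -, hx⟩ := right_mem_unipotent h
    rw [hx]
    exact hqA.conjBy x
  by_cases htf : ∀ a ∈ A, a ≠ 1 → ¬ IsOfFinOrder a
  · exact Or.inl htf
  right
  push Not at htf
  obtain ⟨a', ha', ha'1, hfin⟩ := htf
  -- A commutes
  have hfaith : ∀ x y : X, (∀ v : N, x • v = y • v) → x = y := by
    intro x y hxy
    have : x⁻¹ * y = 1 := hf _ (fun v => by rw [mul_smul, ← hxy, inv_smul_smul])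
    exact inv_mul_eq_one.mp this
  have hcomm_of : ∀ x y : X, (∀ n : N, x • (y • n - n) = y • n - n) → (∀ n : N, y • (x • n - n) = x • n - n) →
      x * y = y * x := by
    intro x y h1 h2
    apply hfaith
    intro v
    have f1 : x • y • v = v + (x • v - v) + (y • v - v) := by
      have e1 : y • v = v + (y • v - v) := by abel
      rw [e1, smul_add, add_sub_cancel_left, h1]
      abel
    have f2 : y • x • v = v + (x • v - v) + (y • v - v) := by
      have e2 : x • v = v + (x • v - v) := by abel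
      rw [e2, smul_add, add_sub_cancel_left, h2]
      abel
    rw [mul_smul, mul_smul, f1, f2]
  have hAcomm : IsMulCommutative ↥A := by
    refine ⟨⟨?_⟩⟩
    rintro ⟨x, hx⟩ ⟨y, hy⟩
    apply Subtype.ext
    exact hcomm_of x y (fun n => hqA y hy x hx n) (fun n => hqA x hx y hy n)
  -- an element of prime order
  have hord : orderOf a' ≠ 1 := by
    rw [Ne, orderOf_eq_one_iff]; exact ha'1
  obtain ⟨p, hp, hpd⟩ := Nat.exists_prime_and_dvd hord
  refine ⟨p, hp, hAcomm, ?_⟩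
  obtain ⟨m, hm⟩ := hpd
  have hord0 : 0 < orderOf a' := hfin.orderOf_pos
  set a₀ := a' ^ m with ha₀def
  have ha₀ : a₀ ∈ A := A.pow_mem ha' m
  have ha₀p : a₀ ^ p = 1 := by
    rw [ha₀def, ← pow_mul, mul_comm, ← hm, pow_orderOf_eq_one]
  have ha₀1 : a₀ ≠ 1 := by
    rw [ha₀def]
    intro h1
    have := orderOf_dvd_of_pow_eq_one h1
    rw [hm] at this
    have hm0 : 0 < m := Nat.pos_of_ne_zero (fun h0 => by rw [h0, mul_zero] at hm; omega)
    have := Nat.le_of_dvd hm0 this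
    have h2 := hp.two_le
    nlinarith
  obtain ⟨b₀, hb₀, hb₀1, e⟩ := h.cond_left a₀ ha₀ ha₀1
  intro c hc
  by_contra hcp
  have hgen' : B ⊔ A = ⊤ := by rw [sup_comm]; exact hgen
  have hs := RankOnePair_symm h
  obtain ⟨b₁, hb₁, eq⟩ := pair_exists e hc
  have eqp : b₀⁻¹ * c ^ p * b₀ = a₀⁻¹ * b₁ ^ p * a₀ := by
    have h1 : (b₀⁻¹ * c * b₀) ^ p = b₀⁻¹ * c ^ p * b₀ := by
      have := conj_pow (a := b₀⁻¹) (b := c) (i := p)
      simpa using this
    have h2 : (a₀⁻¹ * b₁ * a₀) ^ p = a₀⁻¹ * b₁ ^ p * a₀ := by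
      have := conj_pow (a := a₀⁻¹) (b := b₁) (i := p)
      simpa using this
    rw [← h1, ← h2, eq]
  set C : AddSubgroup N := fixedAdd N A ⊓ fixedAdd N B with hC
  have hCfix : ∀ (x : X), ∀ c ∈ C, x • c = c := fun x c hc => fixed_top hgen hc x
  have hU : ∀ (x : X), ∀ u ∈ (⊤ : AddSubgroup N), x • u ∈ (⊤ : AddSubgroup N) := fun _ _ _ => trivial
  set K := kerOn hU hCfix with hK
  have hKn : K.Normal := kerOn_normal hU hCfix
  -- p kills the commutator with a₀
  have hpa : ∀ w : N, a₀ • (p • (b₁ • w - w)) = p • (b₁ • w - w) := by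
    intro w
    have h1 := pow_smul_quad hqA ha₀ p (b₁ • w - w)
    rw [ha₀p, one_smul] at h1
    have h2 : p • (a₀ • (b₁ • w - w) - (b₁ • w - w)) = 0 := by
      have h3 := add_eq_left.mp h1.symm
      exact h3
    rw [smul_comm, ← sub_eq_zero, ← smul_sub]
    exact h2
  have hcK : c ^ p ∈ K := by
    intro m _
    have hT1 : (b₁ ^ p) • (a₀ • b₀⁻¹ • m) - a₀ • b₀⁻¹ • m = p • (b₁ • (a₀ • b₀⁻¹ • m) - a₀ • b₀⁻¹ • m) := by
      rw [pow_smul_quad hqB hb₁ p]; abel
    have h0 := congrArg (fun g : X => g • (b₀⁻¹ • m)) eqp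
    simp only [mul_smul, smul_inv_smul] at h0
    set w := a₀ • b₀⁻¹ • m with hw
    set z := p • (b₁ • w - w) with hz
    have h1 : (b₁ ^ p) • w = w + z := by
      rw [← hT1]; abel
    rw [h1, smul_add, hw, inv_smul_smul] at h0
    have hz0 : a₀⁻¹ • z = z := by
      rw [inv_smul_eq_iff]
      exact (hpa w).symm
    rw [hz0] at h0
    -- h0 : b₀⁻¹ • c ^ p • m = b₀⁻¹ • m + z
    have h2 : (c ^ p) • m - m = z := by
      have h3 := congrArg (fun y => b₀ • y) h0
      simp only [smul_inv_smul, smul_add] at h3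
      have hzB : b₀ • z = z := by
        have : z = (b₁ ^ p) • w - w := by rw [h1]; abel
        rw [this]
        exact T_mem_fixed hqB (B.pow_mem hb₁ p) w b₀ hb₀
      rw [hzB] at h3
      rw [h3]; abel
    refine ⟨T_mem_fixed hqA (A.pow_mem hc p) m, ?_⟩
    rw [h2]
    have : z = (b₁ ^ p) • w - w := by rw [h1]; abel
    rw [this]
    exact T_mem_fixed hqB (B.pow_mem hb₁ p) w
  have hcnc : ¬ K ≤ Subgroup.center X := by
    intro hle
    exact conjBy_ne_of_mem_left h (A.pow_mem hc p) hcp (conjBy_of_mem_center (hle hcK) B)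
  have hKA : K ⊔ A = ⊤ := (normal_dichotomy hgen h K hKn).resolve_right hcnc
  have hKB : K ⊔ B = ⊤ := (normal_dichotomy hgen' hs K hKn).resolve_right hcnc
  have hT : ∀ (x : X), ∀ u : N, x • u - u ∈ C := by
    intro x u
    refine ⟨?_, ?_⟩
    · have hx : x ∈ K ⊔ A := by rw [hKA]; trivial
      rw [Subgroup.mem_sup_of_normal_left] at hx
      obtain ⟨k, hk, a, ha, rfl⟩ := hx
      have e1 : (k * a) • u - u = (k • (a • u) - a • u) + (a • u - u) := by
        rw [mul_smul]; abel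
      rw [e1]
      exact (fixedAdd N A).add_mem ((hk _ trivial).1) (T_mem_fixed hqA ha u)
    · have hx : x ∈ K ⊔ B := by rw [hKB]; trivial
      rw [Subgroup.mem_sup_of_normal_left] at hx
      obtain ⟨k, hk, b, hb, rfl⟩ := hx
      have e1 : (k * b) • u - u = (k • (b • u) - b • u) + (b • u - u) := by
        rw [mul_smul]; abel
      rw [e1]
      exact (fixedAdd N B).add_mem ((hk _ trivial).2) (T_mem_fixed hqB hb u)
  apply center_ne_top h
  rw [eq_top_iff]
  intro x _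
  rw [Subgroup.mem_center_iff]
  intro g
  exact hcomm_of g x (fun n => hCfix g _ (hT x n)) (fun n => hCfix x _ (hT g n))

end Cfsg.Agent.Lib.RootSubgroups.Quad
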