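import Cfsg.Agent.Lib.RootSubgroups.SpecialHua
import Cfsg.Agent.Lib.RootSubgroups.Commutator
import Cfsg.Agent.Lib.FStar.Basic

/-!
The key lemma for the quasisimplicity criterion: for a rank one pair `(A, B)` of a set of abstract root
subgroups with special rank one pairs, in which the commutator case occurs, there is a member commuting with `A`
and in the commutator case with `B`.
-/

set_option autoImplicit false

namespace Cfsg.Agent.Lib.RootSubgroups.Qs

open Cfsg Cfsg.Agent.Lib.RootSubgroups Cfsg.Agent.Lib.RootSubgroups.Special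
open scoped commutatorElement

variable {G : Type*} [Group G] {S : Set (Subgroup G)}

theorem conjBy_le_sup_commutator {A D : Subgroup G} {d : G} (hd : d ∈ D) :
    conjBy A d ≤ A ⊔ ⁅A, D⁆ := by
  rintro _ ⟨a, ha, rfl⟩
  have hu : d * a * d⁻¹ * a⁻¹ ∈ ⁅A, D⁆ := by
    rw [Subgroup.commutator_comm]
    exact Subgroup.commutator_mem_commutator hd ha
  have e : (MulAut.conj d).toMonoidHom a = (d * a * d⁻¹ * a⁻¹) * a := by
    simp [mul_assoc]
  rw [e]
  exact Subgroup.mul_mem _ (Subgroup.mem_sup_right hu) (Subgroup.mem_sup_left ha)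

theorem mem_centralizer_of_comm {A B : Subgroup G} {z : G} (hA : ∀ a ∈ A, a * z = z * a)
    (hB : ∀ b ∈ B, b * z = z * b) : z ∈ Subgroup.centralizer ((A ⊔ B : Subgroup G) : Set G) := by
  have hle : A ⊔ B ≤ Subgroup.centralizer ({z} : Set G) := by
    apply sup_le
    · intro a ha
      rw [Subgroup.mem_centralizer_iff]
      intro w hw
      rw [Set.mem_singleton_iff.1 hw]
      exact (hA a ha).symm
    · intro b hb
      rw [Subgroup.mem_centralizer_iff]
      intro w hw
      rw [Set.mem_singleton_iff.1 hw]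
      exact (hB b hb).symm
  rw [Subgroup.mem_centralizer_iff]
  intro x hx
  exact ((Subgroup.mem_centralizer_iff).1 (hle hx) z rfl).symm

/-- Lemma: existence of a member commuting with `A`, in the commutator case with `B`. -/
theorem exists_commuting_commutator_partner (hS : IsRootSubgroupSet S)
    (hcl : ∀ A ∈ S, ∀ B ∈ S, ∃ g : G, B = conjBy A g)
    (h4 : ∀ A ∈ S, ∀ B ∈ rankOnePartners S A, IsSpecialRankOnePair A B)
    {E₀ F₀ : Subgroup G} (hE₀ : E₀ ∈ S) (hF₀ : F₀ ∈ S) (hc₀ : ⁅E₀, F₀⁆ ∈ S)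
    {A B : Subgroup G} (hA : A ∈ S) (hB : B ∈ S) (h : IsRankOnePair A B) :
    ∃ E ∈ S, ⁅A, E⁆ = ⊥ ∧ ⁅B, E⁆ ∈ S := by
  obtain ⟨g, hg⟩ := hcl E₀ hE₀ A hA
  set D := conjBy F₀ g with hDdef
  have hD : D ∈ S := hS.conj_mem F₀ hF₀ g
  have hCS : ⁅A, D⁆ ∈ S := by
    have e : ⁅A, D⁆ = conjBy ⁅E₀, F₀⁆ g := by
      rw [hg, hDdef]
      exact (Subgroup.map_commutator _ _ _).symm
    rw [e]
    exact hS.conj_mem _ hc₀ g
  set C := ⁅A, D⁆ with hCdef
  have hc := commutator_case_of_mem hS hA hD hCS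
  have hDab := hS.commutative D hD
  have hAab := hS.commutative A hA
  have hAC : ∀ a ∈ A, ∀ c ∈ C, a * c = c * a := fun a ha c hc' =>
    (hc.2.1 c hc' a (Subgroup.mem_sup_left ha)).symm
  have hACbot : ⁅A, C⁆ = ⊥ := commutator_eq_bot_of_commute hAC
  -- elements of the line
  have hline : ∀ a ∈ A, a ≠ 1 → ∀ c ∈ C, a * c ∈ rootElements S ∧ ∃ d ∈ D, a * c ∈ conjBy A d := by
    intro a ha ha1 c hc'
    obtain ⟨d, hd, hde⟩ := exists_conj_eq_mul hc hDab ha ha1 hc'
    have hmem : a * c ∈ conjBy A d⁻¹ := by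
      rw [← hde]
      simpa using conj_mem_conjBy (g := d⁻¹) ha
    have hne : a * c ≠ 1 := by
      rw [← hde]
      intro e
      apply ha1
      have : a = d * (d⁻¹ * a * d) * d⁻¹ := by group
      rw [this, e]; group
    exact ⟨⟨hne, _, hS.conj_mem A hA _, hmem⟩, d⁻¹, D.inv_mem hd, hmem⟩
  obtain ⟨a, ha, ha1⟩ := exists_ne_one_left h
  have hS25 : ∀ z : G, (∀ a ∈ A, a * z = z * a) → (∀ b ∈ B, b * z = z * b) → z ≠ 1 → ∀ a ∈ A, a ≠ 1 →
      z * a ∉ rootElements S := fun z hzA hzB hz1 =>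
    Cfsg.Agent.S5025.result hS hA ⟨hB, h⟩ (mem_centralizer_of_comm hzA hzB) hz1
  rcases hS.pair B hB C hCS with h1 | h1 | h1
  · -- `C` commutes with `B`: impossible
    exfalso
    obtain ⟨c, hc1⟩ := Subgroup.ne_bot_iff_exists_ne_one.1 (hS.ne_bot C hCS)
    have hc1' : (c : G) ≠ 1 := fun e => hc1 (Subtype.ext e)
    refine hS25 c (fun a' ha' => hAC a' ha' c c.2) (fun b hb => commute_of_commutator_eq_bot h1 hb c.2)
      hc1' a ha ha1 ?_
    rw [← hAC a ha c c.2]
    exact (hline a ha ha1 c c.2).1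
  · -- the main case
    have hsA : IsSpecialRankOnePair A B := h4 A hA B ⟨hB, h⟩
    have hsC : IsSpecialRankOnePair C B := h4 C hCS B ⟨hB, RankOnePair_symm h1⟩
    obtain ⟨b, hb, hb1, ea⟩ := exists_partner_left hsA ha ha1
    obtain ⟨c, hc', hc1, ec⟩ := exists_partner_right hsC (B.inv_mem hb) (inv_ne_one.mpr hb1)
    obtain ⟨hroot, d, hd, hmemE⟩ := hline a ha ha1 c hc'
    set E := conjBy A d with hEdef
    have hES : E ∈ S := hS.conj_mem A hA d
    set e := a * c with he
    have he1 : e ≠ 1 := hroot.1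
    have hEle : E ≤ A ⊔ C := conjBy_le_sup_commutator hd
    -- A ⊔ C is commutative
    have hCab := hS.commutative C hCS
    have hℓcomm : ∀ x ∈ A ⊔ C, ∀ y ∈ A ⊔ C, x * y = y * x := by
      intro x hx y hy
      obtain ⟨a₁, ha₁, c₁, hc₁, rfl⟩ := mem_sup_of_commute hAC hx
      obtain ⟨a₂, ha₂, c₂, hc₂, rfl⟩ := mem_sup_of_commute hAC hy
      have h12 : a₁ * a₂ = a₂ * a₁ := comm_of_isMulCommutative hAab ha₁ ha₂
      have h34 : c₁ * c₂ = c₂ * c₁ := comm_of_isMulCommutative hCab hc₁ hc₂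
      calc a₁ * c₁ * (a₂ * c₂) = a₁ * (c₁ * a₂) * c₂ := by group
        _ = a₁ * (a₂ * c₁) * c₂ := by rw [hAC a₂ ha₂ c₁ hc₁]
        _ = (a₁ * a₂) * (c₁ * c₂) := by group
        _ = (a₂ * a₁) * (c₂ * c₁) := by rw [h12, h34]
        _ = a₂ * (a₁ * c₂) * c₁ := by group
        _ = a₂ * (c₂ * a₁) * c₁ := by rw [hAC a₁ ha₁ c₂ hc₂]
        _ = a₂ * c₂ * (a₁ * c₁) := by group
    have hAE : ⁅A, E⁆ = ⊥ := commutator_eq_bot_of_commute (fun a' ha' e' he' =>
      hℓcomm a' (Subgroup.mem_sup_left ha') e' (hEle he'))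
    refine ⟨E, hES, hAE, ?_⟩
    rcases hS.pair B hB E hES with h2 | h2 | h2
    · -- `E` commutes with `B`: impossible
      exfalso
      have hzA : ∀ a' ∈ A, a' * e⁻¹ = e⁻¹ * a' := by
        intro a' ha'
        have := hℓcomm a' (Subgroup.mem_sup_left ha') e (hEle hmemE)
        exact (Commute.inv_right this).eq
      have hzB : ∀ b' ∈ B, b' * e⁻¹ = e⁻¹ * b' := by
        intro b' hb'
        have := commute_of_commutator_eq_bot h2 hb' hmemE
        exact (Commute.inv_right this).eq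
      refine hS25 e⁻¹ hzA hzB (inv_ne_one.mpr he1) a ha ha1 ?_
      have hz : e⁻¹ * a = c⁻¹ := by
        rw [he, mul_inv_rev, mul_assoc]
        simp
      rw [hz]
      exact ⟨inv_ne_one.mpr hc1, C, hCS, C.inv_mem hc'⟩
    · -- `E` in rank one with `B`: impossible
      exfalso
      have hpEB : IsRankOnePair E B := RankOnePair_symm h2
      have hb_inv : b⁻¹ ∈ B := B.inv_mem hb
      have hb_inv1 : b⁻¹ ≠ 1 := inv_ne_one.mpr hb1
      set x := b * e * b⁻¹ with hx
      have hx1 : x ≠ 1 := by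
        intro h0
        apply he1
        have : e = b⁻¹ * x * b := by rw [hx]; group
        rw [this, h0]; group
      have hxn : x = (c * (b⁻¹)⁻¹ * c) * (a * b⁻¹ * a) := by
        rw [braid hsC hc' hc1 hb_inv hb_inv1 ec, braid hsA ha ha1 hb hb1 ea, hx, he]
        have : a * c = c * a := hAC a ha c hc'
        rw [this]
        group
      have hxA : conjBy A x = C := by
        rw [hxn, conjBy_mul, n_conjBy_A hsA ha ea, n_conjBy_B hsC hc' hc1 hb_inv hb_inv1 ec]
      set E₂ := conjBy E b with hE₂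
      have hE₂S : E₂ ∈ S := hS.conj_mem E hES b
      have hxE₂ : x ∈ E₂ := conj_mem_conjBy hmemE
      have hAneC : A ≠ C := by
        intro e0
        apply hS.ne_bot _ hCS
        apply commutator_eq_bot_of_commute
        intro a' ha' b' hb'
        have ha'' : a' ∈ C := by rw [← e0]; exact ha'
        exact hc.2.1 a' ha'' b' (Subgroup.mem_sup_right hb')
      rcases hS.pair E₂ hE₂S A hA with h3 | h3 | h3
      · apply hAneC
        rw [← hxA]
        symm
        exact conjBy_eq_self_of_commute (fun a' ha' => commute_of_commutator_eq_bot h3 hxE₂ ha')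
      · have hA_mem : A ∈ unipotentSubgroups E₂ A := right_mem_unipotent h3
        have hC_mem : C ∈ unipotentSubgroups E₂ A := by
          rw [← hxA]
          exact conjBy_mem_unipotent h3 hA_mem (Subgroup.mem_sup_left hxE₂)
        have hpAC := pair_of_mem_unipotent h3 hA_mem hC_mem hAneC
        exact IsRankOnePair.not_commute' hpAC hAC
      · have hFle : ⁅E₂, A⁆ ≤ A ⊔ C := by
          rw [← h3.2.2.1 x hxE₂ hx1, Subgroup.closure_le]
          rintro _ ⟨a₁, ha₁, rfl⟩
          have h5 : x * a₁ * x⁻¹ ∈ C := by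
            rw [← hxA]; exact conj_mem_conjBy ha₁
          exact Subgroup.mul_mem _ (Subgroup.mem_sup_right h5)
            (Subgroup.mem_sup_left (A.inv_mem ha₁))
        have hCle : C ≤ A ⊔ ⁅E₂, A⁆ := by
          rw [← hxA, Subgroup.commutator_comm]
          exact conjBy_le_sup_commutator hxE₂
        have hℓ : A ⊔ C = A ⊔ ⁅E₂, A⁆ :=
          le_antisymm (sup_le le_sup_left hCle) (sup_le le_sup_left hFle)
        -- E₂ normalizes the line
        have hstab : ∀ y ∈ E₂, conjBy (A ⊔ C) y ≤ A ⊔ C := by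
          intro y hy
          rw [hℓ, conjBy_sup]
          apply sup_le
          · rw [Subgroup.commutator_comm]
            exact conjBy_le_sup_commutator hy
          · have : conjBy ⁅E₂, A⁆ y = ⁅E₂, A⁆ :=
              conjBy_eq_self_of_commute (fun c₁ hc₁ => (h3.2.1 c₁ hc₁ y (Subgroup.mem_sup_left hy)).symm)
            rw [this]
            exact le_sup_right
        have hE₂N : E₂ ≤ Subgroup.normalizer ((A ⊔ C : Subgroup G) : Set G) := by
          intro y hy
          apply conjBy_eq_self_iff_mem_normalizer.mp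
          apply le_antisymm (hstab y hy)
          have h6 := hstab y⁻¹ (E₂.inv_mem hy)
          have h7 := Subgroup.map_mono (f := (MulAut.conj y).toMonoidHom) h6
          have h8 : ((A ⊔ C).map (MulAut.conj y⁻¹).toMonoidHom).map (MulAut.conj y).toMonoidHom = A ⊔ C :=
            conjBy_conjBy_inv (A ⊔ C) y
          rw [h8] at h7
          exact h7
        have hEN : E ≤ Subgroup.normalizer ((A ⊔ C : Subgroup G) : Set G) := by
          intro y hy
          apply conjBy_eq_self_iff_mem_normalizer.mp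
          exact conjBy_of_mem (hEle hy)
        have hne : E ≠ E₂ := (conjBy_ne_of_mem_right hpEB hb hb1).symm
        have hE₂mem : E₂ ∈ unipotentSubgroups E B :=
          conjBy_mem_unipotent hpEB left_mem_unipotent (Subgroup.mem_sup_right hb)
        have hsup := sup_eq_of_ne hpEB left_mem_unipotent hE₂mem hne
        have hbN : b ∈ Subgroup.normalizer ((A ⊔ C : Subgroup G) : Set G) := by
          have : b ∈ E ⊔ E₂ := by rw [hsup]; exact Subgroup.mem_sup_right hb
          exact (sup_le hEN hE₂N) this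
        have hconj : conjBy (A ⊔ C) b = A ⊔ C := conjBy_eq_self_iff_mem_normalizer.mpr hbN
        have hAb : conjBy A b ≤ A ⊔ C := by
          rw [← hconj]
          exact Subgroup.map_mono le_sup_left
        have hpt : conjBy A b ∈ unipotentSubgroups A B :=
          conjBy_mem_unipotent h left_mem_unipotent (Subgroup.mem_sup_right hb)
        have hpAb := pair_of_mem_unipotent h left_mem_unipotent hpt (conjBy_ne_of_mem_right h hb hb1).symm
        exact IsRankOnePair.not_commute' hpAb (fun a₁ ha₁ c₁ hc₁ =>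
          hℓcomm a₁ (Subgroup.mem_sup_left ha₁) c₁ (hAb hc₁))
    · exact h2.1
  · exact ⟨C, hCS, hACbot, h1.1⟩

/-- relative dichotomy: `B` is congruent to `A` modulo `N` if an element of `N` moves a point of `⟨A, B⟩`. -/
theorem sup_dichotomy {N : Subgroup G} [hN : N.Normal] {A B : Subgroup G} (h : IsRankOnePair A B) {y : G}
    (hyN : y ∈ N) (hy : y ∈ A ⊔ B) {C : Subgroup G} (hC : C ∈ unipotentSubgroups A B)
    (hmove : conjBy C y ≠ C) : ∀ b ∈ B, ∃ a ∈ A, b * a⁻¹ ∈ N := by
  obtain ⟨x, hx, e1, e2⟩ := exists_doubly_transitive h hC (conjBy_mem_unipotent h hC hy)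
    left_mem_unipotent (right_mem_unipotent h) hmove.symm h.ne
  have hB : conjBy A (x * y * x⁻¹) = B := by
    rw [conjBy_mul, conjBy_mul, ← e1, conjBy_inv_conjBy, e2]
  have hy' : x * y * x⁻¹ ∈ N := hN.conj_mem y hyN x
  intro b hb
  rw [← hB] at hb
  have ha := mem_conjBy.mp hb
  refine ⟨_, ha, ?_⟩
  set y' := x * y * x⁻¹ with hy'def
  have e : b * (y'⁻¹ * b * y')⁻¹ = y' * ((y'⁻¹ * b * y') * y'⁻¹ * (y'⁻¹ * b * y')⁻¹) := by group
  rw [e]
  exact N.mul_mem hy' (hN.conj_mem _ (N.inv_mem hy') _)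

/-- `⟨A, B⟩` is abelian modulo `N` if `B` is congruent to `A` modulo `N`. -/
theorem commutator_sup_le {N : Subgroup G} [hN : N.Normal] {A B : Subgroup G} (hA : IsMulCommutative A)
    (hBN : ∀ b ∈ B, ∃ a ∈ A, b * a⁻¹ ∈ N) : ⁅A ⊔ B, A ⊔ B⁆ ≤ N := by
  let T : Subgroup G :=
    { carrier := {x | ∃ a ∈ A, x * a⁻¹ ∈ N}
      one_mem' := ⟨1, A.one_mem, by simp [N.one_mem]⟩
      mul_mem' := by
        rintro x y ⟨a, ha, hxa⟩ ⟨a', ha', hya⟩
        refine ⟨a * a', A.mul_mem ha ha', ?_⟩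
        have e : x * y * (a * a')⁻¹ = (x * a⁻¹) * (a * (y * a'⁻¹) * a⁻¹) := by group
        rw [e]
        exact N.mul_mem hxa (hN.conj_mem _ hya _)
      inv_mem' := by
        rintro x ⟨a, ha, hxa⟩
        refine ⟨a⁻¹, A.inv_mem ha, ?_⟩
        have e : x⁻¹ * a⁻¹⁻¹ = x⁻¹ * (x * a⁻¹)⁻¹ * x := by group
        rw [e]
        have := hN.conj_mem _ (N.inv_mem hxa) x⁻¹
        simpa using this }
  have hle : A ⊔ B ≤ T := by
    apply sup_le
    · intro a ha
      exact ⟨a, ha, by simp [N.one_mem]⟩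
    · intro b hb
      exact hBN b hb
  rw [Subgroup.commutator_le]
  intro u hu v hv
  obtain ⟨a, ha, hua⟩ := hle hu
  obtain ⟨a', ha', hva⟩ := hle hv
  rw [← QuotientGroup.eq_one_iff]
  have e1 : ((u : G) : G ⧸ N) = (a : G ⧸ N) := by
    have := (QuotientGroup.eq_one_iff _).mpr hua
    rw [QuotientGroup.mk_mul, QuotientGroup.mk_inv] at this
    exact mul_inv_eq_one.mp this
  have e2 : ((v : G) : G ⧸ N) = (a' : G ⧸ N) := by
    have := (QuotientGroup.eq_one_iff _).mpr hva
    rw [QuotientGroup.mk_mul, QuotientGroup.mk_inv] at this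
    exact mul_inv_eq_one.mp this
  have hcomm : a * a' = a' * a := comm_of_isMulCommutative hA ha ha'
  simp only [commutatorElement_def, QuotientGroup.mk_mul, QuotientGroup.mk_inv, e1, e2]
  rw [← QuotientGroup.mk_inv, ← QuotientGroup.mk_inv, ← QuotientGroup.mk_mul, ← QuotientGroup.mk_mul,
    ← QuotientGroup.mk_mul, QuotientGroup.eq_one_iff]
  have e3 : a * a' * a⁻¹ * a'⁻¹ = 1 := by
    rw [hcomm]; group
  rw [e3]
  exact N.one_mem

theorem small_le {E N : Subgroup G} (hE : ¬ 3 < ENat.card E) {u : G} (hu : u ∈ E) (hu1 : u ≠ 1) (huN : u ∈ N) :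
    E ≤ N := by
  have hle : ENat.card E ≤ 3 := not_lt.mp hE
  have hfin : Finite E := by
    rw [← ENat.card_lt_top]
    exact lt_of_le_of_lt hle (by exact_mod_cast ENat.coe_lt_top 3)
  have hn : Nat.card E ≤ 3 := by
    rw [ENat.card_eq_coe_natCard] at hle
    exact_mod_cast hle
  have hne1 : Nat.card E ≠ 1 := by
    intro h1
    have := Nat.card_eq_one_iff_unique.mp h1
    have h2 := this.1.elim (⟨u, hu⟩ : E) 1
    exact hu1 (congrArg Subtype.val h2)
  have hne0 : Nat.card E ≠ 0 := Nat.card_pos.ne'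
  have hprime : (Nat.card E).Prime := by
    interval_cases h : Nat.card E
    · exact absurd rfl hne0
    · exact absurd rfl hne1
    · exact Nat.prime_two
    · exact Nat.prime_three
  haveI : Fact (Nat.card E).Prime := ⟨hprime⟩
  have htop := zpowers_eq_top_of_prime_card (G := E) (p := Nat.card E) rfl (g := ⟨u, hu⟩)
    (fun h => hu1 (congrArg Subtype.val h))
  intro x hx
  have hmem : (⟨x, hx⟩ : E) ∈ Subgroup.zpowers (⟨u, hu⟩ : E) := by rw [htop]; trivial
  obtain ⟨k, hk⟩ := hmem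
  have := congrArg Subtype.val hk
  simp only [Subgroup.coe_zpow] at this
  rw [← this]
  exact N.zpow_mem huN k

section Main

variable (hS : IsRootSubgroupSet S) (hcl : ∀ A ∈ S, ∀ B ∈ S, ∃ g : G, B = conjBy A g)
  (hpart : ∀ A ∈ S, ∃ B ∈ S, IsRankOnePair A B)
  (h2' : ∀ A ∈ S, ∀ C ∈ S, A ≠ C → centralizingMembers S A ≠ centralizingMembers S C)
  (h3 : IsDegenerateRootSet S → ∀ A ∈ S, 3 < ENat.card A)
  (h4 : ∀ A ∈ S, ∀ B ∈ rankOnePartners S A, IsSpecialRankOnePair A B)

include hS hcl hpart h2' h3 h4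

/-- Every non-central normal subgroup of `G` is everything. -/
theorem normal_eq_top {N : Subgroup G} [hN : N.Normal] (hNc : ¬ N ≤ Subgroup.center G) : N = ⊤ := by
  have hGoal : (∃ E ∈ S, E ≤ N) → N = ⊤ := by
    rintro ⟨E, hE, hEN⟩
    rw [eq_top_iff, ← hS.generates]
    refine iSup₂_le ?_
    intro A hA
    obtain ⟨g, rfl⟩ := hcl E hE A hA
    rintro _ ⟨x, hx, rfl⟩
    exact hN.conj_mem x (hEN hx) g
  have hle_of_card : ∀ A ∈ S, ∀ B ∈ S, IsRankOnePair A B → (∀ b ∈ B, ∃ a ∈ A, b * a⁻¹ ∈ N) →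
      3 < ENat.card A → A ≤ N := by
    intro A hA B hB hp hBN hcard
    have hs := h4 A hA B ⟨hB, hp⟩
    have hAab := hS.commutative A hA
    refine (Special.le_commutator_diagonal hs hAab hcard).trans ?_
    refine le_trans ?_ (commutator_sup_le hAab hBN)
    exact Subgroup.commutator_mono le_sup_left (fun x hx => hx.1.1)
  have hI : ∀ E ∈ S, ∀ u ∈ E, u ≠ 1 → u ∈ N → ∃ E' ∈ S, E' ≤ N := by
    intro E hE u hu hu1 huN
    refine ⟨E, hE, ?_⟩
    by_cases hcard : 3 < ENat.card E
    · obtain ⟨F, hF, hp⟩ := hpart E hE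
      exact hle_of_card E hE F hF hp (sup_dichotomy hp huN (Subgroup.mem_sup_left hu)
        (right_mem_unipotent hp) (conjBy_ne_of_mem_left hp hu hu1)) hcard
    · exact small_le hcard hu hu1 huN
  have hR : ∀ A ∈ S, ∀ B ∈ S, IsRankOnePair A B → (∀ b ∈ B, ∃ a ∈ A, b * a⁻¹ ∈ N) → ∃ E ∈ S, E ≤ N := by
    intro A hA B hB hp hBN
    by_cases hcard : 3 < ENat.card A
    · exact ⟨A, hA, hle_of_card A hA B hB hp hBN hcard⟩
    · have hdeg : ¬ IsDegenerateRootSet S := fun hd => hcard (h3 hd A hA)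
      unfold IsDegenerateRootSet at hdeg
      push Not at hdeg
      obtain ⟨E₀, hE₀, F₀, hF₀, hc₀⟩ := hdeg
      obtain ⟨E, hE, hAE, hBE⟩ := exists_commuting_commutator_partner hS hcl h4 hE₀ hF₀ hc₀.1 hA hB hp
      have hrc := commutator_case_of_mem hS hB hE hBE
      obtain ⟨b, hb, hb1⟩ := exists_ne_one_right hp
      obtain ⟨e, he, he1⟩ : ∃ e ∈ E, e ≠ 1 := by
        obtain ⟨e, he⟩ := Subgroup.ne_bot_iff_exists_ne_one.1 (hS.ne_bot E hE)
        exact ⟨e, e.2, fun h => he (Subtype.ext h)⟩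
      obtain ⟨a, ha, hba⟩ := hBN b hb
      have hae : a * e = e * a := commute_of_commutator_eq_bot hAE ha he
      refine hI _ hBE (b * e * b⁻¹ * e⁻¹) (Subgroup.commutator_mem_commutator hb he) ?_ ?_
      · intro h1
        apply comm_ne_of_partner hS hB hA (RankOnePair_symm hp) hrc hb hb1 he he1
        have : b * e * b⁻¹ = e := mul_inv_eq_one.mp h1
        calc b * e = (b * e * b⁻¹) * b := by group
          _ = e * b := by rw [this]
      · have e1 : b * e * b⁻¹ * e⁻¹ = (b * a⁻¹) * (e * (b * a⁻¹)⁻¹ * e⁻¹) := by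
          have : a⁻¹ * e = e * a⁻¹ := (Commute.inv_left hae).eq
          calc b * e * b⁻¹ * e⁻¹ = b * (a⁻¹ * a) * e * b⁻¹ * e⁻¹ := by group
            _ = b * a⁻¹ * (a * e) * b⁻¹ * e⁻¹ := by group
            _ = b * a⁻¹ * (e * a) * b⁻¹ * e⁻¹ := by rw [hae]
            _ = _ := by group
        rw [e1]
        exact N.mul_mem hba (hN.conj_mem _ (N.inv_mem hba) _)
  have hC : ∀ F ∈ S, ∀ D ∈ S, ⁅F, D⁆ ≠ ⊥ → ∀ f ∈ F, f ≠ 1 → ∀ d ∈ D, d ≠ 1 → f * d * f⁻¹ * d⁻¹ ∈ N →
      ∃ E ∈ S, E ≤ N := by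
    intro F hF D hD hne f hf hf1 d hd hd1 hu
    rcases hS.pair F hF D hD with h1 | h1 | h1
    · exact absurd h1 hne
    · -- rank one
      have hs := RankOnePair_symm h1
      refine hR F hF D hD h1 (sup_dichotomy h1 hu ?_ (right_mem_unipotent h1) ?_)
      · exact Subgroup.mul_mem _ (Subgroup.mul_mem _ (Subgroup.mul_mem _ (Subgroup.mem_sup_left hf)
          (Subgroup.mem_sup_right hd)) (Subgroup.mem_sup_left (F.inv_mem hf)))
          (Subgroup.mem_sup_right (D.inv_mem hd))
      · intro e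
        have hfinv : conjBy D f⁻¹ ≠ D := conjBy_ne_of_mem_left h1 (F.inv_mem hf) (inv_ne_one.mpr hf1)
        have hmem : conjBy D f⁻¹ ∈ unipotentSubgroups D F := conjBy_mem_unipotent hs left_mem_unipotent
          (Subgroup.mem_sup_right (F.inv_mem hf))
        apply hd1
        apply eq_one_of_conjBy_eq hs hmem hfinv hd
        have e2 : conjBy D (f * d * f⁻¹ * d⁻¹) = conjBy (conjBy (conjBy D f⁻¹) d) f := by
          rw [conjBy_mul, conjBy_of_mem (D.inv_mem hd), conjBy_mul, conjBy_mul]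
        rw [e2] at e
        rw [conjBy_eq_iff_eq_conjBy_inv] at e
        exact e
    · -- commutator case
      obtain ⟨F', hF', hp'⟩ := hpart F hF
      refine hI _ h1.1 (f * d * f⁻¹ * d⁻¹) (Subgroup.commutator_mem_commutator hf hd) ?_ hu
      intro h0
      apply comm_ne_of_partner hS hF hF' hp' h1 hf hf1 hd hd1
      have : f * d * f⁻¹ = d := mul_inv_eq_one.mp h0
      calc f * d = (f * d * f⁻¹) * f := by group
        _ = d * f := by rw [this]
  -- some element of N moves some member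
  have hmove : ∃ n ∈ N, ∃ A ∈ S, conjBy A n ≠ A := by
    by_contra hno
    push Not at hno
    apply hNc
    intro n hn
    have hcomm : ∀ A ∈ S, ∀ y ∈ A, n * y = y * n := by
      intro A hA y hy
      obtain ⟨B, hB, hp⟩ := hpart A hA
      refine commute_of_fix hp ?_ (Subgroup.mem_sup_left hy)
      rintro C ⟨x, -, rfl⟩
      exact hno n hn _ (hS.conj_mem A hA x)
    rw [Subgroup.mem_center_iff]
    intro g
    have hg : g ∈ ⨆ A ∈ S, A := by rw [hS.generates]; trivial
    have hle : (⨆ A ∈ S, A) ≤ Subgroup.centralizer ({n} : Set G) := by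
      refine iSup₂_le ?_
      intro A hA y hy
      rw [Subgroup.mem_centralizer_iff]
      intro w hw
      rw [Set.mem_singleton_iff.1 hw]
      exact hcomm A hA y hy
    have := (Subgroup.mem_centralizer_iff).1 (hle hg) n rfl
    exact this.symm
  obtain ⟨n, hn, A, hA, hnA⟩ := hmove
  apply hGoal
  obtain ⟨a, ha, ha1⟩ : ∃ a ∈ A, a ≠ 1 := by
    obtain ⟨e, he⟩ := Subgroup.ne_bot_iff_exists_ne_one.1 (hS.ne_bot A hA)
    exact ⟨e, e.2, fun h => he (Subtype.ext h)⟩
  set D := conjBy A n with hDdef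
  have hD : D ∈ S := hS.conj_mem A hA n
  set d := n * a * n⁻¹ with hd
  have hdD : d ∈ D := conj_mem_conjBy ha
  have hd1 : d ≠ 1 := by
    intro h
    apply ha1
    have : a = n⁻¹ * d * n := by rw [hd]; group
    rw [this, h]; group
  have hy : a⁻¹ * d ∈ N := by
    have e : a⁻¹ * d = (a⁻¹ * n * a) * n⁻¹ := by rw [hd]; group
    rw [e]
    apply N.mul_mem _ (N.inv_mem hn)
    have := hN.conj_mem n hn a⁻¹
    simpa using this
  by_cases hcAD : ⁅A, D⁆ = ⊥
  · have hne := h2' A hA D hD hnA.symm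
    have hex : ∃ F, ¬ (F ∈ centralizingMembers S A ↔ F ∈ centralizingMembers S D) := by
      by_contra hall
      push Not at hall
      exact hne (Set.ext hall)
    obtain ⟨F, hF⟩ := hex
    have hFne : ∀ {F : Subgroup G}, F ∈ S → ∃ f ∈ F, f ≠ 1 := by
      intro F hF
      obtain ⟨e, he⟩ := Subgroup.ne_bot_iff_exists_ne_one.1 (hS.ne_bot F hF)
      exact ⟨e, e.2, fun h => he (Subtype.ext h)⟩
    have had : a⁻¹ * d = d * a⁻¹ := (commute_of_commutator_eq_bot hcAD (A.inv_mem ha) hdD)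
    by_cases hFA : F ∈ centralizingMembers S A
    · -- commutes with A, not with D
      have hFD : F ∉ centralizingMembers S D := fun h => hF ⟨fun _ => h, fun _ => hFA⟩
      have hFS : F ∈ S := hFA.1
      have hne' : ⁅F, D⁆ ≠ ⊥ := by
        intro h0
        apply hFD
        refine ⟨hFS, ?_⟩
        intro f hf
        rw [Subgroup.mem_centralizer_iff]
        intro w hw
        exact (commute_of_commutator_eq_bot h0 hf hw).symm
      obtain ⟨f, hf, hf1⟩ := hFne hFS
      refine hC F hFS D hD hne' f hf hf1 d hdD hd1 ?_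
      have hfa : a * f = f * a := by
        have := (Subgroup.mem_centralizer_iff).1 (hFA.2 hf) a ha
        exact this
      have hfainv : a⁻¹ * f = f * a⁻¹ := (Commute.inv_left hfa).eq
      have e1 : f * d * f⁻¹ * d⁻¹ = a * ((f * (a⁻¹ * d) * f⁻¹) * (a⁻¹ * d)⁻¹) * a⁻¹ := by
        have e2 : f * (a⁻¹ * d) * f⁻¹ = a⁻¹ * (f * d * f⁻¹) := by
          calc f * (a⁻¹ * d) * f⁻¹ = (f * a⁻¹) * d * f⁻¹ := by group
            _ = (a⁻¹ * f) * d * f⁻¹ := by rw [hfainv]
            _ = _ := by group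
        rw [e2]
        group
      rw [e1]
      apply hN.conj_mem
      exact N.mul_mem (hN.conj_mem _ hy f) (N.inv_mem hy)
    · -- commutes with D, not with A
      have hFD : F ∈ centralizingMembers S D := by
        by_contra h
        exact hF ⟨fun h' => absurd h' hFA, fun h' => absurd h' h⟩
      have hFS : F ∈ S := hFD.1
      have hne' : ⁅F, A⁆ ≠ ⊥ := by
        intro h0
        apply hFA
        refine ⟨hFS, ?_⟩
        intro f hf
        rw [Subgroup.mem_centralizer_iff]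
        intro w hw
        exact (commute_of_commutator_eq_bot h0 hf hw).symm
      obtain ⟨f, hf, hf1⟩ := hFne hFS
      refine hC F hFS A hA hne' f hf hf1 a⁻¹ (A.inv_mem ha) (inv_ne_one.mpr ha1) ?_
      have hfd : d * f = f * d := (Subgroup.mem_centralizer_iff).1 (hFD.2 hf) d hdD
      have hfdinv : f⁻¹ * d = d * f⁻¹ := by
        have : Commute d f := hfd
        exact (this.inv_right).eq.symm
      have e1 : f * a⁻¹ * f⁻¹ * a⁻¹⁻¹ = (f * (a⁻¹ * d) * f⁻¹) * (a⁻¹ * d)⁻¹ := by
        have e2 : f * (a⁻¹ * d) * f⁻¹ = f * a⁻¹ * f⁻¹ * d := by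
          calc f * (a⁻¹ * d) * f⁻¹ = f * a⁻¹ * (d * f⁻¹) := by group
            _ = f * a⁻¹ * (f⁻¹ * d) := by rw [hfdinv]
            _ = _ := by group
        rw [e2]
        group
      rw [e1]
      exact N.mul_mem (hN.conj_mem _ hy f) (N.inv_mem hy)
  · have hne' : ⁅D, A⁆ ≠ ⊥ := by
      rw [Subgroup.commutator_comm]; exact hcAD
    refine hC D hD A hA hne' d hdD hd1 a ha ha1 ?_
    have e1 : d * a * d⁻¹ * a⁻¹ = a * ((a⁻¹ * d) * (a * (a⁻¹ * d)⁻¹ * a⁻¹)) * a⁻¹ := by group
    rw [e1]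
    apply hN.conj_mem
    exact N.mul_mem hy (hN.conj_mem _ (N.inv_mem hy) _)

theorem isPerfect_main (hne : ∃ A ∈ S, True) : commutator G = ⊤ := by
  have hall : (∃ C ∈ S, C ≤ commutator G) ∨ (∀ C ∈ S, C ≤ commutator G) := by
    by_cases hdeg : IsDegenerateRootSet S
    · right
      intro A hA
      obtain ⟨B, hB, hp⟩ := hpart A hA
      refine (Special.le_commutator_diagonal (h4 A hA B ⟨hB, hp⟩) (hS.commutative A hA)
        (h3 hdeg A hA)).trans ?_
      rw [commutator_def]
      exact Subgroup.commutator_mono le_top le_top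
    · left
      unfold IsDegenerateRootSet at hdeg
      push Not at hdeg
      obtain ⟨E₀, hE₀, F₀, hF₀, hc₀⟩ := hdeg
      refine ⟨_, hc₀.1, ?_⟩
      rw [commutator_def]
      exact Subgroup.commutator_mono le_top le_top
  have hall2 : ∀ C ∈ S, C ≤ commutator G := by
    rcases hall with ⟨C, hC, hle⟩ | h
    · intro A hA
      obtain ⟨g, rfl⟩ := hcl C hC A hA
      rintro _ ⟨x, hx, rfl⟩
      exact (inferInstance : (commutator G).Normal).conj_mem x (hle hx) g
    · exact h
  rw [eq_top_iff, ← hS.generates]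
  exact iSup₂_le hall2

theorem isQuasisimple_main (hne : ∃ A ∈ S, True) : IsQuasisimple G := by
  have hperf := isPerfect_main hS hcl hpart h2' h3 h4 hne
  refine ⟨Group.isPerfect_def.mpr hperf, ?_⟩
  obtain ⟨A, hA, -⟩ := hne
  obtain ⟨B, hB, hp⟩ := hpart A hA
  have hZ : Subgroup.center G ≠ ⊤ := by
    intro hZ
    apply IsRankOnePair.not_commute' hp
    intro a ha b _
    have : a ∈ Subgroup.center G := by rw [hZ]; trivial
    exact ((Subgroup.mem_center_iff).1 this b).symm
  haveI : Nontrivial (G ⧸ Subgroup.center G) := QuotientGroup.nontrivial_iff.2 hZ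
  refine ⟨?_⟩
  intro H hH
  have hN : (H.comap (QuotientGroup.mk' (Subgroup.center G))).Normal := hH.comap _
  by_cases hc : H.comap (QuotientGroup.mk' (Subgroup.center G)) ≤ Subgroup.center G
  · left
    rw [eq_bot_iff]
    intro x hx
    obtain ⟨y, rfl⟩ := QuotientGroup.mk'_surjective _ x
    have : y ∈ Subgroup.center G := hc hx
    rw [Subgroup.mem_bot]
    exact (QuotientGroup.eq_one_iff y).2 this
  · right
    haveI := hN
    have hNtop := normal_eq_top hS hcl hpart h2' h3 h4 hc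
    rw [eq_top_iff]
    intro q _
    obtain ⟨y, rfl⟩ := QuotientGroup.mk'_surjective _ q
    have : y ∈ H.comap (QuotientGroup.mk' (Subgroup.center G)) := by rw [hNtop]; trivial
    exact this

end Main

end Cfsg.Agent.Lib.RootSubgroups.Qs
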