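import Mathlib
import Cfsg.Prelude.Def_RootSubgroups
import Cfsg.Agent.Lib.KS2.RegUm
import Cfsg.Agent.Lib.Known3.TransvPair
import Cfsg.Agent.Lib.RootSubgroups.SL2Pair
import Cfsg.Agent.Lib.RootSubgroups.Commutator

/-!
Point-hyperplane transvection subgroups of `SL_m(k)`: explicit elements `el h c = 1 + c v ⊗ φ`, the root
groups `RR h`, conjugation, commutators, and the three cases for a pair.
-/

set_option autoImplicit false

namespace Cfsg.Agent.Lib.RootSubgroups.SLRoot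

open Matrix Module Cfsg Cfsg.Agent.Lib.KS2.Reg
open scoped MatrixGroups commutatorElement

variable {k : Type*} [Field k] {m : ℕ}

/-- The transvection `1 + c v ⊗ φ`. -/
def el {v φ : Fin m → k} (h : φ ⬝ᵥ v = 0) (c : k) : SpecialLinearGroup (Fin m) k :=
  Tv v (c • φ) (by rw [smul_dotProduct, h, smul_zero])

lemma el_coe {v φ : Fin m → k} (h : φ ⬝ᵥ v = 0) (c : k) :
    ((el h c : SpecialLinearGroup (Fin m) k) : Matrix (Fin m) (Fin m) k) = 1 + c • vecMulVec v φ := by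
  simp only [el, Tv_coe, vecMulVec_smul]

lemma vmv_mul (v φ w ψ : Fin m → k) :
    vecMulVec v φ * vecMulVec w ψ = (φ ⬝ᵥ w) • vecMulVec v ψ := by
  rw [vecMulVec_mul_vecMulVec, vecMulVec_smul]

lemma el_mul {v φ : Fin m → k} (h : φ ⬝ᵥ v = 0) (a b : k) : el h a * el h b = el h (a + b) := by
  apply sl_ext
  simp only [Matrix.SpecialLinearGroup.coe_mul, el_coe]
  rw [mul_add, add_mul, add_mul, one_mul, mul_one, one_mul, smul_mul_smul_comm, vmv_mul, h, zero_smul, smul_zero,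
    add_zero, add_smul]
  abel

@[simp] lemma el_zero {v φ : Fin m → k} (h : φ ⬝ᵥ v = 0) : el h 0 = 1 := by
  apply sl_ext
  simp [el_coe]

lemma el_inv {v φ : Fin m → k} (h : φ ⬝ᵥ v = 0) (a : k) : (el h a)⁻¹ = el h (-a) := by
  apply inv_eq_of_mul_eq_one_right
  rw [el_mul]; simp

lemma vmv_ne_zero {v φ : Fin m → k} (hv : v ≠ 0) (hφ : φ ≠ 0) : vecMulVec v φ ≠ 0 := by
  obtain ⟨i, hi⟩ := Function.ne_iff.mp hv
  obtain ⟨j, hj⟩ := Function.ne_iff.mp hφ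
  intro h
  have := congrFun (congrFun h i) j
  rw [vecMulVec_apply] at this
  exact (mul_ne_zero hi hj) this

lemma el_eq_one_iff {v φ : Fin m → k} (h : φ ⬝ᵥ v = 0) (hv : v ≠ 0) (hφ : φ ≠ 0) {c : k} :
    el h c = 1 ↔ c = 0 := by
  constructor
  · intro e
    have := congrArg (fun t : SpecialLinearGroup (Fin m) k => (t : Matrix (Fin m) (Fin m) k)) e
    simp only [el_coe, Matrix.SpecialLinearGroup.coe_one, add_eq_left] at this
    exact (smul_eq_zero.mp this).resolve_right (vmv_ne_zero hv hφ)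
  · rintro rfl
    exact el_zero h

/-- The root group attached to `(v, φ)`. -/
def RR {v φ : Fin m → k} (h : φ ⬝ᵥ v = 0) : Subgroup (SpecialLinearGroup (Fin m) k) where
  carrier := Set.range (el h)
  mul_mem' := by
    rintro _ _ ⟨a, rfl⟩ ⟨b, rfl⟩
    exact ⟨a + b, (el_mul h a b).symm⟩
  one_mem' := ⟨0, el_zero h⟩
  inv_mem' := by
    rintro _ ⟨a, rfl⟩
    exact ⟨-a, (el_inv h a).symm⟩

lemma mem_RR {v φ : Fin m → k} {h : φ ⬝ᵥ v = 0} {t : SpecialLinearGroup (Fin m) k} :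
    t ∈ RR h ↔ ∃ c, el h c = t := Iff.rfl

lemma el_mem {v φ : Fin m → k} (h : φ ⬝ᵥ v = 0) (c : k) : el h c ∈ RR h := ⟨c, rfl⟩

lemma RR_congr {v φ v' φ' : Fin m → k} {h : φ ⬝ᵥ v = 0} {h' : φ' ⬝ᵥ v' = 0} (e1 : v = v') (e2 : φ = φ') :
    RR h = RR h' := by
  subst e1 e2; rfl

lemma RR_comm {v φ : Fin m → k} (h : φ ⬝ᵥ v = 0) : IsMulCommutative (RR h) := by
  refine ⟨⟨?_⟩⟩
  rintro ⟨_, a, rfl⟩ ⟨_, b, rfl⟩
  apply Subtype.ext
  show el h a * el h b = el h b * el h a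
  rw [el_mul, el_mul, add_comm]

lemma RR_ne_bot {v φ : Fin m → k} (h : φ ⬝ᵥ v = 0) (hv : v ≠ 0) (hφ : φ ≠ 0) : RR h ≠ ⊥ := by
  intro e
  have h1 : el h 1 ∈ RR h := el_mem h 1
  rw [e, Subgroup.mem_bot, el_eq_one_iff h hv hφ] at h1
  exact one_ne_zero h1

lemma el_smul {v φ : Fin m → k} (h : φ ⬝ᵥ v = 0) (α β : k) (h' : (β • φ) ⬝ᵥ (α • v) = 0) (c : k) :
    el h' c = el h (c * (α * β)) := by
  apply sl_ext
  simp only [el_coe]
  congr 1
  rw [vecMulVec_smul, smul_vecMulVec, smul_smul, smul_smul]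
  congr 1
  ring

lemma RR_smul {v φ : Fin m → k} (h : φ ⬝ᵥ v = 0) {α β : k} (hα : α ≠ 0) (hβ : β ≠ 0)
    (h' : (β • φ) ⬝ᵥ (α • v) = 0) : RR h' = RR h := by
  ext t
  constructor
  · rintro ⟨c, rfl⟩
    exact ⟨c * (α * β), (el_smul h α β h' c).symm⟩
  · rintro ⟨c, rfl⟩
    refine ⟨c * (α * β)⁻¹, ?_⟩
    rw [el_smul h α β h']
    congr 1
    field_simp

lemma conj_el (g : SpecialLinearGroup (Fin m) k) {v φ : Fin m → k} (h : φ ⬝ᵥ v = 0)
    (h' : (φ ᵥ* ((g⁻¹ : SpecialLinearGroup (Fin m) k) : Matrix (Fin m) (Fin m) k)) ⬝ᵥ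
      ((g : Matrix (Fin m) (Fin m) k) *ᵥ v) = 0) (c : k) :
    g * el h c * g⁻¹ = el h' c := by
  apply sl_ext
  simp only [Matrix.SpecialLinearGroup.coe_mul, el_coe]
  rw [mul_add, add_mul, mul_one, coe_mul_inv, Matrix.mul_smul, Matrix.smul_mul, mul_vecMulVec, vecMulVec_mul]

lemma conjBy_RR (g : SpecialLinearGroup (Fin m) k) {v φ : Fin m → k} (h : φ ⬝ᵥ v = 0)
    (h' : (φ ᵥ* ((g⁻¹ : SpecialLinearGroup (Fin m) k) : Matrix (Fin m) (Fin m) k)) ⬝ᵥ
      ((g : Matrix (Fin m) (Fin m) k) *ᵥ v) = 0) :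
    conjBy (RR h) g = RR h' := by
  ext t
  constructor
  · rintro ⟨_, ⟨c, rfl⟩, rfl⟩
    exact ⟨c, (conj_el g h h' c).symm⟩
  · rintro ⟨c, rfl⟩
    exact ⟨el h c, el_mem h c, conj_el g h h' c⟩

lemma el_mulVec {v φ : Fin m → k} (h : φ ⬝ᵥ v = 0) (c : k) (x : Fin m → k) :
    ((el h c : SpecialLinearGroup (Fin m) k) : Matrix (Fin m) (Fin m) k) *ᵥ x = x + (c * (φ ⬝ᵥ x)) • v := by
  rw [el, Tv_mulVec, smul_dotProduct, smul_eq_mul]

lemma vecMul_el {v φ : Fin m → k} (h : φ ⬝ᵥ v = 0) (c : k) (x : Fin m → k) :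
    x ᵥ* ((el h c : SpecialLinearGroup (Fin m) k) : Matrix (Fin m) (Fin m) k) = x + (c * (x ⬝ᵥ v)) • φ := by
  rw [el, vecMul_Tv, smul_smul, mul_comm]

/-- Elements commute when both pairings vanish. -/
lemma el_comm {v φ w ψ : Fin m → k} (h : φ ⬝ᵥ v = 0) (h' : ψ ⬝ᵥ w = 0) (hp : φ ⬝ᵥ w = 0) (hq : ψ ⬝ᵥ v = 0)
    (a b : k) : el h a * el h' b = el h' b * el h a := by
  apply sl_ext
  simp only [Matrix.SpecialLinearGroup.coe_mul, el_coe]
  have e1 : (a • vecMulVec v φ) * (b • vecMulVec w ψ) = 0 := by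
    rw [smul_mul_smul_comm, vmv_mul, hp, zero_smul, smul_zero]
  have e2 : (b • vecMulVec w ψ) * (a • vecMulVec v φ) = 0 := by
    rw [smul_mul_smul_comm, vmv_mul, hq, zero_smul, smul_zero]
  simp only [mul_add, add_mul, one_mul, mul_one, e1, e2, add_zero]
  abel

lemma RR_commute {v φ w ψ : Fin m → k} (h : φ ⬝ᵥ v = 0) (h' : ψ ⬝ᵥ w = 0) (hp : φ ⬝ᵥ w = 0) (hq : ψ ⬝ᵥ v = 0) :
    ∀ a ∈ RR h, ∀ b ∈ RR h', a * b = b * a := by
  rintro _ ⟨a, rfl⟩ _ ⟨b, rfl⟩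
  exact el_comm h h' hp hq a b

/-- The commutator when `ψ v = 0`. -/
lemma el_commutator {v φ w ψ : Fin m → k} (h : φ ⬝ᵥ v = 0) (h' : ψ ⬝ᵥ w = 0) (hq : ψ ⬝ᵥ v = 0) (s t : k) :
    el h s * el h' t * (el h s)⁻¹ * (el h' t)⁻¹ = el hq (s * t * (φ ⬝ᵥ w)) := by
  have h0 : (t • ψ) ⬝ᵥ v = 0 := by rw [smul_dotProduct, hq, smul_zero]
  have h'' : (((s • φ) ⬝ᵥ w) • (t • ψ)) ⬝ᵥ v = 0 := by
    rw [smul_dotProduct, h0, smul_zero]
  have := Tv_comm v w (s • φ) (t • ψ) (by rw [smul_dotProduct, h, smul_zero])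
    (by rw [smul_dotProduct, h', smul_zero]) h0 h''
  unfold el
  rw [this]
  apply sl_ext
  simp only [Tv_coe]
  congr 2
  rw [smul_dotProduct, smul_smul, smul_eq_mul]
  congr 1
  ring

/-! ### the family of all root groups -/

/-- All point-hyperplane transvection subgroups. -/
def fam (k : Type*) [Field k] (m : ℕ) : Set (Subgroup (SpecialLinearGroup (Fin m) k)) :=
  {A | ∃ (v φ : Fin m → k) (h : φ ⬝ᵥ v = 0), v ≠ 0 ∧ φ ≠ 0 ∧ A = RR h}

lemma RR_mem_fam {v φ : Fin m → k} (h : φ ⬝ᵥ v = 0) (hv : v ≠ 0) (hφ : φ ≠ 0) : RR h ∈ fam k m :=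
  ⟨v, φ, h, hv, hφ, rfl⟩

lemma mulVec_ne_zero' (g : SpecialLinearGroup (Fin m) k) {v : Fin m → k} (hv : v ≠ 0) :
    (g : Matrix (Fin m) (Fin m) k) *ᵥ v ≠ 0 := by
  intro e
  apply hv
  have := congrArg (fun x => ((g⁻¹ : SpecialLinearGroup (Fin m) k) : Matrix (Fin m) (Fin m) k) *ᵥ x) e
  rwa [mulVec_mulVec, coe_inv_mul, one_mulVec, mulVec_zero] at this

lemma vecMul_ne_zero' (g : SpecialLinearGroup (Fin m) k) {φ : Fin m → k} (hφ : φ ≠ 0) :
    φ ᵥ* (g : Matrix (Fin m) (Fin m) k) ≠ 0 := by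
  intro e
  apply hφ
  have := congrArg (fun x => x ᵥ* ((g⁻¹ : SpecialLinearGroup (Fin m) k) : Matrix (Fin m) (Fin m) k)) e
  rwa [vecMul_vecMul, coe_mul_inv, vecMul_one, zero_vecMul] at this

lemma conjBy_mem_fam {A : Subgroup (SpecialLinearGroup (Fin m) k)} (hA : A ∈ fam k m)
    (g : SpecialLinearGroup (Fin m) k) : conjBy A g ∈ fam k m := by
  obtain ⟨v, φ, h, hv, hφ, rfl⟩ := hA
  have h' : (φ ᵥ* ((g⁻¹ : SpecialLinearGroup (Fin m) k) : Matrix (Fin m) (Fin m) k)) ⬝ᵥ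
      ((g : Matrix (Fin m) (Fin m) k) *ᵥ v) = 0 := by rw [dot_conj]; exact h
  rw [conjBy_RR g h h']
  exact RR_mem_fam h' (mulVec_ne_zero' g hv) (vecMul_ne_zero' _ hφ)

/-- Transitivity of `SL` on incident pairs. -/
theorem exists_SL_pair (hm : 3 ≤ m) {v φ w ψ : Fin m → k} (h : φ ⬝ᵥ v = 0) (h' : ψ ⬝ᵥ w = 0)
    (hv : v ≠ 0) (hφ : φ ≠ 0) (hw : w ≠ 0) (hψ : ψ ≠ 0) :
    ∃ g : SpecialLinearGroup (Fin m) k, (g : Matrix (Fin m) (Fin m) k) *ᵥ v = w ∧
      φ ᵥ* ((g⁻¹ : SpecialLinearGroup (Fin m) k) : Matrix (Fin m) (Fin m) k) = ψ := by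
  open Cfsg.Agent.Lib.Known3.TransvPair in
  obtain ⟨g, hg1, hg2, hg3⟩ := exists_equiv_pair_det (F := k) (V := Fin m → k) hv hw
    (dotF_ne_zero hφ) (dotF_ne_zero hψ) h h' (by simpa using hm) (one_ne_zero)
  let M : Matrix (Fin m) (Fin m) k := LinearMap.toMatrix' (g : (Fin m → k) →ₗ[k] (Fin m → k))
  have hdet : M.det = 1 := by
    simp only [M]
    rw [LinearMap.det_toMatrix', hg3]
  have hMx : ∀ x, M *ᵥ x = g x := fun x => by
    simp only [M]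
    rw [LinearMap.toMatrix'_mulVec]
    rfl
  let G : SpecialLinearGroup (Fin m) k := ⟨M, hdet⟩
  have hGcoe : (G : Matrix (Fin m) (Fin m) k) = M := rfl
  refine ⟨G, ?_, ?_⟩
  · rw [hGcoe, hMx, hg1]
  · have h1 : ψ ᵥ* M = φ := by
      apply dotProduct_eq
      intro x
      rw [← dotProduct_mulVec, hMx]
      have := hg2 x
      simpa [dotF_apply] using this
    rw [← h1, vecMul_vecMul, ← hGcoe, coe_mul_inv, vecMul_one]

/-! ### rank one pairs -/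

section pair

variable {v φ w ψ : Fin m → k} (h : φ ⬝ᵥ v = 0) (h' : ψ ⬝ᵥ w = 0)

include h h' in
lemma rank_cond (hv : v ≠ 0) (hφ : φ ≠ 0) (hp : φ ⬝ᵥ w ≠ 0) (hq : ψ ⬝ᵥ v ≠ 0) (hw : w ≠ 0) (hψ : ψ ≠ 0) :
    RankOneCondition (RR h) (RR h') := by
  rintro _ ⟨s, rfl⟩ ha1
  have hs : s ≠ 0 := by
    rintro rfl
    exact ha1 (el_zero h)
  set p := φ ⬝ᵥ w with hpdef
  set q := ψ ⬝ᵥ v with hqdef
  set t : k := (s * p * q)⁻¹ with ht
  have ht0 : t ≠ 0 := inv_ne_zero (mul_ne_zero (mul_ne_zero hs hp) hq)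
  have hts : t * s * p * q = 1 := by
    rw [ht]; field_simp
  refine ⟨el h' t, el_mem h' t, ?_, ?_⟩
  · rw [Ne, el_eq_one_iff h' hw hψ]; exact ht0
  · -- first conjugate
    have e1 : ((el h' t)⁻¹ : SpecialLinearGroup (Fin m) k) = el h' (-t) := el_inv h' t
    have e2 : ((el h s)⁻¹ : SpecialLinearGroup (Fin m) k) = el h (-s) := el_inv h s
    have d1 : (φ ᵥ* (((el h' t)⁻¹ : SpecialLinearGroup (Fin m) k)⁻¹ : SpecialLinearGroup (Fin m) k).1) ⬝ᵥ
        (((el h' t)⁻¹ : SpecialLinearGroup (Fin m) k).1 *ᵥ v) = 0 := by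
      rw [dot_conj]; exact h
    have d2 : (ψ ᵥ* (((el h s)⁻¹ : SpecialLinearGroup (Fin m) k)⁻¹ : SpecialLinearGroup (Fin m) k).1) ⬝ᵥ
        (((el h s)⁻¹ : SpecialLinearGroup (Fin m) k).1 *ᵥ w) = 0 := by
      rw [dot_conj]; exact h'
    rw [conjBy_RR _ h d1, conjBy_RR _ h' d2]
    have f1 : ((el h' t)⁻¹ : SpecialLinearGroup (Fin m) k).1 *ᵥ v = v + (-t * q) • w := by
      rw [e1]; exact el_mulVec h' (-t) v
    have f2 : φ ᵥ* (((el h' t)⁻¹ : SpecialLinearGroup (Fin m) k)⁻¹ : SpecialLinearGroup (Fin m) k).1 =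
        φ + (t * p) • ψ := by
      rw [inv_inv]; exact vecMul_el h' t φ
    have f3 : ((el h s)⁻¹ : SpecialLinearGroup (Fin m) k).1 *ᵥ w = w + (-s * p) • v := by
      rw [e2]; exact el_mulVec h (-s) w
    have f4 : ψ ᵥ* (((el h s)⁻¹ : SpecialLinearGroup (Fin m) k)⁻¹ : SpecialLinearGroup (Fin m) k).1 =
        ψ + (s * q) • φ := by
      rw [inv_inv]; exact vecMul_el h s ψ
    have hX : v + (-t * q) • w = (-t * q) • (w + (-s * p) • v) := by
      rw [smul_add, smul_smul, add_comm]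
      have : -t * q * (-s * p) = 1 := by linear_combination hts
      rw [this, one_smul]
    have hΦ : φ + (t * p) • ψ = (t * p) • (ψ + (s * q) • φ) := by
      rw [smul_add, smul_smul, add_comm]
      have : t * p * (s * q) = 1 := by linear_combination hts
      rw [this, one_smul]
    have d3 : (ψ + (s * q) • φ) ⬝ᵥ (w + (-s * p) • v) = 0 := by
      rw [← f3, ← f4]; exact d2
    have d4 : ((t * p) • (ψ + (s * q) • φ)) ⬝ᵥ ((-t * q) • (w + (-s * p) • v)) = 0 := by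
      rw [smul_dotProduct, dotProduct_smul, d3]; simp
    calc RR d1 = RR d4 := RR_congr (f1.trans hX) (f2.trans hΦ)
      _ = RR d3 := RR_smul d3 (mul_ne_zero (neg_ne_zero.mpr ht0) hq) (mul_ne_zero ht0 hp) d4
      _ = RR d2 := RR_congr f3.symm f4.symm

include h h' in
lemma RR_ne (hv : v ≠ 0) (hφ : φ ≠ 0) (hq : ψ ⬝ᵥ v ≠ 0) (hw : w ≠ 0) : RR h ≠ RR h' := by
  intro e
  have h1 : el h' 1 ∈ RR h := by rw [e]; exact el_mem h' 1
  obtain ⟨c, hc⟩ := h1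
  have h2 := congrArg (fun t : SpecialLinearGroup (Fin m) k => (t : Matrix (Fin m) (Fin m) k) *ᵥ v) hc
  simp only [el_mulVec, h, mul_zero, zero_smul, add_zero] at h2
  have h3 : (1 * (ψ ⬝ᵥ v)) • w = 0 := by
    have := h2
    rw [eq_comm, add_eq_left] at this
    exact this
  rw [one_mul] at h3
  exact hw ((smul_eq_zero.mp h3).resolve_left hq)

include h h' in
/-- Both pairings nonzero: rank one pair. -/
theorem isRankOnePair_RR (hv : v ≠ 0) (hφ : φ ≠ 0) (hp : φ ⬝ᵥ w ≠ 0) (hq : ψ ⬝ᵥ v ≠ 0) (hw : w ≠ 0) (hψ : ψ ≠ 0) :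
    IsRankOnePair (RR h) (RR h') where
  ne := RR_ne h h' hv hφ hq hw
  nilpotent_left := SL2Pair.isNilpotent_of_comm (RR_comm h)
  nilpotent_right := SL2Pair.isNilpotent_of_comm (RR_comm h')
  cond_left := rank_cond h h' hv hφ hp hq hw hψ
  cond_right := rank_cond h' h hw hψ hq hp hv hφ

include h h' in
/-- `ψ v = 0`, `φ w ≠ 0`: the commutator case. -/
theorem commCase_RR (hq : ψ ⬝ᵥ v = 0) (hv : v ≠ 0) (hφ : φ ≠ 0) (hp : φ ⬝ᵥ w ≠ 0) (hw : w ≠ 0) (hψ : ψ ≠ 0) :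
    RootCommutatorCase (fam k m) (RR h) (RR h') := by
  have hcomm : ∀ s t : k, ⁅el h s, el h' t⁆ = el hq (s * t * (φ ⬝ᵥ w)) := by
    intro s t
    rw [commutatorElement_def]
    exact el_commutator h h' hq s t
  have hle : ⁅RR h, RR h'⁆ ≤ RR hq := by
    rw [Subgroup.commutator_le]
    rintro _ ⟨s, rfl⟩ _ ⟨t, rfl⟩
    rw [hcomm]
    exact el_mem hq _
  have hC : ⁅RR h, RR h'⁆ = RR hq := by
    apply le_antisymm hle
    rintro _ ⟨c, rfl⟩
    have : el hq c = ⁅el h (c * (φ ⬝ᵥ w)⁻¹), el h' 1⁆ := by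
      rw [hcomm]
      congr 1
      field_simp
    rw [this]
    exact Subgroup.commutator_mem_commutator (el_mem h _) (el_mem h' _)
  have hne : ∀ s : k, el h s ≠ 1 → s ≠ 0 := by
    rintro s hs rfl
    exact hs (el_zero h)
  have hne' : ∀ s : k, el h' s ≠ 1 → s ≠ 0 := by
    rintro s hs rfl
    exact hs (el_zero h')
  refine ⟨?_, ?_, ?_, ?_⟩
  · rw [hC]; exact RR_mem_fam hq hv hψ
  · -- central
    rw [hC]
    intro c hc x hx
    have hle2 : RR h ⊔ RR h' ≤ Subgroup.centralizer ((RR hq : Subgroup _) : Set (SpecialLinearGroup (Fin m) k)) := by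
      apply sup_le
      · intro a ha
        rw [Subgroup.mem_centralizer_iff]
        intro c' hc'
        exact RR_commute hq h hq h c' hc' a ha
      · intro b hb
        rw [Subgroup.mem_centralizer_iff]
        intro c' hc'
        exact RR_commute hq h' h' hq c' hc' b hb
    have := hle2 hx
    rw [Subgroup.mem_centralizer_iff] at this
    exact (this c hc)
  · rintro _ ⟨s, rfl⟩ hs
    have hs0 := hne s hs
    apply le_antisymm
    · rw [Subgroup.closure_le]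
      rintro _ ⟨b, hb, rfl⟩
      exact Subgroup.commutator_mem_commutator (el_mem h s) hb
    · rw [hC]
      rintro _ ⟨c, rfl⟩
      apply Subgroup.subset_closure
      refine ⟨el h' (c * (s * (φ ⬝ᵥ w))⁻¹), el_mem h' _, ?_⟩
      have := el_commutator h h' hq s (c * (s * (φ ⬝ᵥ w))⁻¹)
      simp only
      rw [this]
      congr 1
      field_simp
  · rintro _ ⟨t, rfl⟩ ht
    have ht0 := hne' t ht
    apply le_antisymm
    · rw [Subgroup.closure_le]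
      rintro _ ⟨a, ha, rfl⟩
      exact Subgroup.commutator_mem_commutator ha (el_mem h' t)
    · rw [hC]
      rintro _ ⟨c, rfl⟩
      apply Subgroup.subset_closure
      refine ⟨el h (c * (t * (φ ⬝ᵥ w))⁻¹), el_mem h _, ?_⟩
      have := el_commutator h h' hq (c * (t * (φ ⬝ᵥ w))⁻¹) t
      simp only
      rw [this]
      congr 1
      field_simp

include h h' in
/-- The trichotomy. -/
theorem pair_RR (hv : v ≠ 0) (hφ : φ ≠ 0) (hw : w ≠ 0) (hψ : ψ ≠ 0) :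
    ⁅RR h, RR h'⁆ = ⊥ ∨ IsRankOnePair (RR h) (RR h') ∨ RootCommutatorCase (fam k m) (RR h) (RR h') := by
  by_cases hp : φ ⬝ᵥ w = 0
  · by_cases hq : ψ ⬝ᵥ v = 0
    · left
      exact commutator_eq_bot_of_commute (RR_commute h h' hp hq)
    · right; right
      exact RootCommutatorCase.symm' (commCase_RR h' h hp hw hψ hq hv hφ)
  · by_cases hq : ψ ⬝ᵥ v = 0
    · right; right
      exact commCase_RR h h' hq hv hφ hp hw hψ
    · right; left
      exact isRankOnePair_RR h h' hv hφ hp hq hw hψ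

end pair

end Cfsg.Agent.Lib.RootSubgroups.SLRoot
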