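import Mathlib
import Cfsg.Agent.Lib.RootSubgroups.SLRoot
import Cfsg.Agent.Lib.Classical.Transvection

/-!
The family of point-hyperplane transvection groups of `SL_m(k)`, `m ≥ 3`: a non-degenerate class of
`k`-root subgroups with connected graph of rank one pairs.
-/

set_option autoImplicit false

namespace Cfsg.Agent.Lib.RootSubgroups.SLRoot

open Matrix Module Cfsg Cfsg.Agent.Lib.KS2.Reg Cfsg.Agent.Lib.RootSubgroups.SL2Pair
open scoped MatrixGroups commutatorElement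

variable {k : Type*} [Field k] {m : ℕ}

lemma single_dot_single {i j : Fin m} (hij : i ≠ j) :
    (Pi.single j (1 : k) : Fin m → k) ⬝ᵥ (Pi.single i (1 : k)) = 0 := by
  simp [dotProduct, Pi.single_apply, hij]

lemma transvection_eq_el {i j : Fin m} (hij : i ≠ j) (a : k) :
    (Matrix.SpecialLinearGroup.transvection hij a : SpecialLinearGroup (Fin m) k) =
      el (single_dot_single hij) a := by
  apply sl_ext
  rw [el_coe, Matrix.SpecialLinearGroup.transvection_coe]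
  show 1 + _ = _
  congr 1
  ext x y
  simp only [Matrix.single_apply, Matrix.smul_apply, vecMulVec_apply, Pi.single_apply, smul_eq_mul]
  by_cases h1 : i = x
  · subst h1
    by_cases h2 : j = y
    · subst h2; simp
    · have h3 : y ≠ j := Ne.symm h2
      simp [h2, h3]
  · have h3 : x ≠ i := Ne.symm h1
    simp [h1, h3]

lemma single_ne_zero' (i : Fin m) : (Pi.single i (1 : k) : Fin m → k) ≠ 0 := by
  intro h
  have := congrFun h i
  simp at this

theorem iSup_fam (hm : 2 ≤ m) : (⨆ A ∈ fam k m, A) = ⊤ := by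
  haveI : Nontrivial (Fin m) := Fin.nontrivial_iff_two_le.mpr hm
  rw [eq_top_iff, ← Cfsg.Agent.Lib.Classical.closure_transvections, Subgroup.closure_le]
  rintro _ ⟨i, j, hij, a, rfl⟩
  rw [transvection_eq_el]
  have hA := RR_mem_fam (single_dot_single (k := k) hij) (single_ne_zero' i) (single_ne_zero' j)
  exact Subgroup.mem_iSup_of_mem _ (Subgroup.mem_iSup_of_mem hA (el_mem _ a))

theorem isRootSubgroupSet_fam (hm : 2 ≤ m) : IsRootSubgroupSet (fam k m) where
  commutative := by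
    rintro _ ⟨v, φ, h, -, -, rfl⟩
    exact RR_comm h
  ne_bot := by
    rintro _ ⟨v, φ, h, hv, hφ, rfl⟩
    exact RR_ne_bot h hv hφ
  generates := iSup_fam hm
  conj_mem := fun _ hA g => conjBy_mem_fam hA g
  pair := by
    rintro _ ⟨v, φ, h, hv, hφ, rfl⟩ _ ⟨w, ψ, h', hw, hψ, rfl⟩
    exact pair_RR h h' hv hφ hw hψ

theorem conjClass_fam (hm : 3 ≤ m) : IsConjClassOfSubgroups (fam k m) := by
  constructor
  · have h01 : (⟨0, by omega⟩ : Fin m) ≠ ⟨1, by omega⟩ := by simp [Fin.ext_iff]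
    exact ⟨_, RR_mem_fam (single_dot_single (k := k) h01) (single_ne_zero' _) (single_ne_zero' _)⟩
  · rintro _ ⟨v, φ, h, hv, hφ, rfl⟩ _ ⟨w, ψ, h', hw, hψ, rfl⟩
    obtain ⟨g, hg1, hg2⟩ := exists_SL_pair hm h h' hv hφ hw hψ
    refine ⟨g, ?_⟩
    have d : (φ ᵥ* ((g⁻¹ : SpecialLinearGroup (Fin m) k) : Matrix (Fin m) (Fin m) k)) ⬝ᵥ
      ((g : Matrix (Fin m) (Fin m) k) *ᵥ v) = 0 := by rw [dot_conj]; exact h
    rw [conjBy_RR g h d]
    exact RR_congr hg1.symm hg2.symm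

theorem nondeg_fam (hm : 3 ≤ m) : IsNondegenerateRootSet (fam k m) := by
  let i0 : Fin m := ⟨0, by omega⟩
  let i1 : Fin m := ⟨1, by omega⟩
  let i2 : Fin m := ⟨2, by omega⟩
  have h01 : i0 ≠ i1 := by simp [i0, i1, Fin.ext_iff]
  have h02 : i0 ≠ i2 := by simp [i0, i2, Fin.ext_iff]
  have h12 : i1 ≠ i2 := by simp [i1, i2, Fin.ext_iff]
  have hne := fun i : Fin m => single_ne_zero' (k := k) i
  refine ⟨?_, ?_, ?_⟩
  · have a1 := single_dot_single (k := k) h01
    have a2 := single_dot_single (k := k) h02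
    refine ⟨_, RR_mem_fam a1 (hne _) (hne _), _, RR_mem_fam a2 (hne _) (hne _), ?_, ?_⟩
    · intro e
      have h1 : el a2 1 ∈ RR a1 := by rw [e]; exact el_mem a2 1
      obtain ⟨c, hc⟩ := h1
      have h2 := congrArg (fun t : SpecialLinearGroup (Fin m) k => (t : Matrix (Fin m) (Fin m) k) *ᵥ Pi.single i2 1) hc
      simp only [el_mulVec] at h2
      have h3 := congrFun h2 i0
      simp [dotProduct, Pi.single_apply, h01, h12, h02, h12.symm, h02.symm, h01.symm] at h3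
    · exact commutator_eq_bot_of_commute (RR_commute a1 a2 a1 a2)
  · have a1 := single_dot_single (k := k) h01
    have a2 := single_dot_single (k := k) h01.symm
    refine ⟨_, RR_mem_fam a1 (hne _) (hne _), _, RR_mem_fam a2 (hne _) (hne _), ?_⟩
    exact isRankOnePair_RR a1 a2 (hne _) (hne _) (by simp [dotProduct, Pi.single_apply])
      (by simp [dotProduct, Pi.single_apply]) (hne _) (hne _)
  · -- `U(e₀, e₁)` and `U(e₁, e₂)`: the second form vanishes on the first centre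
    have a1 := single_dot_single (k := k) h01
    have a2 := single_dot_single (k := k) h12
    refine ⟨_, RR_mem_fam a1 (hne _) (hne _), _, RR_mem_fam a2 (hne _) (hne _), ?_⟩
    exact commCase_RR a1 a2 (by simp [dotProduct, Pi.single_apply, h01, h12, h02, h12.symm, h02.symm, h01.symm])
      (hne _) (hne _) (by simp [dotProduct, Pi.single_apply]) (hne _) (hne _)

/-! ### images of `SL₂` -/

lemma psi_aux (U : Matrix (Fin m) (Fin 2) k) (F : Matrix (Fin 2) (Fin m) k) (hFU : F * U = 1)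
    (M N : Matrix (Fin 2) (Fin 2) k) :
    1 + U * (M * N - 1) * F = (1 + U * (M - 1) * F) * (1 + U * (N - 1) * F) := by
  set X := M - 1 with hX
  set Y := N - 1 with hY
  have hM : M = 1 + X := by rw [hX]; abel
  have hN : N = 1 + Y := by rw [hY]; abel
  have e : M * N - 1 = X + Y + X * Y := by
    rw [hM, hN]; noncomm_ring
  have e2 : U * X * F * (U * Y * F) = U * (X * Y) * F := by
    calc U * X * F * (U * Y * F) = U * X * (F * U) * Y * F := by simp only [Matrix.mul_assoc]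
      _ = U * (X * Y) * F := by rw [hFU, Matrix.mul_one]; simp only [Matrix.mul_assoc]
  rw [e, Matrix.mul_add, Matrix.mul_add, Matrix.add_mul, Matrix.add_mul, Matrix.mul_add, Matrix.mul_one,
    Matrix.add_mul, Matrix.one_mul, e2]
  abel

/-- The homomorphism attached to `U`, `F` with `F U = 1`. -/
def psi (U : Matrix (Fin m) (Fin 2) k) (F : Matrix (Fin 2) (Fin m) k) (hFU : F * U = 1) :
    SpecialLinearGroup (Fin 2) k →* SpecialLinearGroup (Fin m) k :=
  MonoidHom.mk' (fun M => ⟨1 + U * ((M : Matrix (Fin 2) (Fin 2) k) - 1) * F, by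
    rw [Matrix.mul_assoc, Matrix.det_one_add_mul_comm, Matrix.mul_assoc, hFU, Matrix.mul_one, add_sub_cancel]
    exact M.2⟩) (by
    intro M N
    apply sl_ext
    exact psi_aux U F hFU _ _)

lemma psi_coe (U : Matrix (Fin m) (Fin 2) k) (F : Matrix (Fin 2) (Fin m) k) (hFU : F * U = 1)
    (M : SpecialLinearGroup (Fin 2) k) :
    ((psi U F hFU M : SpecialLinearGroup (Fin m) k) : Matrix (Fin m) (Fin m) k) =
      1 + U * ((M : Matrix (Fin 2) (Fin 2) k) - 1) * F := rfl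

lemma psi_injective (U : Matrix (Fin m) (Fin 2) k) (F : Matrix (Fin 2) (Fin m) k) (hFU : F * U = 1) :
    Function.Injective (psi U F hFU) := by
  rw [injective_iff_map_eq_one]
  intro M hM
  have h1 := congrArg (fun t : SpecialLinearGroup (Fin m) k => (t : Matrix (Fin m) (Fin m) k)) hM
  simp only [psi_coe, Matrix.SpecialLinearGroup.coe_one, add_eq_left] at h1
  have h2 : F * (U * ((M : Matrix (Fin 2) (Fin 2) k) - 1) * F) * U = 0 := by
    rw [h1]; simp
  have h3 : F * (U * ((M : Matrix (Fin 2) (Fin 2) k) - 1) * F) * U = (F * U) * ((M : Matrix (Fin 2) (Fin 2) k) - 1) * (F * U) := by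
    simp only [Matrix.mul_assoc]
  rw [h3, hFU, Matrix.one_mul, Matrix.mul_one, sub_eq_zero] at h2
  exact sl_ext h2

/-- The matrix with the columns `v`, `w`. -/
def UU (v w : Fin m → k) : Matrix (Fin m) (Fin 2) k := Matrix.of fun i j => if j = 0 then v i else w i

/-- The matrix with the rows `f₀`, `f₁`. -/
def FF (f₀ f₁ : Fin m → k) : Matrix (Fin 2) (Fin m) k := Matrix.of fun i j => if i = 0 then f₀ j else f₁ j

lemma FF_mul_UU {v w f₀ f₁ : Fin m → k} (h00 : f₀ ⬝ᵥ v = 1) (h01 : f₀ ⬝ᵥ w = 0) (h10 : f₁ ⬝ᵥ v = 0)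
    (h11 : f₁ ⬝ᵥ w = 1) : FF f₀ f₁ * UU v w = 1 := by
  ext i j
  rw [Matrix.mul_apply]
  fin_cases i <;> fin_cases j
  · simpa [FF, UU, dotProduct] using h00
  · simpa [FF, UU, dotProduct] using h01
  · simpa [FF, UU, dotProduct] using h10
  · simpa [FF, UU, dotProduct] using h11

lemma UU_mul_FF_apply (v w f₀ f₁ : Fin m → k) (X : Matrix (Fin 2) (Fin 2) k) (i j : Fin m) :
    (UU v w * X * FF f₀ f₁) i j =
      v i * X 0 0 * f₀ j + v i * X 0 1 * f₁ j + w i * X 1 0 * f₀ j + w i * X 1 1 * f₁ j := by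
  simp only [Matrix.mul_apply, Fin.sum_univ_two, UU, FF, Matrix.of_apply]
  simp
  ring

section
variable {v φ w ψ : Fin m → k} (h : φ ⬝ᵥ v = 0) (h' : ψ ⬝ᵥ w = 0)

include h h' in
/-- The rank one pairs are images of `SL₂(k)`. -/
theorem isPSL2_RR (hp : φ ⬝ᵥ w ≠ 0) (hq : ψ ⬝ᵥ v ≠ 0) : IsPSL2PairOver k (RR h) (RR h') := by
  set p := φ ⬝ᵥ w with hpd
  set q := ψ ⬝ᵥ v with hqd
  have hFU : FF (q⁻¹ • ψ) (p⁻¹ • φ) * UU v w = 1 := by
    apply FF_mul_UU
    · rw [smul_dotProduct, ← hqd, smul_eq_mul, inv_mul_cancel₀ hq]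
    · rw [smul_dotProduct, h', smul_zero]
    · rw [smul_dotProduct, h, smul_zero]
    · rw [smul_dotProduct, ← hpd, smul_eq_mul, inv_mul_cancel₀ hp]
  set Φ := psi (UU v w) (FF (q⁻¹ • ψ) (p⁻¹ • φ)) hFU with hΦ
  have hup : ∀ t : k, Φ (up t) = el h (t * p⁻¹) := by
    intro t
    apply sl_ext
    rw [hΦ, psi_coe, el_coe]
    congr 1
    ext i j
    rw [UU_mul_FF_apply]
    simp only [Matrix.sub_apply, up00, up01, up10, up11, Matrix.one_apply_eq, Matrix.smul_apply, Pi.smul_apply,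
      vecMulVec_apply, smul_eq_mul, sub_self, mul_zero, zero_mul, add_zero, zero_add]
    have e1 : (1 : Matrix (Fin 2) (Fin 2) k) 0 1 = 0 := by simp
    have e2 : (1 : Matrix (Fin 2) (Fin 2) k) 1 0 = 0 := by simp
    rw [e1, sub_zero]
    simp only [e2, sub_zero, mul_zero, zero_mul, add_zero, zero_add, sub_self]
    ring
  have hlo : ∀ t : k, Φ (lo t) = el h' (t * q⁻¹) := by
    intro t
    apply sl_ext
    rw [hΦ, psi_coe, el_coe]
    congr 1
    ext i j
    rw [UU_mul_FF_apply]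
    simp only [Matrix.sub_apply, lo00, lo01, lo10, lo11, Matrix.one_apply_eq, Matrix.smul_apply, Pi.smul_apply,
      vecMulVec_apply, smul_eq_mul, sub_self, mul_zero, zero_mul, add_zero, zero_add]
    have e1 : (1 : Matrix (Fin 2) (Fin 2) k) 0 1 = 0 := by simp
    have e2 : (1 : Matrix (Fin 2) (Fin 2) k) 1 0 = 0 := by simp
    rw [e2, sub_zero]
    simp only [e1, sub_zero, sub_self, mul_zero, zero_mul, add_zero, zero_add]
    ring
  have hU : (upperUnipotentSL2 k).map Φ = RR h := by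
    ext x
    constructor
    · rintro ⟨g, hg, rfl⟩
      obtain ⟨t, rfl⟩ := mem_upper_iff.mp hg
      rw [hup]
      exact el_mem h _
    · rintro ⟨c, rfl⟩
      refine ⟨up (c * p), mem_upper_iff.mpr ⟨_, rfl⟩, ?_⟩
      rw [hup]
      congr 1
      field_simp
  have hL : (lowerUnipotentSL2 k).map Φ = RR h' := by
    ext x
    constructor
    · rintro ⟨g, hg, rfl⟩
      obtain ⟨t, rfl⟩ := mem_lower_iff.mp hg
      rw [hlo]
      exact el_mem h' _
    · rintro ⟨c, rfl⟩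
      refine ⟨lo (c * q), mem_lower_iff.mpr ⟨_, rfl⟩, ?_⟩
      rw [hlo]
      congr 1
      field_simp
  refine ⟨Φ, ?_, ?_, hU, hL⟩
  · rw [← hU, ← hL, MonoidHom.range_eq_map, ← sup_eq_top, Subgroup.map_sup, sup_comm]
  · rw [(MonoidHom.ker_eq_bot_iff Φ).mpr (psi_injective _ _ _)]
    exact bot_le

end

/-! ### connectivity -/

lemma exists_vec_of_dual (f : Dual k (Fin m → k)) : ∃ θ : Fin m → k, ∀ y, θ ⬝ᵥ y = f y := by
  refine ⟨fun i => f (Pi.single i 1), fun y => ?_⟩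
  have e : y = ∑ i, y i • (Pi.single i 1 : Fin m → k) := by
    ext j
    simp [Finset.sum_apply, Pi.single_apply]
  conv_rhs => rw [e]
  rw [map_sum]
  simp [dotProduct, mul_comm]

lemma exists_dot_of_notMem {x v : Fin m → k} (h : v ∉ Submodule.span k {x}) :
    ∃ θ : Fin m → k, θ ⬝ᵥ x = 0 ∧ θ ⬝ᵥ v ≠ 0 := by
  obtain ⟨f, hf, hf2⟩ := Submodule.exists_dual_map_eq_bot_of_notMem h inferInstance
  obtain ⟨θ, hθ⟩ := exists_vec_of_dual f
  refine ⟨θ, ?_, by rw [hθ]; exact hf⟩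
  rw [hθ]
  have h1 : f x ∈ (Submodule.span k {x}).map f :=
    Submodule.mem_map_of_mem (Submodule.mem_span_singleton_self x)
  rw [hf2] at h1
  exact (Submodule.mem_bot k).mp h1

lemma exists_dot_two {φ ψ : Fin m → k} (hφ : φ ≠ 0) (hψ : ψ ≠ 0) : ∃ x : Fin m → k, φ ⬝ᵥ x ≠ 0 ∧ ψ ⬝ᵥ x ≠ 0 := by
  have key : ∀ χ : Fin m → k, χ ≠ 0 → ∃ u, χ ⬝ᵥ u ≠ 0 := by
    intro χ hχ
    by_contra hcon
    push_neg at hcon
    apply hχ
    funext i
    have := hcon (Pi.single i 1)
    simpa using this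
  obtain ⟨u₁, hu₁⟩ := key φ hφ
  obtain ⟨u₂, hu₂⟩ := key ψ hψ
  by_cases h1 : φ ⬝ᵥ u₂ = 0
  · by_cases h2 : ψ ⬝ᵥ u₁ = 0
    · refine ⟨u₁ + u₂, ?_, ?_⟩
      · rw [dotProduct_add, h1, add_zero]; exact hu₁
      · rw [dotProduct_add, h2, zero_add]; exact hu₂
    · exact ⟨u₁, hu₁, h2⟩
  · exact ⟨u₂, h1, hu₂⟩

theorem connected_fam : IsConnectedFamily (FAdj (fam k m)) (fam k m) := by
  rintro _ ⟨v, φ, h, hv, hφ, rfl⟩ _ ⟨w, ψ, h', hw, hψ, rfl⟩
  obtain ⟨x, hx1, hx2⟩ := exists_dot_two hφ hψ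
  have hx0 : x ≠ 0 := by
    rintro rfl
    simp at hx1
  have hvx : v ∉ Submodule.span k {x} := by
    intro hmem
    obtain ⟨c, rfl⟩ := Submodule.mem_span_singleton.mp hmem
    rw [dotProduct_smul, smul_eq_mul] at h
    have hc : c = 0 := (mul_eq_zero.mp h).resolve_right hx1
    rw [hc, zero_smul] at hv
    exact hv rfl
  have hwx : w ∉ Submodule.span k {x} := by
    intro hmem
    obtain ⟨c, rfl⟩ := Submodule.mem_span_singleton.mp hmem
    rw [dotProduct_smul, smul_eq_mul] at h'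
    have hc : c = 0 := (mul_eq_zero.mp h').resolve_right hx2
    rw [hc, zero_smul] at hw
    exact hw rfl
  obtain ⟨θ₁, h1a, h1b⟩ := exists_dot_of_notMem hvx
  obtain ⟨θ₂, h2a, h2b⟩ := exists_dot_of_notMem hwx
  obtain ⟨θ, hθx, hθv, hθw⟩ : ∃ θ : Fin m → k, θ ⬝ᵥ x = 0 ∧ θ ⬝ᵥ v ≠ 0 ∧ θ ⬝ᵥ w ≠ 0 := by
    by_cases c1 : θ₁ ⬝ᵥ w = 0
    · by_cases c2 : θ₂ ⬝ᵥ v = 0
      · refine ⟨θ₁ + θ₂, ?_, ?_, ?_⟩
        · rw [add_dotProduct, h1a, h2a, add_zero]
        · rw [add_dotProduct, c2, add_zero]; exact h1b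
        · rw [add_dotProduct, c1, zero_add]; exact h2b
      · exact ⟨θ₂, h2a, c2, h2b⟩
    · exact ⟨θ₁, h1a, h1b, c1⟩
  have hθ0 : θ ≠ 0 := by
    rintro rfl
    simp at hθv
  have hAC : FAdj (fam k m) (RR h) (RR hθx) := ⟨RR_mem_fam h hv hφ, RR_mem_fam hθx hx0 hθ0,
    isRankOnePair_RR h hθx hv hφ hx1 hθv hx0 hθ0⟩
  have hCB : FAdj (fam k m) (RR hθx) (RR h') := ⟨RR_mem_fam hθx hx0 hθ0, RR_mem_fam h' hw hψ,
    isRankOnePair_RR hθx h' hx0 hθ0 hθw hx2 hw hψ⟩
  exact Relation.ReflTransGen.tail (Relation.ReflTransGen.single hAC) hCB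

theorem kRoot_fam (hm : 2 ≤ m) : IsKRootSubgroupSet k (fam k m) := by
  refine ⟨isRootSubgroupSet_fam hm, ?_⟩
  rintro _ ⟨v, φ, h, hv, hφ, rfl⟩ _ ⟨w, ψ, h', hw, hψ, rfl⟩ hpair
  have hS := isRootSubgroupSet_fam (k := k) hm
  have hA := RR_mem_fam h hv hφ
  have hB := RR_mem_fam h' hw hψ
  by_cases hp : φ ⬝ᵥ w = 0
  · by_cases hq : ψ ⬝ᵥ v = 0
    · exact absurd (commutator_eq_bot_of_commute (RR_commute h h' hp hq)) (IsRankOnePair.commutator_ne_bot hpair)
    · have hc := RootCommutatorCase.symm' (commCase_RR h' h hp hw hψ hq hv hφ)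
      exact (not_rankOne_of_commutator_mem hS hA hB hpair hc.1).elim
  · by_cases hq : ψ ⬝ᵥ v = 0
    · have hc := commCase_RR h h' hq hv hφ hp hw hψ
      exact (not_rankOne_of_commutator_mem hS hA hB hpair hc.1).elim
    · exact isPSL2_RR h h' hp hq

/-! ### the conjugates of the elementary root group -/

/-- The conjugates of the elementary root group are the family. -/
theorem conj_set_eq (n : ℕ) :
    {A : Subgroup (SpecialLinearGroup (Fin (n + 3)) k) | ∃ g : SpecialLinearGroup (Fin (n + 3)) k,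
      A = conjBy (Subgroup.closure {t : SpecialLinearGroup (Fin (n + 3)) k |
        ∃ c : k, (t : Matrix (Fin (n + 3)) (Fin (n + 3)) k) = Matrix.transvection 0 1 c}) g} = fam k (n + 3) := by
  have h01 : (0 : Fin (n + 3)) ≠ 1 := by simp [Fin.ext_iff]
  have d := single_dot_single (k := k) h01
  have hne0 := single_ne_zero' (k := k) (0 : Fin (n + 3))
  have hne1 := single_ne_zero' (k := k) (1 : Fin (n + 3))
  have h0 : Subgroup.closure {t : SpecialLinearGroup (Fin (n + 3)) k |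
        ∃ c : k, (t : Matrix (Fin (n + 3)) (Fin (n + 3)) k) = Matrix.transvection 0 1 c} = RR d := by
    apply le_antisymm
    · rw [Subgroup.closure_le]
      rintro t ⟨c, hc⟩
      refine ⟨c, ?_⟩
      rw [← transvection_eq_el h01]
      apply sl_ext
      rw [hc, Matrix.SpecialLinearGroup.transvection_coe]
      rfl
    · rintro _ ⟨c, rfl⟩
      apply Subgroup.subset_closure
      refine ⟨c, ?_⟩
      rw [← transvection_eq_el h01, Matrix.SpecialLinearGroup.transvection_coe]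
      rfl
  rw [h0]
  ext A
  constructor
  · rintro ⟨g, rfl⟩
    exact conjBy_mem_fam (RR_mem_fam d hne0 hne1) g
  · rintro ⟨v, φ, h, hv, hφ, rfl⟩
    obtain ⟨g, hg1, hg2⟩ := exists_SL_pair (by omega) d h hne0 hne1 hv hφ
    refine ⟨g, ?_⟩
    have d' : ((Pi.single 1 1 : Fin (n + 3) → k) ᵥ* ((g⁻¹ : SpecialLinearGroup (Fin (n + 3)) k) : Matrix (Fin (n + 3)) (Fin (n + 3)) k)) ⬝ᵥ
      ((g : Matrix (Fin (n + 3)) (Fin (n + 3)) k) *ᵥ (Pi.single 0 1)) = 0 := by rw [dot_conj]; exact d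
    rw [conjBy_RR g d d']
    exact RR_congr hg1.symm hg2.symm

end Cfsg.Agent.Lib.RootSubgroups.SLRoot
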