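import Mathlib
import Cfsg.Agent.Lib.RootSubgroups.SLRoot2

/-!
Transvections of `SL_m(F)`, `F` a finite field of characteristic two: a class of root involutions.
-/

set_option autoImplicit false

namespace Cfsg.Agent.Lib.RootSubgroups.SLRoot

open Matrix Module Cfsg Cfsg.Agent.Lib.KS2.Reg
open scoped MatrixGroups commutatorElement

variable {k : Type*} [Field k] {m : ℕ}

/-- All transvections. -/
def tvSet (k : Type*) [Field k] (m : ℕ) : Set (SpecialLinearGroup (Fin m) k) :=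
  {t | ∃ (v φ : Fin m → k) (h : φ ⬝ᵥ v = 0), v ≠ 0 ∧ φ ≠ 0 ∧ t = el h 1}

lemma el_mem_tvSet {v φ : Fin m → k} (h : φ ⬝ᵥ v = 0) (hv : v ≠ 0) (hφ : φ ≠ 0) {c : k} (hc : c ≠ 0) :
    el h c ∈ tvSet k m := by
  have h' : (c • φ) ⬝ᵥ v = 0 := by rw [smul_dotProduct, h, smul_zero]
  refine ⟨v, c • φ, h', hv, smul_ne_zero hc hφ, ?_⟩
  apply sl_ext
  rw [el_coe, el_coe, vecMulVec_smul, one_smul]

lemma conj_mem_tvSet {t : SpecialLinearGroup (Fin m) k} (ht : t ∈ tvSet k m) (g : SpecialLinearGroup (Fin m) k) :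
    g * t * g⁻¹ ∈ tvSet k m := by
  obtain ⟨v, φ, h, hv, hφ, rfl⟩ := ht
  have h' : (φ ᵥ* ((g⁻¹ : SpecialLinearGroup (Fin m) k) : Matrix (Fin m) (Fin m) k)) ⬝ᵥ
      ((g : Matrix (Fin m) (Fin m) k) *ᵥ v) = 0 := by rw [dot_conj]; exact h
  rw [conj_el g h h' 1]
  exact ⟨_, _, h', mulVec_ne_zero' g hv, vecMul_ne_zero' _ hφ, rfl⟩

theorem tvSet_eq (n : ℕ) :
    {t : SpecialLinearGroup (Fin (n + 3)) k | ∃ c : k, c ≠ 0 ∧
        ∃ g : SpecialLinearGroup (Fin (n + 3)) k, ((g⁻¹ * t * g : SpecialLinearGroup (Fin (n + 3)) k) :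
          Matrix (Fin (n + 3)) (Fin (n + 3)) k) = Matrix.transvection 0 1 c} = tvSet k (n + 3) := by
  have h01 : (0 : Fin (n + 3)) ≠ 1 := by simp [Fin.ext_iff]
  have d := single_dot_single (k := k) h01
  have hne0 := single_ne_zero' (k := k) (0 : Fin (n + 3))
  have hne1 := single_ne_zero' (k := k) (1 : Fin (n + 3))
  have key : ∀ c : k, (Matrix.transvection 0 1 c : Matrix (Fin (n + 3)) (Fin (n + 3)) k) =
      ((el d c : SpecialLinearGroup (Fin (n + 3)) k) : Matrix (Fin (n + 3)) (Fin (n + 3)) k) := by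
    intro c
    rw [← transvection_eq_el h01, Matrix.SpecialLinearGroup.transvection_coe]
    rfl
  ext t
  constructor
  · rintro ⟨c, hc, g, hg⟩
    rw [key] at hg
    have h1 : g⁻¹ * t * g = el d c := sl_ext hg
    have h2 : t = g * el d c * g⁻¹ := by rw [← h1]; group
    rw [h2]
    exact conj_mem_tvSet (el_mem_tvSet d hne0 hne1 hc) g
  · rintro ⟨v, φ, h, hv, hφ, rfl⟩
    obtain ⟨g, hg1, hg2⟩ := exists_SL_pair (by omega) d h hne0 hne1 hv hφ
    refine ⟨1, one_ne_zero, g, ?_⟩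
    rw [key]
    congr 1
    have d' : ((Pi.single 1 1 : Fin (n + 3) → k) ᵥ* ((g⁻¹ : SpecialLinearGroup (Fin (n + 3)) k) : Matrix (Fin (n + 3)) (Fin (n + 3)) k)) ⬝ᵥ
      ((g : Matrix (Fin (n + 3)) (Fin (n + 3)) k) *ᵥ (Pi.single 0 1)) = 0 := by rw [dot_conj]; exact d
    have h3 : el h 1 = g * el d 1 * g⁻¹ := by
      rw [conj_el g d d' 1]
      apply sl_ext
      rw [el_coe, el_coe, hg1, hg2]
    rw [h3]
    simp only [mul_assoc, inv_mul_cancel_left, inv_mul_cancel, mul_one]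
    rfl

section char2

variable [CharP k 2]

lemma el_one_mul_self {v φ : Fin m → k} (h : φ ⬝ᵥ v = 0) : el h 1 * el h 1 = 1 := by
  rw [el_mul, CharTwo.add_self_eq_zero, el_zero]

lemma el_one_inv {v φ : Fin m → k} (h : φ ⬝ᵥ v = 0) : (el h 1)⁻¹ = el h 1 :=
  inv_eq_of_mul_eq_one_left (el_one_mul_self h)

lemma orderOf_tv {t : SpecialLinearGroup (Fin m) k} (ht : t ∈ tvSet k m) : orderOf t = 2 := by
  obtain ⟨v, φ, h, hv, hφ, rfl⟩ := ht
  apply orderOf_eq_prime
  · rw [sq, el_one_mul_self]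
  · rw [Ne, el_eq_one_iff h hv hφ]
    exact one_ne_zero

theorem closure_tvSet (hm : 2 ≤ m) : Subgroup.closure (tvSet k m) = ⊤ := by
  haveI : Nontrivial (Fin m) := Fin.nontrivial_iff_two_le.mpr hm
  rw [eq_top_iff, ← Cfsg.Agent.Lib.Classical.closure_transvections, Subgroup.closure_le]
  rintro _ ⟨i, j, hij, a, rfl⟩
  rw [transvection_eq_el]
  by_cases ha : a = 0
  · rw [ha, el_zero]
    exact Subgroup.one_mem _
  · exact Subgroup.subset_closure (el_mem_tvSet _ (single_ne_zero' i) (single_ne_zero' j) ha)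

variable {v φ w ψ : Fin m → k} (h : φ ⬝ᵥ v = 0) (h' : ψ ⬝ᵥ w = 0)

include h h' in
/-- A product of non-commuting incident transvections has order four. -/
theorem order_four_of_zero (hq : ψ ⬝ᵥ v = 0) (hv : v ≠ 0) (hψ : ψ ≠ 0) (hp : φ ⬝ᵥ w ≠ 0) :
    orderOf (el h 1 * el h' 1) = 4 ∧ (el h 1 * el h' 1) ^ 2 ∈ tvSet k m := by
  haveI : Fact (Nat.Prime 2) := ⟨Nat.prime_two⟩
  have h2 : (el h 1 * el h' 1) ^ 2 = el hq (φ ⬝ᵥ w) := by
    have := el_commutator h h' hq 1 1
    rw [el_one_inv, el_one_inv, one_mul, one_mul] at this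
    rw [← this, sq]
    group
  have hne : el hq (φ ⬝ᵥ w) ≠ 1 := by
    rw [Ne, el_eq_one_iff hq hv hψ]
    exact hp
  refine ⟨?_, ?_⟩
  · have := orderOf_eq_prime_pow (p := 2) (n := 1) (x := el h 1 * el h' 1) (by
      rw [pow_one, h2]; exact hne) (by
      rw [show 2 ^ (1 + 1) = 2 * 2 by norm_num, pow_mul, h2, sq, el_mul, CharTwo.add_self_eq_zero, el_zero])
    rw [this]
    norm_num
  · rw [h2]
    exact el_mem_tvSet hq hv hψ hp

/-- An involution commuting with `1 + v ⊗ φ` fixes `v`. -/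
lemma fixes_center {z : SpecialLinearGroup (Fin m) k} (hz2 : z * z = 1) (hφ : φ ≠ 0)
    (hc : z * el h 1 = el h 1 * z) : (z : Matrix (Fin m) (Fin m) k) *ᵥ v = v := by
  obtain ⟨u, hu⟩ : ∃ u, φ ⬝ᵥ u ≠ 0 := by
    by_contra hcon
    push_neg at hcon
    apply hφ
    funext i
    have := hcon (Pi.single i 1)
    simpa using this
  have h1 := congrArg (fun t : SpecialLinearGroup (Fin m) k => (t : Matrix (Fin m) (Fin m) k) *ᵥ u) hc
  simp only [Matrix.SpecialLinearGroup.coe_mul, ← mulVec_mulVec] at h1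
  rw [el_mulVec, el_mulVec, mulVec_add, mulVec_smul, one_mul, one_mul] at h1
  have h2 : (φ ⬝ᵥ u) • ((z : Matrix (Fin m) (Fin m) k) *ᵥ v) =
      (φ ⬝ᵥ ((z : Matrix (Fin m) (Fin m) k) *ᵥ u)) • v := add_left_cancel h1
  set α := (φ ⬝ᵥ u)⁻¹ * (φ ⬝ᵥ ((z : Matrix (Fin m) (Fin m) k) *ᵥ u)) with hα
  have h3 : (z : Matrix (Fin m) (Fin m) k) *ᵥ v = α • v := by
    have := congrArg (fun x => (φ ⬝ᵥ u)⁻¹ • x) h2
    simp only [smul_smul, inv_mul_cancel₀ hu, one_smul] at this
    exact this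
  have h4 : (z : Matrix (Fin m) (Fin m) k) *ᵥ ((z : Matrix (Fin m) (Fin m) k) *ᵥ v) = v := by
    rw [mulVec_mulVec, ← Matrix.SpecialLinearGroup.coe_mul, hz2, Matrix.SpecialLinearGroup.coe_one, one_mulVec]
  by_cases hv : v = 0
  · rw [hv, mulVec_zero]
  rw [h3, mulVec_smul, h3, smul_smul] at h4
  have h5 : (α * α - 1) • v = 0 := by rw [sub_smul, h4, one_smul, sub_self]
  have h6 : α * α = 1 := sub_eq_zero.mp ((smul_eq_zero.mp h5).resolve_right hv)
  have h7 : (α + 1) * (α + 1) = 0 := by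
    have : (α + 1) * (α + 1) = α * α + 1 + (α + α) := by ring
    rw [this, h6, CharTwo.add_self_eq_zero, CharTwo.add_self_eq_zero, add_zero]
  have h8 : α = 1 := by
    have h9 : α + 1 = 0 := by
      rcases mul_self_eq_zero.mp h7 with h
      exact h
    exact CharTwo.add_eq_zero.mp h9
  rw [h3, h8, one_smul]

include h h' in
/-- A product of two transvections with both pairings nonzero has odd order. -/
theorem odd_order_of_ne [Finite (SpecialLinearGroup (Fin m) k)] (hφ : φ ≠ 0) (hψ : ψ ≠ 0) (hp : φ ⬝ᵥ w ≠ 0) (hq : ψ ⬝ᵥ v ≠ 0) :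
    Odd (orderOf (el h 1 * el h' 1)) := by
  set a := el h 1 with ha
  set b := el h' 1 with hb
  set g := a * b with hg
  have haa : a * a = 1 := el_one_mul_self h
  have hbb : b * b = 1 := el_one_mul_self h'
  have hainv : a⁻¹ = a := inv_eq_of_mul_eq_one_left haa
  have hbinv : b⁻¹ = b := inv_eq_of_mul_eq_one_left hbb
  rw [← Nat.not_even_iff_odd]
  rintro ⟨M, hM⟩
  have hpos : 0 < orderOf g := orderOf_pos g
  have hM0 : 0 < M := by omega
  set z := g ^ M with hz
  have hz2 : z * z = 1 := by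
    rw [hz, ← pow_add, ← hM, pow_orderOf_eq_one]
  have hz1 : z ≠ 1 := by
    intro e
    have := orderOf_le_of_pow_eq_one hM0 e
    omega
  have hginv : g⁻¹ = b * a := by rw [hg, _root_.mul_inv_rev, hainv, hbinv]
  have hzinv : z⁻¹ = z := inv_eq_of_mul_eq_one_left hz2
  have hca : z * a = a * z := by
    have e1 : a * g * a⁻¹ = g⁻¹ := by
      rw [hginv, hainv, hg]
      calc a * (a * b) * a = (a * a) * b * a := by group
        _ = b * a := by rw [haa, one_mul]
    have e2 : a * z * a⁻¹ = z⁻¹ := by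
      rw [hz, ← conj_pow, e1, inv_pow]
    rw [hzinv] at e2
    exact (mul_inv_eq_iff_eq_mul.mp e2).symm
  have hcb : z * b = b * z := by
    have e1 : b * g * b⁻¹ = g⁻¹ := by
      rw [hginv, hbinv, hg]
      calc b * (a * b) * b = b * a * (b * b) := by group
        _ = b * a := by rw [hbb, mul_one]
    have e2 : b * z * b⁻¹ = z⁻¹ := by
      rw [hz, ← conj_pow, e1, inv_pow]
    rw [hzinv] at e2
    exact (mul_inv_eq_iff_eq_mul.mp e2).symm
  have hzv := fixes_center h hz2 hφ hca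
  have hzw := fixes_center h' hz2 hψ hcb
  apply hz1
  apply sl_ext
  rw [Matrix.SpecialLinearGroup.coe_one]
  apply Matrix.mulVec_injective
  funext x
  rw [one_mulVec]
  -- decompose `x`
  set xL : Fin m → k := ((ψ ⬝ᵥ x) / (ψ ⬝ᵥ v)) • v + ((φ ⬝ᵥ x) / (φ ⬝ᵥ w)) • w with hxL
  set xK : Fin m → k := x - xL with hxK
  have h1 : φ ⬝ᵥ xK = 0 := by
    rw [hxK, dotProduct_sub, hxL, dotProduct_add, dotProduct_smul, dotProduct_smul, h, smul_zero, zero_add, smul_eq_mul,
      div_mul_cancel₀ _ hp, sub_self]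
  have h2 : ψ ⬝ᵥ xK = 0 := by
    rw [hxK, dotProduct_sub, hxL, dotProduct_add, dotProduct_smul, dotProduct_smul, h', smul_zero, add_zero, smul_eq_mul,
      div_mul_cancel₀ _ hq, sub_self]
  have hgK : (g : Matrix (Fin m) (Fin m) k) *ᵥ xK = xK := by
    have hb' : (b : Matrix (Fin m) (Fin m) k) *ᵥ xK = xK := by
      rw [hb, el_mulVec, h2, mul_zero, zero_smul, add_zero]
    have ha' : (a : Matrix (Fin m) (Fin m) k) *ᵥ xK = xK := by
      rw [ha, el_mulVec, h1, mul_zero, zero_smul, add_zero]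
    rw [hg, Matrix.SpecialLinearGroup.coe_mul, ← mulVec_mulVec, hb', ha']
  have hpowK : ∀ j : ℕ, ((g ^ j : SpecialLinearGroup (Fin m) k) : Matrix (Fin m) (Fin m) k) *ᵥ xK = xK := by
    intro j
    induction j with
    | zero => simp
    | succ j ih =>
      rw [pow_succ, Matrix.SpecialLinearGroup.coe_mul, ← mulVec_mulVec, hgK, ih]
  have hzK := hpowK M
  rw [← hz] at hzK
  have hx : x = xL + xK := by rw [hxK]; abel
  have hzL : (z : Matrix (Fin m) (Fin m) k) *ᵥ xL = xL := by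
    rw [hxL, mulVec_add, mulVec_smul, mulVec_smul, hzv, hzw]
  rw [hx, mulVec_add, hzL, hzK]

end char2

/-- The braid relation over the field with two elements. -/
theorem braid_of_one [CharP k 2] {v φ w ψ : Fin m → k} (h : φ ⬝ᵥ v = 0) (h' : ψ ⬝ᵥ w = 0)
    (hp : φ ⬝ᵥ w = 1) (hq : ψ ⬝ᵥ v = 1) : (el h 1 * el h' 1) ^ 3 = 1 := by
  have hbraid : el h 1 * el h' 1 * el h 1 = el h' 1 * el h 1 * el h' 1 := by
    apply sl_ext
    simp only [Matrix.SpecialLinearGroup.coe_mul, el_coe, one_smul]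
    set A := vecMulVec v φ with hA
    set B := vecMulVec w ψ with hB
    have hAA : A * A = 0 := by rw [hA, vmv_mul, h, zero_smul]
    have hBB : B * B = 0 := by rw [hB, vmv_mul, h', zero_smul]
    have hAB : A * B = vecMulVec v ψ := by rw [hA, hB, vmv_mul, hp, one_smul]
    have hBA : B * A = vecMulVec w φ := by rw [hA, hB, vmv_mul, hq, one_smul]
    have hABA : A * B * A = A := by rw [hAB, hA, vmv_mul, hq, one_smul]
    have hBAB : B * A * B = B := by rw [hBA, hB, vmv_mul, hp, one_smul]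
    have e1 : (1 + A) * (1 + B) * (1 + A) = 1 + B + A * B + B * A + A * B * A + (A + A) + A * A := by noncomm_ring
    have e2 : (1 + B) * (1 + A) * (1 + B) = 1 + A + A * B + B * A + B * A * B + (B + B) + B * B := by noncomm_ring
    have hch : ∀ X : Matrix (Fin m) (Fin m) k, X + X = 0 := fun X => by
      ext i j
      simp [CharTwo.add_self_eq_zero]
    rw [e1, e2, hAA, hBB, hABA, hBAB, hch, hch]
    abel
  have haa := el_one_mul_self h
  have hbb := el_one_mul_self h'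
  set a := el h 1
  set b := el h' 1
  calc (a * b) ^ 3 = (a * b * a) * (b * a * b) := by
        simp only [pow_succ, pow_zero, one_mul]; group
    _ = (a * b * a) * (a * b * a) := by rw [hbraid]
    _ = a * b * (a * a) * b * a := by group
    _ = a * (b * b) * a := by rw [haa, mul_one]; group
    _ = 1 := by rw [hbb, mul_one, haa]

end Cfsg.Agent.Lib.RootSubgroups.SLRoot
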