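import Cfsg.Agent.Lib.RootSubgroups.Abstract
import Cfsg.Prelude.Def_Transfer

/-!
Special rank one groups with abelian unipotent subgroups: the elements `n(a) = a b⁻¹ a`,
the identity of Hua, the power formula `b(a ^ k) ^ k = b(a)` and its consequences.
-/

set_option autoImplicit false

namespace Cfsg.Agent.Lib.RootSubgroups.Special

open Cfsg

variable {G : Type*} [Group G] {A B : Subgroup G}

/-- the partner relation `b⁻¹ A b = a⁻¹ B a` -/
def Partner (A B : Subgroup G) (a b : G) : Prop := conjBy A b⁻¹ = conjBy B a⁻¹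

theorem special_symm (hs : IsSpecialRankOnePair A B) : IsSpecialRankOnePair B A := by
  refine ⟨RankOnePair_symm hs.1, ?_⟩
  intro b hb hb1 a ha ha1 e
  have := hs.2 a ha ha1 b hb hb1 e.symm
  have h2 : (b⁻¹ * a * b)⁻¹ = (a⁻¹ * b⁻¹ * a)⁻¹ := by rw [this]
  simp only [mul_inv_rev, inv_inv, mul_assoc] at h2
  simp only [mul_assoc]
  exact h2.symm

theorem Partner.symm' {a b : G} (e : Partner A B a b) : Partner B A b a := e.symm

section

variable (hs : IsSpecialRankOnePair A B)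
include hs

theorem exists_partner_left {a : G} (ha : a ∈ A) (ha1 : a ≠ 1) : ∃ b ∈ B, b ≠ 1 ∧ Partner A B a b :=
  hs.1.cond_left a ha ha1

theorem exists_partner_right {b : G} (hb : b ∈ B) (hb1 : b ≠ 1) : ∃ a ∈ A, a ≠ 1 ∧ Partner A B a b := by
  obtain ⟨a, ha, ha1, e⟩ := hs.1.cond_right b hb hb1
  exact ⟨a, ha, ha1, e.symm⟩

theorem braid {a b : G} (ha : a ∈ A) (ha1 : a ≠ 1) (hb : b ∈ B) (hb1 : b ≠ 1) (e : Partner A B a b) :
    a * b⁻¹ * a = b⁻¹ * a * b⁻¹ := by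
  have h := hs.2 a ha ha1 b hb hb1 e
  have h2 : a * b⁻¹ * a * b = b⁻¹ * a := by
    calc a * b⁻¹ * a * b = a * (b⁻¹ * a * b) := by group
      _ = a * (a⁻¹ * b⁻¹ * a) := by rw [h]
      _ = b⁻¹ * a := by group
  calc a * b⁻¹ * a = (a * b⁻¹ * a * b) * b⁻¹ := by group
    _ = b⁻¹ * a * b⁻¹ := by rw [h2]

/-- `a B a⁻¹ = b A b⁻¹`. -/
theorem partner_inv {a b : G} (ha : a ∈ A) (ha1 : a ≠ 1) (hb : b ∈ B) (hb1 : b ≠ 1)
    (e : Partner A B a b) : conjBy B a = conjBy A b := by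
  have h := hs.2 a ha ha1 b hb hb1 e
  set y := conjBy (conjBy B a) b⁻¹ with hy
  have h1 : conjBy B (b⁻¹ * a * b) = y := by
    rw [conjBy_mul, conjBy_mul, conjBy_of_mem hb]
  have h2 : conjBy B (a⁻¹ * b⁻¹ * a) = conjBy y a⁻¹ := by
    rw [conjBy_mul, conjBy_mul]
  rw [h, h2] at h1
  have hyU : y ∈ unipotentSubgroups A B :=
    conjBy_mem_unipotent hs.1 (conjBy_mem_unipotent hs.1 (right_mem_unipotent hs.1)
      (Subgroup.mem_sup_left ha)) (Subgroup.mem_sup_right (B.inv_mem hb))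
  by_cases hyA : y = A
  · rw [hy, conjBy_eq_iff_eq_conjBy_inv, inv_inv] at hyA
    exact hyA.symm ▸ rfl
  · exfalso
    have := eq_one_of_conjBy_eq hs.1 hyU hyA (A.inv_mem ha) h1
    exact ha1 (inv_eq_one.mp this)

theorem partner_inv_inv {a b : G} (ha : a ∈ A) (ha1 : a ≠ 1) (hb : b ∈ B) (hb1 : b ≠ 1)
    (e : Partner A B a b) : Partner A B a⁻¹ b⁻¹ := by
  unfold Partner
  rw [inv_inv, inv_inv]
  exact (partner_inv hs ha ha1 hb hb1 e).symm

theorem n_eq {a b : G} (ha : a ∈ A) (ha1 : a ≠ 1) (hb : b ∈ B) (hb1 : b ≠ 1) (e : Partner A B a b) :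
    a * b⁻¹ * a = b⁻¹ * a * b⁻¹ := braid hs ha ha1 hb hb1 e

theorem n_conj_a {a b : G} (ha : a ∈ A) (ha1 : a ≠ 1) (hb : b ∈ B) (hb1 : b ≠ 1) (e : Partner A B a b) :
    (a * b⁻¹ * a) * a * (a * b⁻¹ * a)⁻¹ = b⁻¹ := by
  have h := hs.2 a ha ha1 b hb hb1 e
  calc (a * b⁻¹ * a) * a * (a * b⁻¹ * a)⁻¹ = a * (b⁻¹ * a * b) * a⁻¹ := by group
    _ = a * (a⁻¹ * b⁻¹ * a) * a⁻¹ := by rw [h]
    _ = b⁻¹ := by group

theorem n_conj_b {a b : G} (ha : a ∈ A) (ha1 : a ≠ 1) (hb : b ∈ B) (hb1 : b ≠ 1) (e : Partner A B a b) :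
    (a * b⁻¹ * a) * b * (a * b⁻¹ * a)⁻¹ = a⁻¹ := by
  have h := hs.2 a ha ha1 b hb hb1 e
  rw [n_eq hs ha ha1 hb hb1 e]
  calc (b⁻¹ * a * b⁻¹) * b * (b⁻¹ * a * b⁻¹)⁻¹ = (b⁻¹ * a * b) * a⁻¹ * b := by group
    _ = (a⁻¹ * b⁻¹ * a) * a⁻¹ * b := by rw [h]
    _ = a⁻¹ := by group

theorem n_conjBy_A {a b : G} (ha : a ∈ A) (e : Partner A B a b) : conjBy A (a * b⁻¹ * a) = B := by
  rw [conjBy_mul, conjBy_mul, conjBy_of_mem ha]
  have e' : conjBy A b⁻¹ = conjBy B a⁻¹ := e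
  rw [e', ← conjBy_mul]
  simp

theorem n_conjBy_B {a b : G} (ha : a ∈ A) (ha1 : a ≠ 1) (hb : b ∈ B) (hb1 : b ≠ 1) (e : Partner A B a b) :
    conjBy B (a * b⁻¹ * a) = A := by
  rw [n_eq hs ha ha1 hb hb1 e, conjBy_mul, conjBy_mul, conjBy_of_mem (B.inv_mem hb),
    partner_inv hs ha ha1 hb hb1 e, ← conjBy_mul]
  simp

theorem n_mem_of_mem_A {a b x : G} (ha : a ∈ A) (e : Partner A B a b) (hx : x ∈ A) :
    (a * b⁻¹ * a) * x * (a * b⁻¹ * a)⁻¹ ∈ B := by
  rw [← n_conjBy_A hs ha e]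
  exact conj_mem_conjBy hx

theorem n_mem_of_mem_B {a b x : G} (ha : a ∈ A) (ha1 : a ≠ 1) (hb : b ∈ B) (hb1 : b ≠ 1)
    (e : Partner A B a b) (hx : x ∈ B) : (a * b⁻¹ * a) * x * (a * b⁻¹ * a)⁻¹ ∈ A := by
  rw [← n_conjBy_B hs ha ha1 hb hb1 e]
  exact conj_mem_conjBy hx

theorem n_mem_sup {a b : G} (ha : a ∈ A) (hb : b ∈ B) : a * b⁻¹ * a ∈ A ⊔ B :=
  Subgroup.mul_mem _ (Subgroup.mul_mem _ (Subgroup.mem_sup_left ha)
    (Subgroup.mem_sup_right (B.inv_mem hb))) (Subgroup.mem_sup_left ha)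

theorem partner_unique_l {a b b' : G} (hb : b ∈ B) (hb' : b' ∈ B) (e : Partner A B a b)
    (e' : Partner A B a b') : b = b' := partner_unique_left hs.1 hb hb' e e'

theorem partner_unique_r {a a' b : G} (ha : a ∈ A) (ha' : a' ∈ A) (e : Partner A B a b)
    (e' : Partner A B a' b) : a = a' := partner_unique_right hs.1 ha ha' e e'

/-- same order: `a ^ m = 1` forces `b ^ m = 1`. -/
theorem pow_partner_eq_one {a b : G} (ha : a ∈ A) (ha1 : a ≠ 1) (hb : b ∈ B) (hb1 : b ≠ 1)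
    (e : Partner A B a b) {m : ℕ} (hm : a ^ m = 1) : b ^ m = 1 := by
  have h := n_conj_a hs ha ha1 hb hb1 e
  have h2 : (b⁻¹) ^ m = 1 := by
    rw [← h, conj_pow, hm]
    simp
  rwa [inv_pow, inv_eq_one] at h2

/-- Hua's identity -/
theorem hua {a e g b_a b_e b_f : G} (ha : a ∈ A) (ha1 : a ≠ 1) (he : e ∈ A) (he1 : e ≠ 1)
    (hae1 : a * e ≠ 1) (hg : g ∈ A) (hg1 : g ≠ 1) (hb_a : b_a ∈ B) (hb_a1 : b_a ≠ 1) (hb_e : b_e ∈ B)
    (hb_e1 : b_e ≠ 1) (hb_f : b_f ∈ B) (hb_f1 : b_f ≠ 1) (hbg1 : b_a⁻¹ * b_f ≠ 1)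
    (ea : Partner A B a b_a) (ee : Partner A B e b_e) (ef : Partner A B (a * e) b_f)
    (eg : Partner A B g (b_a⁻¹ * b_f)) :
    (a * b_a⁻¹ * a) * b_e * (a * b_a⁻¹ * a)⁻¹ = a * g := by
  have hx := n_mem_of_mem_B hs ha ha1 hb_a hb_a1 ea hb_e
  apply eq_of_conjBy_eq_left hs.1 hx (A.mul_mem ha hg)
  have hnA : conjBy B (a * b_a⁻¹ * a)⁻¹ = A := by
    have := n_conjBy_A hs ha ea
    rw [← this, conjBy_inv_conjBy]
  calc conjBy B ((a * b_a⁻¹ * a) * b_e * (a * b_a⁻¹ * a)⁻¹)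
      = conjBy (conjBy (conjBy B (a * b_a⁻¹ * a)⁻¹) b_e) (a * b_a⁻¹ * a) := by
        rw [conjBy_mul, conjBy_mul]
    _ = conjBy (conjBy A b_e) (a * b_a⁻¹ * a) := by rw [hnA]
    _ = conjBy (conjBy B e) (a * b_a⁻¹ * a) := by rw [partner_inv hs he he1 hb_e hb_e1 ee]
    _ = conjBy (conjBy (conjBy (conjBy B e) a) b_a⁻¹) a := by rw [conjBy_mul, conjBy_mul]
    _ = conjBy (conjBy (conjBy B (a * e)) b_a⁻¹) a := by rw [← conjBy_mul B a e]
    _ = conjBy (conjBy (conjBy A b_f) b_a⁻¹) a := by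
        rw [partner_inv hs (A.mul_mem ha he) hae1 hb_f hb_f1 ef]
    _ = conjBy (conjBy A (b_a⁻¹ * b_f)) a := by rw [conjBy_mul A b_a⁻¹ b_f]
    _ = conjBy (conjBy B g) a := by
        rw [partner_inv hs hg hg1 (B.mul_mem (B.inv_mem hb_a) hb_f) hbg1 eg]
    _ = conjBy B (a * g) := by rw [← conjBy_mul]

end

section

variable (hs : IsSpecialRankOnePair A B) (hA : IsMulCommutative A)
include hs hA

/-- The power formula `b(a ^ k) ^ k = b(a)`. -/
theorem partner_pow (k : ℕ) : ∀ a ∈ A, ∀ b ∈ B, ∀ d ∈ B, a ^ k ≠ 1 → b ≠ 1 → d ≠ 1 →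
    Partner A B a b → Partner A B (a ^ k) d → d ^ k = b := by
  induction k with
  | zero =>
    intro a _ b _ d _ h
    simp at h
  | succ m ih =>
    intro a ha b hb u hu hf hb1 hu1 ea ef
    have ha1 : a ≠ 1 := by
      rintro rfl
      simp at hf
    by_cases ham : a ^ m = 1
    · have e1 : a ^ (m + 1) = a := by rw [pow_succ, ham, one_mul]
      rw [e1] at ef
      have e2 : u = b := partner_unique_l hs hu hb ef ea
      subst e2
      rw [pow_succ, pow_partner_eq_one hs ha ha1 hu hu1 ef ham, one_mul]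
    · -- the main case
      have hpow : a * a ^ m = a ^ (m + 1) := (pow_succ' a m).symm
      obtain ⟨d, hd, hd1, ed⟩ := exists_partner_left hs (A.pow_mem ha m) ham
      have hdm : d ^ m = b := ih a ha b hb d hd ham hb1 hd1 ea ed
      have hub : b⁻¹ * u ≠ 1 := by
        intro h1
        have e2 : b = u := inv_mul_eq_one.mp h1
        subst e2
        have e3 := partner_unique_r hs ha (A.pow_mem ha _) ea ef
        apply ham
        have e4 : a * a ^ m = a := by rw [hpow]; exact e3.symm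
        exact mul_eq_left.mp e4
      obtain ⟨g, hg, hg1, eg⟩ := exists_partner_right hs (B.mul_mem (B.inv_mem hb) hu) hub
      have ef' : Partner A B (a * a ^ m) u := by rw [hpow]; exact ef
      have hae1 : a * a ^ m ≠ 1 := by rw [hpow]; exact hf
      have hh := hua hs ha ha1 (A.pow_mem ha m) ham hae1 hg hg1 hb hb1 hd hd1 hu hu1 hub ea ed ef' eg
      -- raise to the m-th power
      set n := a * b⁻¹ * a with hn
      have h1 : (n * d * n⁻¹) ^ m = a⁻¹ := by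
        rw [conj_pow, hdm, hn]
        exact n_conj_b hs ha ha1 hb hb1 ea
      rw [hh] at h1
      have hcomm : Commute a g := comm_of_isMulCommutative hA ha hg
      rw [hcomm.mul_pow] at h1
      have hgm : g ^ m = (a ^ (m + 1))⁻¹ := by
        rw [← hpow, mul_inv_rev]
        exact eq_inv_mul_iff_mul_eq.mpr h1
      have hgm1 : g ^ m ≠ 1 := by
        rw [hgm]
        exact inv_ne_one.mpr hf
      have ef2 : Partner A B (g ^ m) u⁻¹ := by
        rw [hgm]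
        exact partner_inv_inv hs (A.pow_mem ha _) hf hu hu1 ef
      have hfin := ih g hg (b⁻¹ * u) (B.mul_mem (B.inv_mem hb) hu) u⁻¹ (B.inv_mem hu) hgm1 hub
        (inv_ne_one.mpr hu1) eg ef2
      rw [inv_pow] at hfin
      -- (u ^ m)⁻¹ = b⁻¹ * u
      rw [pow_succ']
      have h5 : b * (u ^ m)⁻¹ = u := by rw [hfin]; group
      calc u * u ^ m = b * (u ^ m)⁻¹ * u ^ m := by rw [h5]
        _ = b := by group

/-- If some non-trivial element of `A` is killed by `p`, all of `A` is. -/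
theorem pow_eq_one_of_pow_eq_one {p : ℕ} {y : G} (hy : y ∈ A) (hy1 : y ≠ 1) (hyp : y ^ p = 1) :
    ∀ a ∈ A, a ^ p = 1 := by
  intro a ha
  by_contra hap
  have ha1 : a ≠ 1 := by
    rintro rfl
    simp at hap
  have hcomm : Commute a y := comm_of_isMulCommutative hA ha hy
  have e1 : (a * y) ^ p = a ^ p := by rw [hcomm.mul_pow, hyp, mul_one]
  have hay1 : a * y ≠ 1 := by
    intro h
    rw [h, one_pow] at e1
    exact hap e1.symm
  obtain ⟨b, hb, hb1, eb⟩ := exists_partner_left hs ha ha1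
  obtain ⟨b', hb', hb'1, eb'⟩ := exists_partner_left hs (A.mul_mem ha hy) hay1
  obtain ⟨d, hd, hd1, ed⟩ := exists_partner_left hs (A.pow_mem ha p) hap
  have h1 := partner_pow hs hA p a ha b hb d hd hap hb1 hd1 eb ed
  have h2 := partner_pow hs hA p (a * y) (A.mul_mem ha hy) b' hb' d hd (by rw [e1]; exact hap) hb'1 hd1
    eb' (by rw [e1]; exact ed)
  have h3 : b = b' := h1.symm.trans h2
  subst h3
  have h4 := partner_unique_r hs ha (A.mul_mem ha hy) eb eb'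
  exact hy1 (mul_eq_left.mp h4.symm)

/-- A non-trivial torsion element forces elementary abelian. -/
theorem elementary_of_finOrder {y : G} (hy : y ∈ A) (hy1 : y ≠ 1) (hfin : IsOfFinOrder y) :
    ∃ p : ℕ, p.Prime ∧ IsElementaryAbelian p A := by
  have hord : orderOf y ≠ 1 := by
    rw [Ne, orderOf_eq_one_iff]; exact hy1
  obtain ⟨p, hp, m, hm⟩ := Nat.exists_prime_and_dvd hord
  have hord0 : 0 < orderOf y := hfin.orderOf_pos
  refine ⟨p, hp, hA, ?_⟩
  have hm0 : 0 < m := Nat.pos_of_ne_zero (fun h0 => by rw [h0, mul_zero] at hm; omega)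
  refine pow_eq_one_of_pow_eq_one hs hA (A.pow_mem hy m) ?_ ?_
  · intro h1
    have := orderOf_dvd_of_pow_eq_one h1
    rw [hm] at this
    have := Nat.le_of_dvd hm0 this
    have h2 := hp.two_le
    nlinarith
  · rw [← pow_mul, mul_comm, ← hm, pow_orderOf_eq_one]

end

/-- The dichotomy of Timmesfeld: elementary abelian or torsion free and divisible. -/
theorem elementary_or_divisible (hs : IsSpecialRankOnePair A B) (hA : IsMulCommutative A)
    (hB : IsMulCommutative B) :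
    (∃ p : ℕ, p.Prime ∧ IsElementaryAbelian p A) ∨
    ((∀ a ∈ A, a ≠ 1 → ¬ IsOfFinOrder a) ∧ ∀ a ∈ A, ∀ n : ℕ, 0 < n → ∃ c ∈ A, c ^ n = a) := by
  by_cases htf : ∀ a ∈ A, a ≠ 1 → ¬ IsOfFinOrder a
  · right
    refine ⟨htf, ?_⟩
    intro a ha n hn
    by_cases ha1 : a = 1
    · exact ⟨1, A.one_mem, by simp [ha1]⟩
    -- the partner of a in B, b ^ n ≠ 1
    obtain ⟨b, hb, hb1, eb⟩ := exists_partner_left hs ha ha1
    have hbn : b ^ n ≠ 1 := by
      intro h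
      have hs' := special_symm hs
      have : a ^ n = 1 := pow_partner_eq_one hs' hb hb1 ha ha1 eb.symm h
      exact htf a ha ha1 (isOfFinOrder_iff_pow_eq_one.mpr ⟨n, hn, this⟩)
    have hs' := special_symm hs
    obtain ⟨c, hc, hc1, ec⟩ := exists_partner_left hs' (B.pow_mem hb n) hbn
    exact ⟨c, hc, partner_pow hs' hB n b hb a ha c hc hbn ha1 hc1 eb.symm ec⟩
  · left
    push Not at htf
    obtain ⟨y, hy, hy1, hfin⟩ := htf
    exact elementary_of_finOrder hs hA hy hy1 hfin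

end Cfsg.Agent.Lib.RootSubgroups.Special
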