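import Cfsg.Agent.Lib.RootSubgroups.Special

/-!
Special rank one groups with abelian unipotent subgroups of order larger than three:
`A = ⁅A, H⁆`.
-/

set_option autoImplicit false

namespace Cfsg.Agent.Lib.RootSubgroups.Special

open Cfsg
open scoped commutatorElement

variable {G : Type*} [Group G] {A B : Subgroup G}

lemma cong_final {Q : Type*} [CommGroup Q] (N : Subgroup Q) (ia ie if' ig a e g : Q) (p1 : ia * a ∈ N)
    (p2 : if' * (a * e) ∈ N) (p3 : ig * g ∈ N) (p4 : ie * e ∈ N) (p5 : ie * (a * g)⁻¹ ∈ N)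
    (E6 : ig = ia⁻¹ * if') : a * e * e ∈ N := by
  have key : a * e * e = (ie * e) * (ie * (a * g)⁻¹)⁻¹ * (ig * g)⁻¹ * (if' * (a * e)) * (ia * a)⁻¹ := by
    subst E6
    apply Additive.ofMul.injective
    simp only [ofMul_mul, ofMul_inv]
    abel
  rw [key]
  exact N.mul_mem (N.mul_mem (N.mul_mem (N.mul_mem p4 (N.inv_mem p5)) (N.inv_mem p3)) p2) (N.inv_mem p1)

/-- `⁅A, H⁆ ≤ A`. -/
theorem commutator_diagonal_le : ⁅A, rankOneDiagonal A B⁆ ≤ A := by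
  rw [Subgroup.commutator_le]
  intro x hx h hh
  have hN : h ∈ Subgroup.normalizer (A : Set G) := hh.1.2
  have h2 : h * x⁻¹ * h⁻¹ ∈ A := by
    have := (Subgroup.mem_normalizer_iff.mp hN x⁻¹).mp (A.inv_mem hx)
    exact this
  have e : ⁅x, h⁆ = x * (h * x⁻¹ * h⁻¹) := by
    simp only [commutatorElement_def]; group
  rw [e]
  exact A.mul_mem hx h2

section

variable (hs : IsSpecialRankOnePair A B)
include hs

/-- the diagonal elements `n_x n₀`. -/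
theorem n_mul_n_mem_diagonal {x b_x a₀ b₀ : G} (hx : x ∈ A) (hx1 : x ≠ 1) (hb_x : b_x ∈ B) (hb_x1 : b_x ≠ 1)
    (ex : Partner A B x b_x) (ha₀ : a₀ ∈ A) (ha₀1 : a₀ ≠ 1) (hb₀ : b₀ ∈ B) (hb₀1 : b₀ ≠ 1)
    (e₀ : Partner A B a₀ b₀) : (x * b_x⁻¹ * x) * (a₀ * b₀⁻¹ * a₀) ∈ rankOneDiagonal A B := by
  refine ⟨⟨Subgroup.mul_mem _ (n_mem_sup hs hx hb_x) (n_mem_sup hs ha₀ hb₀), ?_⟩, ?_⟩
  · apply conjBy_eq_self_iff_mem_normalizer.mp
    rw [conjBy_mul, n_conjBy_A hs ha₀ e₀, n_conjBy_B hs hx hx1 hb_x hb_x1 ex]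
  · apply conjBy_eq_self_iff_mem_normalizer.mp
    rw [conjBy_mul, n_conjBy_B hs ha₀ ha₀1 hb₀ hb₀1 e₀, n_conjBy_A hs hx ex]

/-- the congruence modulo `⁅A, H⁆`. -/
theorem star {x b_x a₀ b₀ y : G} (hx : x ∈ A) (hx1 : x ≠ 1) (hb_x : b_x ∈ B) (hb_x1 : b_x ≠ 1)
    (ex : Partner A B x b_x) (ha₀ : a₀ ∈ A) (ha₀1 : a₀ ≠ 1) (hb₀ : b₀ ∈ B) (hb₀1 : b₀ ≠ 1)
    (e₀ : Partner A B a₀ b₀) (hy : y ∈ B) :
    ((a₀ * b₀⁻¹ * a₀)⁻¹ * y * (a₀ * b₀⁻¹ * a₀)) *
      ((x * b_x⁻¹ * x) * y * (x * b_x⁻¹ * x)⁻¹)⁻¹ ∈ ⁅A, rankOneDiagonal A B⁆ := by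
  have hX : (a₀ * b₀⁻¹ * a₀)⁻¹ * y * (a₀ * b₀⁻¹ * a₀) ∈ A := by
    have h1 : y ∈ conjBy A (a₀ * b₀⁻¹ * a₀) := by rw [n_conjBy_A hs ha₀ e₀]; exact hy
    exact mem_conjBy.mp h1
  have hh := n_mul_n_mem_diagonal hs hx hx1 hb_x hb_x1 ex ha₀ ha₀1 hb₀ hb₀1 e₀
  have := Subgroup.commutator_mem_commutator hX hh
  convert this using 1
  simp only [commutatorElement_def]
  group

end

section

variable (hs : IsSpecialRankOnePair A B) (hA : IsMulCommutative A)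
include hs hA

theorem mul_sq_mem_aux {a e b_a b_e b_f g : G} (ha : a ∈ A) (ha1 : a ≠ 1) (he : e ∈ A) (he1 : e ≠ 1)
    (hae1 : a * e ≠ 1) (hb_a : b_a ∈ B) (hb_a1 : b_a ≠ 1) (hb_e : b_e ∈ B) (hb_e1 : b_e ≠ 1)
    (hb_f : b_f ∈ B) (hb_f1 : b_f ≠ 1) (hbg1 : b_a⁻¹ * b_f ≠ 1) (hg : g ∈ A) (hg1 : g ≠ 1)
    (ea : Partner A B a b_a) (ee : Partner A B e b_e) (ef : Partner A B (a * e) b_f)
    (eg : Partner A B g (b_a⁻¹ * b_f)) : a * e * e ∈ ⁅A, rankOneDiagonal A B⁆ := by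
  set n₀ := a * b_a⁻¹ * a with hn₀
  have hbg : b_a⁻¹ * b_f ∈ B := B.mul_mem (B.inv_mem hb_a) hb_f
  have hin : ∀ y ∈ B, n₀⁻¹ * y * n₀ ∈ A := by
    intro y hy
    have h1 : y ∈ conjBy A n₀ := by rw [hn₀, n_conjBy_A hs ha ea]; exact hy
    exact mem_conjBy.mp h1
  have p1 := star hs ha ha1 hb_a hb_a1 ea ha ha1 hb_a hb_a1 ea hb_a
  have p2 := star hs (A.mul_mem ha he) hae1 hb_f hb_f1 ef ha ha1 hb_a hb_a1 ea hb_f
  have p3 := star hs hg hg1 hbg hbg1 eg ha ha1 hb_a hb_a1 ea hbg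
  have p4 := star hs he he1 hb_e hb_e1 ee ha ha1 hb_a hb_a1 ea hb_e
  have p5 := star hs ha ha1 hb_a hb_a1 ea ha ha1 hb_a hb_a1 ea hb_e
  rw [n_conj_b hs ha ha1 hb_a hb_a1 ea] at p1
  rw [n_conj_b hs (A.mul_mem ha he) hae1 hb_f hb_f1 ef] at p2
  rw [n_conj_b hs hg hg1 hbg hbg1 eg] at p3
  rw [n_conj_b hs he he1 hb_e hb_e1 ee] at p4
  rw [hua hs ha ha1 he he1 hae1 hg hg1 hb_a hb_a1 hb_e hb_e1 hb_f hb_f1 hbg1 ea ee ef eg] at p5
  rw [inv_inv] at p1 p2 p3 p4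
  letI : CommGroup ↥A := { (inferInstance : Group ↥A) with mul_comm := hA.is_comm.comm }
  have hkey := cong_final ((⁅A, rankOneDiagonal A B⁆ : Subgroup G).subgroupOf A)
    ⟨_, hin b_a hb_a⟩ ⟨_, hin b_e hb_e⟩ ⟨_, hin b_f hb_f⟩ ⟨_, hin _ hbg⟩ ⟨a, ha⟩ ⟨e, he⟩ ⟨g, hg⟩
    (by rw [Subgroup.mem_subgroupOf]; exact p1)
    (by rw [Subgroup.mem_subgroupOf]; exact p2)
    (by rw [Subgroup.mem_subgroupOf]; exact p3)
    (by rw [Subgroup.mem_subgroupOf]; exact p4)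
    (by rw [Subgroup.mem_subgroupOf]; exact p5)
    (by
      apply Subtype.ext
      show n₀⁻¹ * (b_a⁻¹ * b_f) * n₀ = (n₀⁻¹ * b_a * n₀)⁻¹ * (n₀⁻¹ * b_f * n₀)
      group)
  rw [Subgroup.mem_subgroupOf] at hkey
  exact hkey

/-- the fundamental congruence: `a e² ∈ ⁅A, H⁆` -/
theorem mul_sq_mem {a e : G} (ha : a ∈ A) (ha1 : a ≠ 1) (he : e ∈ A) (he1 : e ≠ 1)
    (hae1 : a * e ≠ 1) : a * e * e ∈ ⁅A, rankOneDiagonal A B⁆ := by
  obtain ⟨b_a, hb_a, hb_a1, ea⟩ := exists_partner_left hs ha ha1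
  obtain ⟨b_e, hb_e, hb_e1, ee⟩ := exists_partner_left hs he he1
  obtain ⟨b_f, hb_f, hb_f1, ef⟩ := exists_partner_left hs (A.mul_mem ha he) hae1
  have hbg1 : b_a⁻¹ * b_f ≠ 1 := by
    intro h1
    have e2 : b_a = b_f := inv_mul_eq_one.mp h1
    subst e2
    have e3 := partner_unique_r hs ha (A.mul_mem ha he) ea ef
    exact he1 (mul_eq_left.mp e3.symm)
  obtain ⟨g, hg, hg1, eg⟩ := exists_partner_right hs (B.mul_mem (B.inv_mem hb_a) hb_f) hbg1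
  exact mul_sq_mem_aux hs hA ha ha1 he he1 hae1 hb_a hb_a1 hb_e hb_e1 hb_f hb_f1 hbg1 hg hg1 ea ee ef eg

/-- if `A` has more than three elements, `A = ⁅A, H⁆`. -/
theorem le_commutator_diagonal (hcard : 3 < ENat.card A) : A ≤ ⁅A, rankOneDiagonal A B⁆ := by
  intro x hx
  by_cases hx1 : x = 1
  · rw [hx1]; exact Subgroup.one_mem _
  have hex : ∃ e ∈ A, e ≠ 1 ∧ e ≠ x ∧ e * e ≠ x := by
    by_contra hno
    push Not at hno
    have hsub : ∀ w : G, ((A : Set G) ⊆ {1, x, w}) → False := by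
      intro w hw
      have h1 : (A : Set G).encard ≤ ({1, x, w} : Set G).encard := Set.encard_le_encard hw
      have h2 : ({1, x, w} : Set G).encard ≤ 3 := by
        refine (Set.encard_insert_le _ _).trans ?_
        have h4 : ({x, w} : Set G).encard ≤ 2 := by
          refine (Set.encard_insert_le _ _).trans ?_
          rw [Set.encard_singleton]
          norm_num
        calc ({x, w} : Set G).encard + 1 ≤ 2 + 1 := by gcongr
          _ = 3 := by norm_num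
      have h3 : ENat.card A = (A : Set G).encard := rfl
      rw [h3] at hcard
      exact absurd (h1.trans h2) (not_le.mpr hcard)
    by_cases hw : ∃ w ∈ A, w ≠ 1 ∧ w ≠ x
    · obtain ⟨w, hwA, hw1, hwx⟩ := hw
      apply hsub w
      intro e he
      by_cases he1 : e = 1
      · exact Or.inl he1
      by_cases hex : e = x
      · exact Or.inr (Or.inl hex)
      right; right
      by_contra hew
      have hew' : e ≠ w := hew
      have h1 : e * e = x := hno e he he1 hex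
      have h2 : w * w = x := hno w hwA hw1 hwx
      have hy : e * w⁻¹ ∈ A := A.mul_mem he (A.inv_mem hwA)
      have hy1 : e * w⁻¹ ≠ 1 := fun h => hew' (mul_inv_eq_one.mp h)
      have hcomm : Commute e w⁻¹ := comm_of_isMulCommutative hA he (A.inv_mem hwA)
      have hy2 : (e * w⁻¹) ^ 2 = 1 := by
        rw [hcomm.mul_pow, pow_two, pow_two, h1, ← mul_inv_rev, h2]
        simp
      have hall := pow_eq_one_of_pow_eq_one hs hA hy hy1 hy2
      have h3 := hall w hwA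
      rw [pow_two, h2] at h3
      exact hx1 h3
    · push Not at hw
      apply hsub 1
      intro e he
      by_cases he1 : e = 1
      · exact Or.inl he1
      · exact Or.inr (Or.inl (hw e he he1))
  obtain ⟨e, he, he1, hex, hee⟩ := hex
  have hmul : x * (e * e)⁻¹ * e * e = x := by group
  have ha : x * (e * e)⁻¹ ∈ A := A.mul_mem hx (A.inv_mem (A.mul_mem he he))
  have ha1 : x * (e * e)⁻¹ ≠ 1 := by
    intro h
    exact hee (mul_inv_eq_one.mp h).symm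
  have hae1 : x * (e * e)⁻¹ * e ≠ 1 := by
    intro h
    apply hex
    have : x * (e * e)⁻¹ * e = x * e⁻¹ := by group
    rw [this] at h
    exact (mul_inv_eq_one.mp h).symm
  have := mul_sq_mem hs hA ha ha1 he he1 hae1
  rwa [hmul] at this

end

end Cfsg.Agent.Lib.RootSubgroups.Special
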