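import Cfsg.Agent.Lib.RootSubgroups.SteinbergHom
import Cfsg.Agent.Lib.RootSubgroups.Special

/-!
In a special rank one group with elementary abelian unipotent subgroups the subgroup generated by an element and
its partner is a central quotient of `SL₂(p)`.
-/

set_option autoImplicit false

namespace Cfsg.Agent.Lib.RootSubgroups.SpecialPrime

open Cfsg Cfsg.Agent.Lib.RootSubgroups Cfsg.Agent.Lib.RootSubgroups.Special
  Cfsg.Agent.Lib.RootSubgroups.Steinberg Cfsg.Agent.Lib.RootSubgroups.SL2Pair Cfsg.Agent.Lib.KS2.SL2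
open scoped MatrixGroups

variable {G : Type*} [Group G] {A B : Subgroup G} {p : ℕ} [hp : Fact p.Prime]

/-- the additive family of powers of an element killed by `p`. -/
def pf (c : G) (s : ZMod p) : G := c ^ s.val

lemma pf_add {c : G} (hc : c ^ p = 1) (s t : ZMod p) : pf c (s + t) = pf c s * pf c t := by
  unfold pf
  rw [ZMod.val_add, ← pow_add, ← pow_eq_pow_mod _ hc]

lemma pf_zero (c : G) : pf c (0 : ZMod p) = 1 := by
  simp [pf]

lemma pf_neg {c : G} (hc : c ^ p = 1) (s : ZMod p) : pf c (-s) = (pf c s)⁻¹ := by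
  rw [eq_inv_iff_mul_eq_one, ← pf_add hc]
  simp [pf_zero]

lemma pf_natCast_mul {c : G} (hc : c ^ p = 1) (m : ℕ) (t : ZMod p) :
    pf c ((m : ZMod p) * t) = (pf c t) ^ m := by
  induction m with
  | zero => simp [pf_zero]
  | succ m ih =>
    rw [Nat.cast_succ, add_mul, one_mul, pf_add hc, ih, pow_succ]

lemma pf_mem {c : G} {C : Subgroup G} (hc : c ∈ C) (s : ZMod p) : pf c s ∈ C := C.pow_mem hc _

lemma pf_ne_one {c : G} (hc : c ^ p = 1) (hc1 : c ≠ 1) {s : ZMod p} (hs : s ≠ 0) : pf c s ≠ 1 := by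
  have hord : orderOf c = p := orderOf_eq_prime hc hc1
  apply pow_ne_one_of_lt_orderOf
  · exact fun h => hs ((ZMod.val_eq_zero s).1 h)
  · rw [hord]
    exact ZMod.val_lt s

lemma pf_eq_one {c : G} (hc : c ^ p = 1) (hc1 : c ≠ 1) {s : ZMod p} (hs : pf c s = 1) : s = 0 := by
  by_contra h
  exact pf_ne_one hc hc1 h hs

lemma pf_one {c : G} : pf c (1 : ZMod p) = c := by
  unfold pf
  haveI : Fact (1 < p) := ⟨hp.out.one_lt⟩
  rw [ZMod.val_one, pow_one]

section

variable (hs : IsSpecialRankOnePair A B) (hA : IsElementaryAbelian p A)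
include hs hA

/-- partner of a power -/
theorem partner_pf {a b : G} (ha : a ∈ A) (ha1 : a ≠ 1) (hb : b ∈ B) (hb1 : b ≠ 1) (e : Partner A B a b)
    {t : ZMod p} (ht : t ≠ 0) : Partner A B (pf a t) (pf b t⁻¹) := by
  have hap : a ^ p = 1 := hA.2 a ha
  have hta : pf a t ≠ 1 := pf_ne_one hap ha1 ht
  obtain ⟨d, hd, hd1, ed⟩ := exists_partner_left hs (pf_mem ha t) hta
  have h1 : d ^ t.val = b := partner_pow hs hA.1 t.val a ha b hb d hd hta hb1 hd1 e ed
  have h2 : d ^ p = 1 := by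
    refine pow_partner_eq_one hs (pf_mem ha t) hta hd hd1 ed ?_
    unfold pf
    rw [← pow_mul, mul_comm, pow_mul, hap, one_pow]
  have h3 : pf b t⁻¹ = d := by
    unfold pf
    rw [← h1, ← pow_mul, pow_eq_pow_mod _ h2]
    have h4 : ((t.val * (t⁻¹).val : ℕ) : ZMod p) = ((1 : ℕ) : ZMod p) := by
      push_cast
      rw [ZMod.natCast_zmod_val, ZMod.natCast_zmod_val]
      exact mul_inv_cancel₀ ht
    rw [ZMod.natCast_eq_natCast_iff'] at h4
    rw [h4, Nat.mod_eq_of_lt hp.out.one_lt, pow_one]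
  rw [h3]
  exact ed

/-- The Steinberg datum. -/
theorem datum {a b : G} (ha : a ∈ A) (ha1 : a ≠ 1) (hb : b ∈ B) (hb1 : b ≠ 1) (e : Partner A B a b) :
    Datum (pf a : ZMod p → G) (pf b) := by
  have hap : a ^ p = 1 := hA.2 a ha
  have hbp : b ^ p = 1 := pow_partner_eq_one hs ha ha1 hb hb1 e hap
  have hdata : ∀ t : ZMod p, t ≠ 0 → pf a t ∈ A ∧ pf a t ≠ 1 ∧ pf b t⁻¹ ∈ B ∧ pf b t⁻¹ ≠ 1 ∧
      Partner A B (pf a t) (pf b t⁻¹) := fun t ht =>
    ⟨pf_mem ha t, pf_ne_one hap ha1 ht, pf_mem hb _, pf_ne_one hbp hb1 (inv_ne_zero ht),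
      partner_pf hs hA ha ha1 hb hb1 e ht⟩
  refine ⟨pf_add hap, pf_add hbp, ?_, ?_⟩
  · intro t ht
    obtain ⟨h1, h2, h3, h4, h5⟩ := hdata t ht
    rw [pf_neg hbp]
    exact braid hs h1 h2 h3 h4 h5
  · intro t ht s
    obtain ⟨h1, h2, h3, h4, h5⟩ := hdata t ht
    have h6 := n_conj_a hs h1 h2 h3 h4 h5
    rw [pf_neg hbp]
    set m := (s * t⁻¹).val with hm
    have hm' : (m : ZMod p) = s * t⁻¹ := ZMod.natCast_zmod_val _
    have h7 : pf a s = (pf a t) ^ m := by
      rw [← pf_natCast_mul hap, hm']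
      congr 1
      field_simp
    rw [h7, ← conj_pow, h6, ← pf_neg hbp, ← pf_natCast_mul hbp, hm']
    congr 1
    ring

/-- The homomorphism from `SL₂(p)`. -/
theorem exists_hom {a b : G} (ha : a ∈ A) (ha1 : a ≠ 1) (hb : b ∈ B) (hb1 : b ≠ 1) (e : Partner A B a b) :
    ∃ φ : SL(2, ZMod p) →* G, φ (up 1) = a ∧ φ (lo 1) = b ∧ φ.ker ≤ Subgroup.center SL(2, ZMod p) ∧
      φ.range = Subgroup.closure ({a, b} : Set G) := by
  have hap : a ^ p = 1 := hA.2 a ha
  have hbp : b ^ p = 1 := pow_partner_eq_one hs ha ha1 hb hb1 e hap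
  have D := datum hs hA ha ha1 hb hb1 e
  have hm : ∀ t s : ZMod p, t ≠ 0 → s ≠ 0 →
      H (pf a) (pf b) t * H (pf a) (pf b) s = H (pf a) (pf b) (t * s) := fun t s ht hs' => D.H_mul ht hs'
  have hinj : ∀ s t : ZMod p, pf a s * pf b t = 1 → s = 0 ∧ t = 0 := by
    intro s t h
    have h1 : pf a s = (pf b t)⁻¹ := eq_inv_of_mul_eq_one_left h
    have h2 : pf a s = 1 := by
      apply eq_one_of_conjBy_eq hs.1 (right_mem_unipotent hs.1) hs.1.ne.symm (pf_mem ha s)
      rw [h1]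
      exact conjBy_of_mem (B.inv_mem (pf_mem hb t))
    have h3 : pf b t = 1 := by
      rw [h2] at h
      simpa using h
    exact ⟨pf_eq_one hap ha1 h2, pf_eq_one hbp hb1 h3⟩
  refine ⟨D.phiHom hm, ?_, ?_, D.ker_le_center hm hinj, ?_⟩
  · rw [D.phiHom_up hm, pf_one]
  · rw [D.phiHom_lo hm, pf_one]
  · have hab : ∀ s : ZMod p, pf a s ∈ Subgroup.closure ({a, b} : Set G) ∧
        pf b s ∈ Subgroup.closure ({a, b} : Set G) := fun s =>
      ⟨pf_mem (Subgroup.subset_closure (by simp)) s, pf_mem (Subgroup.subset_closure (by simp)) s⟩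
    apply le_antisymm
    · rw [MonoidHom.range_eq_map, ← SL2Pair.sup_eq_top (k := ZMod p), Subgroup.map_sup]
      apply sup_le
      · rintro _ ⟨g, hg, rfl⟩
        obtain ⟨t, rfl⟩ := mem_lower_iff.mp hg
        rw [D.phiHom_lo hm]
        exact (hab t).2
      · rintro _ ⟨g, hg, rfl⟩
        obtain ⟨t, rfl⟩ := mem_upper_iff.mp hg
        rw [D.phiHom_up hm]
        exact (hab t).1
    · rw [Subgroup.closure_le]
      rintro z (rfl | rfl)
      · exact ⟨up 1, by rw [D.phiHom_up hm, pf_one]⟩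
      · exact ⟨lo 1, by rw [D.phiHom_lo hm, pf_one]⟩

end

section Dichotomy

variable {F : Type*} [Field F]

/-- A subgroup of the centre of `SL₂(F)` is trivial or everything. -/
theorem le_center_dichotomy {K : Subgroup SL(2, F)} (hK : K ≤ Subgroup.center SL(2, F)) :
    K = ⊥ ∨ K = Subgroup.center SL(2, F) := by
  by_cases hbot : K = ⊥
  · exact Or.inl hbot
  right
  obtain ⟨g, hg, hg1⟩ := (Subgroup.ne_bot_iff_exists_ne_one.1 hbot) |>.elim fun g hg1 =>
    (⟨g.1, g.2, fun h => hg1 (Subtype.ext h)⟩ : ∃ g : SL(2, F), g ∈ K ∧ g ≠ 1)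
  apply le_antisymm hK
  have hfacts : ∀ c ∈ Subgroup.center SL(2, F), (c = 1 ∨
      ((c : Matrix (Fin 2) (Fin 2) F) 0 0 = -1 ∧ (c : Matrix (Fin 2) (Fin 2) F) 1 1 = -1 ∧
        (c : Matrix (Fin 2) (Fin 2) F) 0 1 = 0 ∧ (c : Matrix (Fin 2) (Fin 2) F) 1 0 = 0)) := by
    intro c hc
    obtain ⟨h01, h10, h⟩ := (isScalar_iff_center c).2 hc
    have hdet := det_rel c
    rw [h01, h10, ← h] at hdet
    have h2 : (c : Matrix (Fin 2) (Fin 2) F) 0 0 * (c : Matrix (Fin 2) (Fin 2) F) 0 0 = 1 := by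
      linear_combination hdet
    rcases mul_self_eq_one_iff.mp h2 with h3 | h3
    · left
      apply ext4 <;> simp [h01, h10, ← h, h3]
    · right
      exact ⟨h3, by rw [← h, h3], h01, h10⟩
  intro c hc
  rcases hfacts c hc with rfl | h1
  · exact K.one_mem
  · rcases hfacts g (hK hg) with h2 | h2
    · exact absurd h2 hg1
    · have : c = g := by
        apply ext4
        · rw [h1.1, h2.1]
        · rw [h1.2.2.1, h2.2.2.1]
        · rw [h1.2.2.2, h2.2.2.2]
        · rw [h1.2.1, h2.2.1]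
      rw [this]
      exact hg

/-- A homomorphism from `SL₂(F)` with central kernel has image `SL₂(F)` or `PSL₂(F)`. -/
theorem range_equiv {Y : Type*} [Group Y] (φ : SL(2, F) →* Y) (h : φ.ker ≤ Subgroup.center SL(2, F)) :
    Nonempty (↥φ.range ≃* SL(2, F)) ∨ Nonempty (↥φ.range ≃* Matrix.ProjectiveSpecialLinearGroup (Fin 2) F) := by
  rcases le_center_dichotomy h with h1 | h1
  · left
    exact ⟨(MonoidHom.ofInjective ((MonoidHom.ker_eq_bot_iff φ).1 h1)).symm⟩
  · right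
    exact ⟨(QuotientGroup.quotientKerEquivRange φ).symm.trans (QuotientGroup.quotientMulEquivOfEq h1)⟩

end Dichotomy

end Cfsg.Agent.Lib.RootSubgroups.SpecialPrime
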