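import Cfsg.Agent.Lib.RootSubgroups.SL2Pair

/-!
Steinberg's relations for `SL₂` over a finite field: two additive one parameter families `x`, `y` in a group with
the braid and the conjugation relations of `SL₂` give a homomorphism from `SL₂(k)`.

The only input from the additive structure is the identity
`w r * w s = w (r ^ 2 / (r + s)) * w (r * s / (r + s))`.
-/

set_option autoImplicit false

namespace Cfsg.Agent.Lib.RootSubgroups.Steinberg

open Cfsg.Agent.Lib.KS2.SL2 Cfsg.Agent.Lib.RootSubgroups.SL2Pair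
open scoped MatrixGroups

variable {k Y : Type*} [Field k] [Group Y]

/-- A Steinberg datum: additive families with the braid and conjugation relations. -/
structure Datum (x y : k → Y) : Prop where
  hx : ∀ s t, x (s + t) = x s * x t
  hy : ∀ s t, y (s + t) = y s * y t
  braid : ∀ t, t ≠ 0 → x t * y (-t⁻¹) * x t = y (-t⁻¹) * x t * y (-t⁻¹)
  conj : ∀ t, t ≠ 0 → ∀ s,
    (x t * y (-t⁻¹) * x t) * x s * (x t * y (-t⁻¹) * x t)⁻¹ = y (-(s * t⁻¹ * t⁻¹))

variable {x y : k → Y}

/-- The Weyl elements. -/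
def w (x y : k → Y) (t : k) : Y := x t * y (-t⁻¹) * x t

/-- The diagonal elements. -/
def H (x y : k → Y) (t : k) : Y := w x y t * (w x y 1)⁻¹

namespace Datum

variable (D : Datum x y)
include D

lemma x_zero : x 0 = 1 := by
  have := D.hx 0 0
  simpa using this

lemma y_zero : y 0 = 1 := by
  have := D.hy 0 0
  simpa using this

lemma x_neg (s : k) : x (-s) = (x s)⁻¹ := by
  rw [eq_inv_iff_mul_eq_one, ← D.hx]
  simp [D.x_zero]

lemma y_neg (s : k) : y (-s) = (y s)⁻¹ := by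
  rw [eq_inv_iff_mul_eq_one, ← D.hy]
  simp [D.y_zero]

lemma w_neg {t : k} : w x y (-t) = (w x y t)⁻¹ := by
  unfold w
  rw [inv_neg, neg_neg, D.x_neg, D.y_neg (t⁻¹)]
  group

lemma w_conj_x {t : k} (ht : t ≠ 0) (s : k) :
    w x y t * x s * (w x y t)⁻¹ = y (-(s * t⁻¹ * t⁻¹)) := D.conj t ht s

lemma w_braid {t : k} (ht : t ≠ 0) : w x y t = y (-t⁻¹) * x t * y (-t⁻¹) := D.braid t ht

lemma w_conj_y {t : k} (ht : t ≠ 0) (s : k) :
    w x y t * y s * (w x y t)⁻¹ = x (-(s * t * t)) := by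
  have h := D.w_conj_x (neg_ne_zero.2 ht) (-(s * t * t))
  rw [D.w_neg, inv_inv] at h
  have e : -(-(s * t * t) * (-t)⁻¹ * (-t)⁻¹) = s := by
    field_simp
  rw [e] at h
  rw [← h]
  group

lemma w_conj_w {t s : k} (ht : t ≠ 0) (hs : s ≠ 0) :
    w x y t * w x y s * (w x y t)⁻¹ = w x y (t * t * s⁻¹) := by
  have hr : t * t * s⁻¹ ≠ 0 := mul_ne_zero (mul_ne_zero ht ht) (inv_ne_zero hs)
  rw [D.w_braid hr]
  have this : ∀ (W a b c : Y), W * (a * b * c) * W⁻¹ = (W * a * W⁻¹) * (W * b * W⁻¹) * (W * c * W⁻¹) := by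
    intros
    group
  show w x y t * (x s * y (-s⁻¹) * x s) * (w x y t)⁻¹ = _
  rw [this, D.w_conj_x ht, D.w_conj_y ht]
  have e1 : s * t⁻¹ * t⁻¹ = (t * t * s⁻¹)⁻¹ := by field_simp
  have e2 : -(-s⁻¹ * t * t) = t * t * s⁻¹ := by ring
  rw [e1, e2]

lemma ww_x {r s : k} (hr : r ≠ 0) (hs : s ≠ 0) (u : k) :
    w x y r * w x y s * x u = x (u * r * r * s⁻¹ * s⁻¹) * (w x y r * w x y s) := by
  calc w x y r * w x y s * x u = w x y r * (w x y s * x u * (w x y s)⁻¹) * w x y s := by group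
    _ = w x y r * y (-(u * s⁻¹ * s⁻¹)) * w x y s := by rw [D.w_conj_x hs]
    _ = (w x y r * y (-(u * s⁻¹ * s⁻¹)) * (w x y r)⁻¹) * (w x y r * w x y s) := by group
    _ = x (-(-(u * s⁻¹ * s⁻¹) * r * r)) * (w x y r * w x y s) := by rw [D.w_conj_y hr]
    _ = _ := by
      congr 2
      ring

lemma y_eq_x_w_x {t : k} : y (-t⁻¹) = x (-t) * w x y t * x (-t) := by
  unfold w
  rw [D.x_neg]
  group

/-- The only consequence of additivity. -/
lemma w_add {r s : k} (hr : r ≠ 0) (hs : s ≠ 0) (hrs : r + s ≠ 0) :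
    w x y r * w x y s = w x y (r * r * (r + s)⁻¹) * w x y (r * s * (r + s)⁻¹) := by
  set m := r * r * (r + s)⁻¹ with hmdef
  set q := r * s * (r + s)⁻¹ with hqdef
  have hm : m ≠ 0 := mul_ne_zero (mul_ne_zero hr hr) (inv_ne_zero hrs)
  have hq : q ≠ 0 := mul_ne_zero (mul_ne_zero hr hs) (inv_ne_zero hrs)
  have hyy : y (-r⁻¹) * y (-s⁻¹) = y (-q⁻¹) := by
    rw [← D.hy]
    congr 1
    rw [hqdef]
    field_simp
    ring
  rw [D.y_eq_x_w_x (t := r), D.y_eq_x_w_x (t := s), D.y_eq_x_w_x (t := q)] at hyy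
  have ym : y m⁻¹ = x m * w x y (-m) * x m := by
    have := D.y_eq_x_w_x (t := -m)
    rw [inv_neg, neg_neg, neg_neg] at this
    exact this
  have h1 : w x y r * x (-(r + s)) * (w x y r)⁻¹ = y m⁻¹ := by
    rw [D.w_conj_x hr]
    congr 1
    rw [hmdef]
    field_simp
  have hadd1 : x (-r) * x (-s) = x (-(r + s)) := by
    rw [← D.hx]
    congr 1
    ring
  have hadd2 : x (-r) * x m = x (-q) := by
    rw [← D.hx]
    congr 1
    rw [hmdef, hqdef]
    field_simp
    ring
  have h2 : w x y r * x (-(r + s)) = y m⁻¹ * w x y r := by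
    rw [← h1]
    group
  have h3 : x (-r) * (w x y r * x (-(r + s))) * w x y s * x (-s) = x (-q) * w x y q * x (-q) := by
    rw [← hyy, ← hadd1]
    group
  rw [h2, ym] at h3
  have h4 : x (-q) * (w x y (-m) * x m * (w x y r * w x y s)) * x (-s) = x (-q) * w x y q * x (-q) := by
    rw [← h3, ← hadd2]
    group
  have h5 : w x y (-m) * x m * (w x y r * w x y s) = w x y q * x (s - q) := by
    have e : x (s - q) = x (-q) * x s := by
      rw [← D.hx]
      congr 1
      ring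
    rw [e]
    have e2 : x (-s) = (x s)⁻¹ := D.x_neg s
    rw [e2] at h4
    have h6 := mul_left_cancel (a := x (-q))
      (show x (-q) * (w x y (-m) * x m * (w x y r * w x y s)) = x (-q) * (w x y q * (x (-q) * x s)) by
        calc _ = (x (-q) * (w x y (-m) * x m * (w x y r * w x y s)) * (x s)⁻¹) * x s := by group
          _ = x (-q) * w x y q * x (-q) * x s := by rw [h4]
          _ = _ := by group)
    exact h6
  have h7 := D.ww_x hm hq (s - q)
  have e3 : (s - q) * m * m * q⁻¹ * q⁻¹ = m := by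
    rw [hmdef, hqdef]
    field_simp
    ring
  rw [e3] at h7
  have h8 : x m * (w x y r * w x y s) = x m * (w x y m * w x y q) := by
    rw [← h7]
    have e4 : w x y (-m) = (w x y m)⁻¹ := D.w_neg
    rw [e4] at h5
    calc x m * (w x y r * w x y s) = w x y m * ((w x y m)⁻¹ * x m * (w x y r * w x y s)) := by group
      _ = w x y m * (w x y q * x (s - q)) := by rw [h5]
      _ = _ := by group
  exact mul_left_cancel h8

/-! ### The diagonal elements -/

lemma w1inv_conj_x (s : k) : (w x y 1)⁻¹ * x s * w x y 1 = y (-s) := by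
  have h := D.w_conj_x (t := -1) (neg_ne_zero.2 one_ne_zero) s
  rw [D.w_neg, inv_inv] at h
  rw [h]
  congr 1
  simp

lemma w1inv_conj_y (s : k) : (w x y 1)⁻¹ * y s * w x y 1 = x (-s) := by
  have h := D.w_conj_y (t := -1) (neg_ne_zero.2 one_ne_zero) s
  rw [D.w_neg, inv_inv] at h
  rw [h]
  congr 1
  simp

lemma w1inv_conj_w {s : k} (hs : s ≠ 0) : (w x y 1)⁻¹ * w x y s * w x y 1 = w x y s⁻¹ := by
  have h := D.w_conj_w (t := -1) (neg_ne_zero.2 one_ne_zero) hs
  rw [D.w_neg, inv_inv] at h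
  rw [h]
  congr 1
  simp

lemma H_conj_x {t : k} (ht : t ≠ 0) (s : k) : H x y t * x s * (H x y t)⁻¹ = x (s * t * t) := by
  unfold H
  calc w x y t * (w x y 1)⁻¹ * x s * (w x y t * (w x y 1)⁻¹)⁻¹
      = w x y t * ((w x y 1)⁻¹ * x s * w x y 1) * (w x y t)⁻¹ := by group
    _ = w x y t * y (-s) * (w x y t)⁻¹ := by rw [D.w1inv_conj_x]
    _ = _ := by
      rw [D.w_conj_y ht]
      congr 1
      ring

lemma H_conj_y {t : k} (ht : t ≠ 0) (s : k) : H x y t * y s * (H x y t)⁻¹ = y (s * t⁻¹ * t⁻¹) := by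
  unfold H
  calc w x y t * (w x y 1)⁻¹ * y s * (w x y t * (w x y 1)⁻¹)⁻¹
      = w x y t * ((w x y 1)⁻¹ * y s * w x y 1) * (w x y t)⁻¹ := by group
    _ = w x y t * x (-s) * (w x y t)⁻¹ := by rw [D.w1inv_conj_y]
    _ = _ := by
      rw [D.w_conj_x ht]
      congr 1
      ring

lemma H_conj_w {t s : k} (ht : t ≠ 0) (hs : s ≠ 0) : H x y t * w x y s * (H x y t)⁻¹ = w x y (t * t * s) := by
  unfold H
  calc w x y t * (w x y 1)⁻¹ * w x y s * (w x y t * (w x y 1)⁻¹)⁻¹
      = w x y t * ((w x y 1)⁻¹ * w x y s * w x y 1) * (w x y t)⁻¹ := by group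
    _ = w x y t * w x y s⁻¹ * (w x y t)⁻¹ := by rw [D.w1inv_conj_w hs]
    _ = _ := by
      rw [D.w_conj_w ht (inv_ne_zero hs), inv_inv]

lemma w1_conj_H {t : k} (ht : t ≠ 0) : w x y 1 * H x y t * (w x y 1)⁻¹ = H x y t⁻¹ := by
  unfold H
  calc w x y 1 * (w x y t * (w x y 1)⁻¹) * (w x y 1)⁻¹
      = (w x y 1 * w x y t * (w x y 1)⁻¹) * (w x y 1)⁻¹ := by group
    _ = w x y (1 * 1 * t⁻¹) * (w x y 1)⁻¹ := by rw [D.w_conj_w one_ne_zero ht]
    _ = _ := by simp

omit D in
lemma H_one : H x y 1 = 1 := by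
  unfold H
  simp

lemma H_mul_eq {t s : k} (ht : t ≠ 0) (hs : s ≠ 0) :
    H x y t * H x y s = H x y (t * t * s) * H x y t⁻¹ := by
  calc H x y t * H x y s = H x y t * (w x y s * (w x y 1)⁻¹) := rfl
    _ = (H x y t * w x y s * (H x y t)⁻¹) * H x y t * (w x y 1)⁻¹ := by group
    _ = w x y (t * t * s) * H x y t * (w x y 1)⁻¹ := by rw [D.H_conj_w ht hs]
    _ = w x y (t * t * s) * (w x y 1)⁻¹ * (w x y 1 * H x y t * (w x y 1)⁻¹) := by group
    _ = _ := by rw [D.w1_conj_H ht]; rfl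

lemma H_sq {t : k} (ht : t ≠ 0) : H x y t = H x y (t * t) * H x y t⁻¹ := by
  have := D.H_mul_eq ht one_ne_zero
  rwa [H_one, mul_one, mul_one] at this

/-- The relation of the additive structure in terms of the diagonal elements. -/
lemma H_rel {v : k} (hv : v ≠ 0) (hv1 : v ≠ 1) :
    H x y (1 - v)⁻¹ * H x y v = H x y (v * (1 - v)⁻¹) := by
  have h1v : 1 - v ≠ 0 := sub_ne_zero.2 (Ne.symm hv1)
  have hr : (1 - v)⁻¹ ≠ 0 := inv_ne_zero h1v
  have hs : v⁻¹ ≠ 0 := inv_ne_zero hv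
  have hrs : (1 - v)⁻¹ + v⁻¹ ≠ 0 := by
    intro h
    have : (1 - v)⁻¹ + v⁻¹ = ((1 - v) * v)⁻¹ := by
      field_simp
      ring
    rw [this] at h
    exact (inv_ne_zero (mul_ne_zero h1v hv)) h
  have h := D.w_add hr hs hrs
  have e1 : (1 - v)⁻¹ * (1 - v)⁻¹ * ((1 - v)⁻¹ + v⁻¹)⁻¹ = v * (1 - v)⁻¹ := by
    field_simp
    ring
  have e2 : (1 - v)⁻¹ * v⁻¹ * ((1 - v)⁻¹ + v⁻¹)⁻¹ = 1 := by
    field_simp
    ring
  rw [e1, e2] at h
  have hw : ∀ t, w x y t = H x y t * w x y 1 := by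
    intro t
    unfold H
    group
  have h3 : w x y 1 * H x y v⁻¹ = H x y v * w x y 1 := by
    have := D.w1_conj_H hs
    rw [inv_inv] at this
    rw [← this]
    group
  rw [hw (1 - v)⁻¹, hw v⁻¹, hw (v * (1 - v)⁻¹)] at h
  have h4 : H x y (1 - v)⁻¹ * H x y v * (w x y 1 * w x y 1) =
      H x y (v * (1 - v)⁻¹) * (w x y 1 * w x y 1) := by
    calc _ = H x y (1 - v)⁻¹ * (H x y v * w x y 1) * w x y 1 := by group
      _ = H x y (1 - v)⁻¹ * (w x y 1 * H x y v⁻¹) * w x y 1 := by rw [h3]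
      _ = H x y (1 - v)⁻¹ * w x y 1 * (H x y v⁻¹ * w x y 1) := by group
      _ = _ := by rw [h]; group
  exact mul_right_cancel h4

end Datum

/-! ### Elements acting by a scalar -/

/-- `τ` acts on the root groups through multiplication by `l`. -/
def Scale (x y : k → Y) (τ : Y) (l : k) : Prop :=
  (∀ s, τ * x s * τ⁻¹ = x (s * l)) ∧ ∀ s, τ * y s * τ⁻¹ = y (s * l⁻¹)

lemma Scale.mul {τ τ' : Y} {l l' : k} (h : Scale x y τ l) (h' : Scale x y τ' l') :
    Scale x y (τ * τ') (l * l') := by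
  constructor
  · intro s
    calc τ * τ' * x s * (τ * τ')⁻¹ = τ * (τ' * x s * τ'⁻¹) * τ⁻¹ := by group
      _ = _ := by rw [h'.1, h.1, mul_assoc]; congr 2; ring
  · intro s
    calc τ * τ' * y s * (τ * τ')⁻¹ = τ * (τ' * y s * τ'⁻¹) * τ⁻¹ := by group
      _ = _ := by rw [h'.2, h.2, mul_inv, mul_assoc]; congr 2; ring

lemma Scale.inv {τ : Y} {l : k} (hl : l ≠ 0) (h : Scale x y τ l) : Scale x y τ⁻¹ l⁻¹ := by
  constructor
  · intro s
    have := h.1 (s * l⁻¹)
    have e : s * l⁻¹ * l = s := by field_simp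
    rw [e] at this
    rw [← this]
    group
  · intro s
    have := h.2 (s * l)
    have e : s * l * l⁻¹ = s := by field_simp
    rw [e] at this
    rw [← this, inv_inv]
    group

lemma Scale.one (x y : k → Y) : Scale x y (1 : Y) 1 := by
  constructor <;> intro s <;> simp

lemma Scale.pow {τ : Y} {l : k} (h : Scale x y τ l) (n : ℕ) : Scale x y (τ ^ n) (l ^ n) := by
  induction n with
  | zero => simpa using Scale.one x y
  | succ n ih =>
    rw [pow_succ, pow_succ]
    exact ih.mul h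

/-- An element commuting with both root groups. -/
def Cen (x y : k → Y) (c : Y) : Prop := (∀ s, Commute c (x s)) ∧ ∀ s, Commute c (y s)

lemma Scale.cen {τ : Y} (h : Scale x y τ 1) : Cen x y τ := by
  constructor
  · intro s
    have := h.1 s
    rw [mul_one] at this
    exact (mul_inv_eq_iff_eq_mul.mp this)
  · intro s
    have := h.2 s
    rw [inv_one, mul_one] at this
    exact (mul_inv_eq_iff_eq_mul.mp this)

lemma Cen.w {c : Y} (h : Cen x y c) (t : k) : Commute c (w x y t) :=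
  ((h.1 t).mul_right (h.2 _)).mul_right (h.1 t)

lemma Cen.H {c : Y} (h : Cen x y c) (t : k) : Commute c (H x y t) :=
  (h.w t).mul_right (h.w 1).inv_right

namespace Datum

variable (D : Datum x y)
include D

lemma scale_H {t : k} (ht : t ≠ 0) : Scale x y (H x y t) (t * t) := by
  constructor
  · intro s
    rw [D.H_conj_x ht]
    congr 1
    ring
  · intro s
    rw [D.H_conj_y ht]
    congr 1
    field_simp

variable [Finite k]

/-- The diagonal elements commute. -/
lemma H_commute {t s : k} (ht : t ≠ 0) (hs : s ≠ 0) : Commute (H x y t) (H x y s) := by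
  obtain ⟨g, hg⟩ := IsCyclic.exists_generator (α := kˣ)
  have hgen : ∀ t : k, t ≠ 0 → ∃ n : ℕ, t = (g : k) ^ n := by
    intro t ht
    have h1 : Units.mk0 t ht ∈ Subgroup.zpowers g := hg _
    rw [← mem_powers_iff_mem_zpowers] at h1
    obtain ⟨n, hn⟩ := h1
    refine ⟨n, ?_⟩
    have := congrArg (fun u : kˣ => (u : k)) hn
    simpa using this.symm
  have hg0 : (g : k) ≠ 0 := g.ne_zero
  have hT := D.scale_H hg0
  set T := H x y (g : k) with hTdef
  have hdec : ∀ t : k, t ≠ 0 → ∃ (n : ℕ) (c : Y), Cen x y c ∧ H x y t = c * T ^ n := by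
    intro t ht
    obtain ⟨n, hn⟩ := hgen t ht
    refine ⟨n, H x y t * (T ^ n)⁻¹, ?_, by group⟩
    have h1 := (hT.pow n).inv (pow_ne_zero _ (mul_ne_zero hg0 hg0))
    have h2 := (D.scale_H ht).mul h1
    have e : t * t * (((g : k) * g) ^ n)⁻¹ = 1 := by
      rw [hn, mul_pow]
      field_simp
    rw [e] at h2
    exact h2.cen
  obtain ⟨n, c, hc, e1⟩ := hdec t ht
  obtain ⟨m, d, hd, e2⟩ := hdec s hs
  have h1 : Commute T d := (hd.H _).symm
  have h2 : Commute (T ^ n) (H x y s) := by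
    rw [e2]
    exact (h1.pow_left n).mul_right (Commute.pow_pow_self T n m)
  rw [e1]
  exact (hc.H s).mul_left h2

lemma H_sq_mul {t s : k} (ht : t ≠ 0) (hs : s ≠ 0) : H x y (t * t * s) = H x y (t * t) * H x y s := by
  have h1 := D.H_mul_eq ht hs
  have h2 := D.H_sq ht
  have hc : Commute (H x y s) (H x y t⁻¹) := D.H_commute hs (inv_ne_zero ht)
  have h3 : H x y (t * t * s) = H x y t * H x y s * (H x y t⁻¹)⁻¹ := by
    rw [h1]
    group
  rw [h3]
  have h4 : H x y t = H x y (t * t) * H x y t⁻¹ := h2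
  calc H x y t * H x y s * (H x y t⁻¹)⁻¹ = H x y t * (H x y s * (H x y t⁻¹)⁻¹) := by group
    _ = H x y t * ((H x y t⁻¹)⁻¹ * H x y s) := by rw [hc.inv_right.eq]
    _ = (H x y t * (H x y t⁻¹)⁻¹) * H x y s := by group
    _ = _ := by
      congr 1
      rw [mul_inv_eq_iff_eq_mul]
      exact h2

lemma H_square_mul {u s : k} (hu : IsSquare u) (hu0 : u ≠ 0) (hs : s ≠ 0) :
    H x y (u * s) = H x y u * H x y s := by
  obtain ⟨t, rfl⟩ := hu
  exact D.H_sq_mul (left_ne_zero_of_mul hu0) hs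

omit D [Group Y] in
/-- In a finite field with a non-square there are `v` and `1 - v` both non-squares. -/
lemma exists_nonsquare_pair {n : k} (hn : ¬ IsSquare n) :
    ∃ v : k, ¬ IsSquare v ∧ ¬ IsSquare (1 - v) := by
  classical
  haveI := Fintype.ofFinite k
  by_contra hcon
  push Not at hcon
  have hnon : ∀ u : k, IsSquare u → u ≠ 0 → ¬ IsSquare (n * u) := by
    intro u hu hu0 hnu
    apply hn
    have e : n = n * u * u⁻¹ := by field_simp
    rw [e]
    exact hnu.mul hu.inv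
  let Q := {u : k // u ≠ 0 ∧ IsSquare u}
  have hmaps : ∀ u : Q, (1 - n * u.1) ≠ 0 ∧ IsSquare (1 - n * u.1) := by
    intro u
    refine ⟨?_, hcon _ (hnon _ u.2.2 u.2.1)⟩
    intro h0
    have : n * u.1 = 1 := by linear_combination -h0
    exact hnon _ u.2.2 u.2.1 (this ▸ IsSquare.one)
  have hn0 : n ≠ 0 := by
    rintro rfl
    exact hn IsSquare.zero
  let φ : Q → Q := fun u => ⟨1 - n * u.1, hmaps u⟩
  have hinj : Function.Injective φ := by
    intro u v huv
    have h1 : 1 - n * u.1 = 1 - n * v.1 := congrArg Subtype.val huv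
    have h2 : n * u.1 = n * v.1 := by linear_combination -h1
    exact Subtype.ext (mul_left_cancel₀ hn0 h2)
  have hsurj : Function.Surjective φ := Finite.surjective_of_injective hinj
  obtain ⟨u, hu⟩ := hsurj ⟨1, one_ne_zero, IsSquare.one⟩
  have h1 : 1 - n * u.1 = 1 := congrArg Subtype.val hu
  have h2 : n * u.1 = 0 := by linear_combination -h1
  exact (mul_ne_zero hn0 u.2.1) h2

/-- Multiplicativity of the diagonal elements. -/
theorem H_mul {t s : k} (ht : t ≠ 0) (hs : s ≠ 0) : H x y t * H x y s = H x y (t * s) := by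
  classical
  haveI := Fintype.ofFinite k
  by_cases htq : IsSquare t
  · exact (D.H_square_mul htq ht hs).symm
  by_cases hsq : IsSquare s
  · rw [mul_comm t s, D.H_square_mul hsq hs ht]
    exact (D.H_commute ht hs).eq
  obtain ⟨v, hv, hv'⟩ := exists_nonsquare_pair (k := k) htq
  have hv0 : v ≠ 0 := by
    rintro rfl
    exact hv IsSquare.zero
  have hv1 : v ≠ 1 := by
    rintro rfl
    exact hv IsSquare.one
  have h1v : 1 - v ≠ 0 := sub_ne_zero.2 (Ne.symm hv1)
  have hchi : ∀ {a : k}, ¬ IsSquare a → quadraticChar k a = -1 :=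
    fun {a} h => quadraticChar_neg_one_iff_not_isSquare.2 h
  have hinvns : ¬ IsSquare (1 - v)⁻¹ := by
    intro h
    apply hv'
    have := h.inv
    rwa [inv_inv] at this
  have hsqq : ∀ {a b : k}, ¬ IsSquare a → ¬ IsSquare b → IsSquare (a * b⁻¹) := by
    intro a b ha hb
    have ha0 : a ≠ 0 := by
      rintro rfl
      exact ha IsSquare.zero
    have hb0 : b ≠ 0 := by
      rintro rfl
      exact hb IsSquare.zero
    have hb' : ¬ IsSquare b⁻¹ := by
      intro h
      apply hb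
      have := h.inv
      rwa [inv_inv] at this
    rw [← quadraticChar_one_iff_isSquare (mul_ne_zero ha0 (inv_ne_zero hb0)), map_mul, hchi ha, hchi hb']
    norm_num
  set n₁ := (1 - v)⁻¹ with hn₁
  have hn₁0 : n₁ ≠ 0 := inv_ne_zero h1v
  have hrel : H x y n₁ * H x y v = H x y (n₁ * v) := by
    have := D.H_rel hv0 hv1
    rwa [mul_comm v] at this
  have hu : IsSquare (t * n₁⁻¹) := hsqq htq hinvns
  have hu' : IsSquare (s * v⁻¹) := hsqq hsq hv
  have hu0 : t * n₁⁻¹ ≠ 0 := mul_ne_zero ht (inv_ne_zero hn₁0)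
  have hu0' : s * v⁻¹ ≠ 0 := mul_ne_zero hs (inv_ne_zero hv0)
  have e1 : t = t * n₁⁻¹ * n₁ := by field_simp
  have e2 : s = s * v⁻¹ * v := by field_simp
  set a := t * n₁⁻¹ with ha
  set b := s * v⁻¹ with hb
  have hnv : n₁ * v ≠ 0 := mul_ne_zero hn₁0 hv0
  have h1 : H x y t = H x y a * H x y n₁ := by
    conv_lhs => rw [e1]
    exact D.H_square_mul hu hu0 hn₁0
  have h2 : H x y s = H x y b * H x y v := by
    conv_lhs => rw [e2]
    exact D.H_square_mul hu' hu0' hv0
  have h3 : t * s = a * (b * (n₁ * v)) := by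
    conv_lhs => rw [e1, e2]
    ring
  rw [h3, D.H_square_mul hu hu0 (mul_ne_zero hu0' hnv), D.H_square_mul hu' hu0' hnv, ← hrel, h1, h2]
  have hc : Commute (H x y n₁) (H x y b) := D.H_commute hn₁0 hu0'
  calc H x y a * H x y n₁ * (H x y b * H x y v) = H x y a * (H x y n₁ * H x y b) * H x y v := by group
    _ = H x y a * (H x y b * H x y n₁) * H x y v := by rw [hc.eq]
    _ = _ := by group

end Datum

end Cfsg.Agent.Lib.RootSubgroups.Steinberg
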