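import Cfsg.Agent.Lib.RootSubgroups.Steinberg

/-!
The homomorphism from `SL₂(k)` defined by a Steinberg datum with multiplicative diagonal elements.
-/

set_option autoImplicit false

namespace Cfsg.Agent.Lib.RootSubgroups.Steinberg

open Cfsg.Agent.Lib.KS2.SL2 Cfsg.Agent.Lib.RootSubgroups.SL2Pair
open scoped MatrixGroups

variable {k Y : Type*} [Field k] [Group Y] {x y : k → Y}

open Classical in
/-- The map on Bruhat normal forms. -/
noncomputable def phi (x y : k → Y) (g : SL(2, k)) : Y :=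
  if (g : Matrix (Fin 2) (Fin 2) k) 1 0 = 0 then
    x ((g : Matrix (Fin 2) (Fin 2) k) 0 0 * (g : Matrix (Fin 2) (Fin 2) k) 0 1) *
      H x y ((g : Matrix (Fin 2) (Fin 2) k) 0 0)
  else
    x ((g : Matrix (Fin 2) (Fin 2) k) 0 0 * ((g : Matrix (Fin 2) (Fin 2) k) 1 0)⁻¹) *
      w x y (-((g : Matrix (Fin 2) (Fin 2) k) 1 0)⁻¹) *
      x ((g : Matrix (Fin 2) (Fin 2) k) 1 1 * ((g : Matrix (Fin 2) (Fin 2) k) 1 0)⁻¹)

lemma phi_of_eq {g : SL(2, k)} (h : (g : Matrix (Fin 2) (Fin 2) k) 1 0 = 0) :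
    phi x y g = x ((g : Matrix (Fin 2) (Fin 2) k) 0 0 * (g : Matrix (Fin 2) (Fin 2) k) 0 1) *
      H x y ((g : Matrix (Fin 2) (Fin 2) k) 0 0) := by
  unfold phi
  rw [if_pos h]

lemma phi_of_ne {g : SL(2, k)} (h : (g : Matrix (Fin 2) (Fin 2) k) 1 0 ≠ 0) :
    phi x y g = x ((g : Matrix (Fin 2) (Fin 2) k) 0 0 * ((g : Matrix (Fin 2) (Fin 2) k) 1 0)⁻¹) *
      w x y (-((g : Matrix (Fin 2) (Fin 2) k) 1 0)⁻¹) *
      x ((g : Matrix (Fin 2) (Fin 2) k) 1 1 * ((g : Matrix (Fin 2) (Fin 2) k) 1 0)⁻¹) := by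
  unfold phi
  rw [if_neg h]

/-- the matrix of `w 1` -/
def w0 : SL(2, k) := mk 0 1 (-1) 0 (by ring)

@[simp] lemma w0_00 : ((w0 : SL(2, k)) : Matrix (Fin 2) (Fin 2) k) 0 0 = 0 := rfl
@[simp] lemma w0_01 : ((w0 : SL(2, k)) : Matrix (Fin 2) (Fin 2) k) 0 1 = 1 := rfl
@[simp] lemma w0_10 : ((w0 : SL(2, k)) : Matrix (Fin 2) (Fin 2) k) 1 0 = -1 := rfl
@[simp] lemma w0_11 : ((w0 : SL(2, k)) : Matrix (Fin 2) (Fin 2) k) 1 1 = 0 := rfl

lemma lo_eq_w0 (s : k) : lo s = (w0 : SL(2, k)) * up (-s) * w0⁻¹ := by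
  apply ext4 <;> simp

namespace Datum

section Hm

variable (D : Datum x y)
  (hm : ∀ t s : k, t ≠ 0 → s ≠ 0 → H x y t * H x y s = H x y (t * s))
include D hm

omit D in
lemma H_mul_w {r s : k} (hr : r ≠ 0) (hs : s ≠ 0) : H x y r * w x y s = w x y (r * s) := by
  have := hm r s hr hs
  unfold H at this ⊢
  have h2 : (w x y r * (w x y 1)⁻¹ * w x y s) * (w x y 1)⁻¹ = w x y (r * s) * (w x y 1)⁻¹ := by
    rw [← this]
    group
  exact mul_right_cancel h2

omit D hm in
lemma w_eq_H_mul {t : k} : w x y t = H x y t * w x y 1 := by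
  unfold H
  group

lemma H_neg_one : H x y (-1 : k) = w x y 1 * w x y 1 := by
  have h1 := hm (-1) (-1) (neg_ne_zero.2 one_ne_zero) (neg_ne_zero.2 one_ne_zero)
  rw [neg_mul_neg, one_mul, Datum.H_one] at h1
  have h2 : H x y (-1 : k) = (w x y 1)⁻¹ * (w x y 1)⁻¹ := by
    unfold H
    rw [D.w_neg]
  have h3 := mul_eq_one_iff_eq_inv.mp h1
  rw [h3, h2]
  simp only [mul_inv_rev, inv_inv]

/-- `w 1 * w t` is a diagonal element. -/
lemma w1_mul_w {t : k} (ht : t ≠ 0) : w x y 1 * w x y t = H x y (-t⁻¹) := by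
  have h1 := D.w_conj_w (t := (1 : k)) one_ne_zero ht
  have h2 : w x y 1 * w x y t = w x y (1 * 1 * t⁻¹) * w x y 1 := by
    rw [← h1]
    group
  rw [h2, one_mul, one_mul, w_eq_H_mul (t := t⁻¹), mul_assoc, ← D.H_neg_one hm,
    hm _ _ (inv_ne_zero ht) (neg_ne_zero.2 one_ne_zero)]
  congr 1
  ring

lemma w_w1_w {r s : k} (hr : r ≠ 0) (hs : s ≠ 0) : w x y r * w x y 1 * w x y s = w x y (-(r * s)) := by
  rw [w_eq_H_mul (t := r), mul_assoc (H x y r), ← D.H_neg_one hm,
    hm _ _ hr (neg_ne_zero.2 one_ne_zero), H_mul_w hm (mul_ne_zero hr (neg_ne_zero.2 one_ne_zero)) hs]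
  congr 1
  ring

lemma phi_one : phi x y (1 : SL(2, k)) = 1 := by
  rw [phi_of_eq (by simp)]
  simp [D.x_zero, Datum.H_one]

lemma phi_up_mul (s : k) (g : SL(2, k)) : phi x y (up s * g) = x s * phi x y g := by
  have hdet := det_rel g
  by_cases hc : (g : Matrix (Fin 2) (Fin 2) k) 1 0 = 0
  · rw [phi_of_eq hc, phi_of_eq (by simp [hc])]
    simp only [mul00, mul01, up00, up01, hc, mul_zero, add_zero, sub_zero, one_mul] at hdet ⊢
    rw [← mul_assoc, ← D.hx]
    congr 2
    rw [mul_add, mul_left_comm, hdet]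
    ring
  · rw [phi_of_ne hc, phi_of_ne (by simpa using hc)]
    simp only [mul00, mul10, mul11, up00, up01, up10, up11, one_mul, zero_mul, zero_add]
    rw [← mul_assoc, ← mul_assoc, ← D.hx]
    congr 3
    field_simp
    ring

lemma phi_w0_mul (g : SL(2, k)) : phi x y (w0 * g) = w x y 1 * phi x y g := by
  have hdet := det_rel g
  set a := (g : Matrix (Fin 2) (Fin 2) k) 0 0 with ha
  set b := (g : Matrix (Fin 2) (Fin 2) k) 0 1 with hb
  set c := (g : Matrix (Fin 2) (Fin 2) k) 1 0 with hc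
  set d := (g : Matrix (Fin 2) (Fin 2) k) 1 1 with hd
  have e00 : ((w0 * g : SL(2, k)) : Matrix (Fin 2) (Fin 2) k) 0 0 = c := by simp [← hc]
  have e01 : ((w0 * g : SL(2, k)) : Matrix (Fin 2) (Fin 2) k) 0 1 = d := by simp [← hd]
  have e10 : ((w0 * g : SL(2, k)) : Matrix (Fin 2) (Fin 2) k) 1 0 = -a := by simp [← ha]
  have e11 : ((w0 * g : SL(2, k)) : Matrix (Fin 2) (Fin 2) k) 1 1 = -b := by simp [← hb]
  have hphi_eq : c = 0 → phi x y g = x (a * b) * H x y a := phi_of_eq
  have hphi_ne : c ≠ 0 → phi x y g = x (a * c⁻¹) * w x y (-c⁻¹) * x (d * c⁻¹) := phi_of_ne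
  by_cases hc0 : c = 0
  · -- `g` is upper triangular
    have ha0 : a ≠ 0 := by
      rintro h
      rw [h, hc0] at hdet
      simp at hdet
    rw [hphi_eq hc0, phi_of_ne (by rw [e10]; exact neg_ne_zero.2 ha0), e00, e10, e11, hc0]
    have h1 : x (a * b) * H x y a = H x y a * x (b * a⁻¹) := by
      have := D.H_conj_x ha0 (b * a⁻¹)
      have e : b * a⁻¹ * a * a = a * b := by field_simp
      rw [e] at this
      rw [← this]
      group
    rw [h1, ← mul_assoc]
    have h2 : w x y 1 * H x y a = w x y a⁻¹ := by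
      have := D.w1_conj_H ha0
      rw [w_eq_H_mul (t := a⁻¹), ← this]
      group
    rw [h2]
    simp only [zero_mul, neg_zero, D.x_zero, one_mul, inv_neg, neg_neg, neg_mul, mul_neg]
  · rw [hphi_ne hc0]
    by_cases ha0 : a = 0
    · rw [phi_of_eq (by rw [e10, ha0, neg_zero]), e00, e01, ha0]
      simp only [zero_mul, D.x_zero, one_mul]
      rw [← mul_assoc, D.w1_mul_w hm (neg_ne_zero.2 (inv_ne_zero hc0))]
      have e : -(-c⁻¹)⁻¹ = c := by
        rw [inv_neg, inv_inv, neg_neg]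
      rw [e]
      have h3 := D.H_conj_x hc0 (d * c⁻¹)
      have e2 : d * c⁻¹ * c * c = c * d := by field_simp
      rw [e2] at h3
      rw [← h3]
      group
    · rw [phi_of_ne (by rw [e10]; exact neg_ne_zero.2 ha0), e00, e10, e11]
      set u := a * c⁻¹ with hu
      have hu0 : u ≠ 0 := mul_ne_zero ha0 (inv_ne_zero hc0)
      set t := -c⁻¹ with ht
      have ht0 : t ≠ 0 := neg_ne_zero.2 (inv_ne_zero hc0)
      have h1 : w x y 1 * x u = y (-u) * w x y 1 := by
        have := D.w_conj_x (t := (1 : k)) one_ne_zero u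
        have e : -(u * 1⁻¹ * 1⁻¹) = -u := by simp
        rw [e] at this
        rw [← this]
        group
      have h2 : y (-u) = x (-u⁻¹) * w x y u⁻¹ * x (-u⁻¹) := by
        have := D.y_eq_x_w_x (t := u⁻¹)
        rwa [inv_inv] at this
      have h3 : x (-u⁻¹) * (w x y 1 * w x y t) = (w x y 1 * w x y t) * x (-u⁻¹ * t * t) := by
        have := D.ww_x one_ne_zero ht0 (-u⁻¹ * t * t)
        have e : -u⁻¹ * t * t * 1 * 1 * t⁻¹ * t⁻¹ = -u⁻¹ := by field_simp
        rw [e] at this
        exact this.symm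
      symm
      calc w x y 1 * (x u * w x y t * x (d * c⁻¹))
          = (w x y 1 * x u) * w x y t * x (d * c⁻¹) := by group
        _ = x (-u⁻¹) * w x y u⁻¹ * (x (-u⁻¹) * (w x y 1 * w x y t)) * x (d * c⁻¹) := by
            rw [h1, h2]
            group
        _ = x (-u⁻¹) * (w x y u⁻¹ * w x y 1 * w x y t) * (x (-u⁻¹ * t * t) * x (d * c⁻¹)) := by
            rw [h3]
            group
        _ = x (-u⁻¹) * w x y (-(u⁻¹ * t)) * x (-u⁻¹ * t * t + d * c⁻¹) := by
            rw [D.w_w1_w hm (inv_ne_zero hu0) ht0, ← D.hx]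
        _ = _ := by
            have e1 : c * (-a)⁻¹ = -u⁻¹ := by
              rw [hu]
              field_simp
            have e2 : -(-a)⁻¹ = -(u⁻¹ * t) := by
              rw [hu, ht]
              field_simp
            have e3 : -b * (-a)⁻¹ = -u⁻¹ * t * t + d * c⁻¹ := by
              rw [hu, ht]
              field_simp
              linear_combination (-1 : k) * hdet
            rw [e1, e2, e3]

lemma phi_up (s : k) : phi x y (up s) = x s := by
  have := D.phi_up_mul hm s 1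
  rwa [mul_one, D.phi_one hm, mul_one] at this

lemma phi_w0 : phi x y (w0 : SL(2, k)) = w x y 1 := by
  have := D.phi_w0_mul hm (1 : SL(2, k))
  rwa [mul_one, D.phi_one hm, mul_one] at this

/-- multiplicativity -/
theorem phi_mul (g h : SL(2, k)) : phi x y (g * h) = phi x y g * phi x y h := by
  have hone := D.phi_one hm
  let S : Subgroup SL(2, k) :=
    { carrier := {g | ∀ h, phi x y (g * h) = phi x y g * phi x y h}
      one_mem' := by
        intro h
        simp [hone]
      mul_mem' := by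
        intro g g' hg hg' h
        rw [mul_assoc, hg, hg', hg g', mul_assoc]
      inv_mem' := by
        intro g hg h
        have h1 : phi x y g * phi x y (g⁻¹ * h) = phi x y h := by
          rw [← hg]
          simp
        have h2 : phi x y g * phi x y g⁻¹ = 1 := by
          rw [← hg]
          simp [hone]
        have h3 : phi x y g⁻¹ = (phi x y g)⁻¹ := eq_inv_of_mul_eq_one_right h2
        rw [h3, eq_inv_mul_iff_mul_eq]
        exact h1 }
  have hup : ∀ s : k, up s ∈ S := by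
    intro s h
    rw [D.phi_up_mul hm, D.phi_up hm]
  have hw : (w0 : SL(2, k)) ∈ S := by
    intro h
    rw [D.phi_w0_mul hm, D.phi_w0 hm]
  have hlo : ∀ s : k, lo s ∈ S := by
    intro s
    rw [lo_eq_w0]
    exact S.mul_mem (S.mul_mem hw (hup _)) (S.inv_mem hw)
  have htop : S = ⊤ := by
    rw [eq_top_iff, ← sup_eq_top (k := k)]
    apply sup_le
    · intro g hg
      obtain ⟨t, rfl⟩ := mem_lower_iff.mp hg
      exact hlo t
    · intro g hg
      obtain ⟨t, rfl⟩ := mem_upper_iff.mp hg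
      exact hup t
  have : g ∈ S := by rw [htop]; trivial
  exact this h

/-- The homomorphism. -/
noncomputable def phiHom : SL(2, k) →* Y := MonoidHom.mk' (phi x y) (D.phi_mul hm)

lemma phiHom_up (s : k) : D.phiHom hm (up s) = x s := D.phi_up hm s

lemma phiHom_w0 : D.phiHom hm (w0 : SL(2, k)) = w x y 1 := D.phi_w0 hm

lemma phiHom_lo (s : k) : D.phiHom hm (lo s) = y s := by
  rw [lo_eq_w0, map_mul, map_mul, map_inv, phiHom_up, phiHom_w0, D.w_conj_x one_ne_zero]
  congr 1
  simp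

/-- The kernel is central as soon as `x` and `y` are independent. -/
theorem ker_le_center (hinj : ∀ s t : k, x s * y t = 1 → s = 0 ∧ t = 0) :
    (D.phiHom hm).ker ≤ Subgroup.center SL(2, k) := by
  set φ := D.phiHom hm with hφ
  have hx1 : ∀ s : k, x s = 1 → s = 0 := by
    intro s hs
    exact (hinj s 0 (by rw [hs, D.y_zero, one_mul])).1
  have step1 : ∀ g ∈ φ.ker, (g : Matrix (Fin 2) (Fin 2) k) 1 0 = 0 := by
    intro g hg
    by_contra hc
    have hdet := det_rel g
    set a := (g : Matrix (Fin 2) (Fin 2) k) 0 0 with ha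
    set b := (g : Matrix (Fin 2) (Fin 2) k) 0 1 with hb
    set c := (g : Matrix (Fin 2) (Fin 2) k) 1 0 with hc'
    set d := (g : Matrix (Fin 2) (Fin 2) k) 1 1 with hd
    -- normalise the upper left entry
    set s₀ := -(a * c⁻¹) with hs₀
    set g' := up s₀ * g * (up s₀)⁻¹ with hg'
    have hg'K : g' ∈ φ.ker := (MonoidHom.normal_ker φ).conj_mem g hg (up s₀)
    have e : g' * up (-1) * g'⁻¹ = lo (c * c) := by
      have h00 : (g' : Matrix (Fin 2) (Fin 2) k) 0 0 = 0 := by
        rw [hg', up_inv]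
        simp [← ha, ← hc', hs₀]
        field_simp
        ring
      have h10 : (g' : Matrix (Fin 2) (Fin 2) k) 1 0 = c := by
        rw [hg', up_inv]
        simp [← hc']
      have hdet' := det_rel g'
      rw [h00, h10, zero_mul, zero_sub] at hdet'
      set b' := (g' : Matrix (Fin 2) (Fin 2) k) 0 1 with hb'
      set d' := (g' : Matrix (Fin 2) (Fin 2) k) 1 1 with hd'
      apply ext4
      · simp [h00, h10, ← hb', ← hd']
        linear_combination hdet'
      · simp [h00, h10, ← hb', ← hd']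
      · simp [h00, h10, ← hb', ← hd']
        ring
      · simp [h00, h10, ← hb', ← hd']
        linear_combination hdet'
    have h1 : φ (g' * up (-1) * g'⁻¹) = x (-1) := by
      rw [map_mul, map_mul, map_inv, MonoidHom.mem_ker.mp hg'K, phiHom_up]
      simp
    rw [e, phiHom_lo] at h1
    have h2 : x 1 * y (c * c) = 1 := by
      rw [h1, D.x_neg]
      simp
    exact one_ne_zero (hinj _ _ h2).1
  intro g hg
  have hc := step1 g hg
  have hdet := det_rel g
  rw [hc, mul_zero, sub_zero] at hdet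
  set a := (g : Matrix (Fin 2) (Fin 2) k) 0 0 with ha
  set b := (g : Matrix (Fin 2) (Fin 2) k) 0 1 with hb
  set d := (g : Matrix (Fin 2) (Fin 2) k) 1 1 with hd
  have ha0 : a ≠ 0 := left_ne_zero_of_mul_eq_one hdet
  have hda : d = a⁻¹ := eq_inv_of_mul_eq_one_right hdet
  have h1 : g * up 1 * g⁻¹ * up (-1) = up (a * a - 1) := by
    apply ext4
    · simp [hc, ← ha, ← hb, ← hd]
      linear_combination hdet
    · simp [hc, ← ha, ← hb, ← hd]
      linear_combination (-1 : k) * hdet
    · simp [hc, ← ha, ← hb, ← hd]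
    · simp [hc, ← ha, ← hb, ← hd]
      linear_combination hdet
  have h2 : φ (g * up 1 * g⁻¹ * up (-1)) = 1 := by
    rw [map_mul, map_mul, map_mul, map_inv, MonoidHom.mem_ker.mp hg, phiHom_up, phiHom_up, D.x_neg]
    simp
  rw [h1, phiHom_up] at h2
  have h3 : a * a = 1 := by
    have := hx1 _ h2
    linear_combination this
  have hda' : d = a := by
    rw [hda]
    field_simp
    linear_combination -h3
  have h4 := step1 _ ((MonoidHom.normal_ker φ).conj_mem g hg (lo 1))
  rw [lo_inv] at h4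
  simp [hc, ← ha, ← hb, ← hd] at h4
  have hb0 : b = 0 := by
    rw [hda'] at h4
    linear_combination -h4
  rw [← isScalar_iff_center]
  exact ⟨hb0, hc, hda'.symm⟩

end Hm

end Datum

end Cfsg.Agent.Lib.RootSubgroups.Steinberg
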